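import Cfsg.Agent.C3Max.Symp
import Cfsg.Agent.FieldExtMax.MatrixForm
import Cfsg.Agent.Classical.SympFormStd

/-!
The normaliser of a self-adjoint extension field of prime degree is maximal in the symplectic group.
-/

set_option autoImplicit false
set_option linter.style.haveILetI false

namespace CfsgLib.C3Max

open Module Matrix CfsgLib.FieldExtMax

theorem symp_normalizer_maximal {F : Type*} [Field F] [Fintype F] {m r : ℕ} (hm : 3 ≤ m) (hr : r.Prime)
    {K : Subalgebra F (Matrix (Fin m ⊕ Fin m) (Fin m ⊕ Fin m) F)}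
    (hK : Cfsg.Geo.IsFieldSubalgebra r K) (hsa : Cfsg.Geo.IsSelfAdjointFor (Cfsg.sympForm m F) K)
    (halt : ∀ k ∈ K, ∀ v : Fin m ⊕ Fin m → F, Cfsg.sympForm m F (k *ᵥ v) v = 0) :
    Cfsg.Geo.IsMaximalIn (Cfsg.spGL m F) (Cfsg.Geo.subalgebraNormalizer K ⊓ Cfsg.spGL m F) := by
  classical
  haveI : Nonempty (Fin m ⊕ Fin m) := ⟨.inl ⟨0, by omega⟩⟩
  letI : Field K := fieldOf hK
  letI : Module K (Fin m ⊕ Fin m → F) := moduleOf K
  haveI : IsScalarTower F K (Fin m ⊕ Fin m → F) := ⟨fun c k y => smul_mulVec c (k : Matrix (Fin m ⊕ Fin m) (Fin m ⊕ Fin m) F) y⟩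
  haveI : Finite K := inferInstance
  haveI : FiniteDimensional F K := Module.Finite.of_finite
  haveI : IsGalois F K := GaloisField.instIsGaloisOfFinite
  haveI : FiniteDimensional K (Fin m ⊕ Fin m → F) := Module.Finite.of_finite
  have hS := SympFormStd.isSymplecticForm m F
  let f : (Fin m ⊕ Fin m → F) →ₗ[F] (Fin m ⊕ Fin m → F) →ₗ[F] F := LinearMap.mk₂ F (Cfsg.sympForm m F)
    hS.bilinear.add_left hS.bilinear.smul_left hS.bilinear.add_right hS.bilinear.smul_right
  obtain ⟨B, hB⟩ := exists_bilinear (L := K) f fun l x y => hsa l l.2 x y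
  have hf : ∀ x y, Algebra.trace F K (B x y) = Cfsg.sympForm m F x y := hB
  have hfr : finrank F K = r := hK.finrank_eq
  have hBalt : ∀ v, B v v = 0 := fun v => eq_zero_of_trace (F := F) fun l => by
    rw [← smul_eq_mul, ← LinearMap.smul_apply, ← map_smul, hf]
    exact halt l l.2 v
  have hskew : ∀ x y, B x y = -B y x := fun x y => by
    have h := hBalt (x + y)
    simp only [map_add, LinearMap.add_apply, hBalt] at h
    linear_combination h
  have hnd : ∀ v, v ≠ 0 → ∃ w, B v w ≠ 0 := fun v hv => by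
    obtain ⟨⟨w, hw⟩, ⟨w', hw'⟩⟩ := hS.nondegenerate v hv
    by_contra! h
    have h1 := h w
    have h2 := h w'
    first
      | exact hw (by rw [← hf, h1, map_zero])
      | exact hw' (by rw [← hf, h2, map_zero])
  -- dimension over the field
  have hn : finrank F (Fin m ⊕ Fin m → F) = m + m := by simp
  have hmul := Module.finrank_mul_finrank F K (Fin m ⊕ Fin m → F)
  rw [hfr, hn] at hmul
  have h2 : 2 ≤ finrank K (Fin m ⊕ Fin m → F) := by
    by_contra! hc
    obtain ⟨v, hv⟩ := exists_ne (0 : Fin m ⊕ Fin m → F)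
    obtain ⟨w, hw⟩ := hnd v hv
    have h1 : finrank K (Fin m ⊕ Fin m → F) = 1 := by
      interval_cases hh : finrank K (Fin m ⊕ Fin m → F)
      · omega
      · rfl
    obtain ⟨c, rfl⟩ := (finrank_eq_one_iff_of_nonzero' v hv).1 h1 w
    simp [hBalt] at hw
  have h3 : 3 ≤ finrank K (Fin m ⊕ Fin m → F) ∨ 3 ≤ finrank F K := by
    rw [hfr]
    by_contra! hc
    have := hr.two_le
    have h4 : r * finrank K (Fin m ⊕ Fin m → F) ≤ 2 * 2 := Nat.mul_le_mul (by omega) (by omega)
    omega
  have hsemi : ∀ g : GL (Fin m ⊕ Fin m) F, glEquiv g ∈ semiLin F K (Fin m ⊕ Fin m → F) ↔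
      g ∈ Cfsg.Geo.subalgebraNormalizer K := by
    intro g
    rw [mem_normalizer_iff hK]
    constructor
    · intro h k hk
      obtain ⟨l, hl⟩ := h ⟨k, hk⟩
      exact ⟨l, l.2, fun y => hl y⟩
    · intro h l
      obtain ⟨k', hk', he⟩ := h l l.2
      exact ⟨⟨k', hk'⟩, fun y => he y⟩
  refine ⟨lt_of_le_of_ne inf_le_right fun he => ?_, fun M hle hMS => ?_⟩
  · -- a transvection over `F` is not semilinear
    obtain ⟨w, hw⟩ := exists_ne (0 : Fin m ⊕ Fin m → F)
    obtain ⟨z, hz⟩ : ∃ z, B z w = 1 := by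
      obtain ⟨z, hz⟩ := hnd w hw
      exact ⟨-((B w z)⁻¹ • z), by
        rw [map_neg, LinearMap.neg_apply, map_smul, LinearMap.smul_apply, smul_eq_mul, hskew z w, mul_neg,
          neg_neg, inv_mul_cancel₀ hz]⟩
    obtain ⟨β, hβ, hβF⟩ : ∃ β : K, Algebra.trace F K β = 0 ∧ β ≠ 0 := by
      obtain ⟨l, hl⟩ := Algebra.trace_surjective F K 1
      by_contra! hc
      have h1 : finrank F K ≤ 1 := by
        have h1 := LinearMap.finrank_range_add_finrank_ker (Algebra.trace F K)
        rw [show LinearMap.ker (Algebra.trace F K) = ⊥ from (Submodule.eq_bot_iff _).2 fun x hx => hc x hx,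
          finrank_bot, add_zero] at h1
        have h2 := Submodule.finrank_le (LinearMap.range (Algebra.trace F K))
        rw [finrank_self] at h2
        omega
      rw [hfr] at h1
      exact absurd hr.two_le (by omega)
    have hT := SympFormStd.sympT_mem_spGL (F := F) w 1
    rw [← he] at hT
    obtain ⟨l, hl⟩ := Algebra.trace_surjective F K 1
    obtain ⟨l', hl'⟩ := (hsemi _).2 hT.1 (l * β⁻¹)
    have hgy : ∀ y, glEquiv (AltFormTransv.sympT hS w 1) y = y + Algebra.trace F K (B y w) • w := fun y => by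
      rw [glEquiv_apply, AltFormTransv.sympT_mulVec, one_mul, hf]
    have h := hl' (β • z)
    rw [hgy, hgy, smul_smul, inv_mul_cancel_right₀ hβF] at h
    simp only [map_smul, LinearMap.smul_apply, hz, smul_eq_mul, mul_one, hl, hβ, zero_smul, add_zero,
      one_smul, smul_smul] at h
    have h' := congrArg (fun v => B v w) h
    simp only [map_add, map_smul, LinearMap.add_apply, LinearMap.smul_apply, hBalt, hz, smul_eq_mul,
      mul_one, add_zero] at h'
    rw [← h'] at h
    exact hw (by simpa using h)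
  · set MV := M.map (glEquiv (ι := Fin m ⊕ Fin m) (F := F)).toMonoidHom
    have hpres : ∀ {e}, e ∈ MV → ∀ x y, Algebra.trace F K (B (e x) (e y)) = Algebra.trace F K (B x y) := by
      rintro _ ⟨g, hg, rfl⟩ x y
      rw [hf, hf]
      exact (SympFormStd.mem_spGL.1 (hMS hg)) x y
    have hover : Symp.Over B MV := by
      refine ⟨hBalt, hnd, fun g hg => hpres hg, fun w c => ?_⟩
      have hu : (c • B.flip w) w = 0 := by simp [hBalt]
      set e := (LinearEquiv.transvection hu).restrictScalars F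
      have hey : ∀ y, e y = y + (c * B y w) • w := fun y => by
        simp [e, LinearMap.transvection.apply]
      obtain ⟨g, hg⟩ := (glEquiv (ι := Fin m ⊕ Fin m) (F := F)).surjective e
      refine ⟨e, ⟨g, hle ⟨(hsemi g).1 (hg ▸ ?_), ?_⟩, hg⟩, hey⟩
      · intro l
        exact ⟨l, fun y => map_smul (LinearEquiv.transvection hu) l y⟩
      · refine SympFormStd.mem_spGL.2 fun x y => ?_
        rw [← glEquiv_apply, ← glEquiv_apply, hg, ← hf, ← hf, hey, hey]
        simp only [map_add, map_smul, LinearMap.add_apply, LinearMap.smul_apply, smul_eq_mul, hBalt,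
          hskew w y]
        ring_nf
        rw [map_neg]
        ring
    rcases Symp.semiLin_or_transvections hover (hfr ▸ hr) h2 h3 with h | h
    · exact Or.inl (le_antisymm (le_inf (fun g hg => (hsemi g).1 (h ⟨g, hg, rfl⟩)) hMS) hle)
    · refine Or.inr (le_antisymm hMS (SympFormStd.spGL_le_of_sympT_mem M fun v c => ?_))
      obtain ⟨e, ⟨g, hg, rfl⟩, hey⟩ := h c v
      rwa [show AltFormTransv.sympT hS v c = g from TransvGL.ext_mulVec fun y => by
        rw [AltFormTransv.sympT_mulVec, ← glEquiv_apply g y, ← hf]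
        exact (hey y).symm]

end CfsgLib.C3Max
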