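import Cfsg.Agent.FieldExtMax.Main

/-!
Translates of `L`-lines under a group of `F`-linear automorphisms of an `L`-space: two of them meeting in the
largest possible dimension produce an element inducing an `F`-transvection on an `L`-line. Also the `L`-bilinear
form behind an `F`-form with self-adjoint scalars, and a lemma on forms twisted by the scalars.
-/

set_option autoImplicit false
set_option linter.unusedSectionVars false
set_option linter.style.haveILetI false

namespace CfsgLib.C3Max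

open Module CfsgLib.FieldExtMax

variable {F L V : Type*} [Field F] [Field L] [Algebra F L] [AddCommGroup V] [Module F V]
  [Module L V] [IsScalarTower F L V]

section field

variable [FiniteDimensional F L]

/-- In an extension of prime degree every element outside the base field generates. -/
lemma adjoin_eq_top (hr : (finrank F L).Prime) {x : L} (hx : x ∉ (algebraMap F L).range) :
    Algebra.adjoin F {x} = ⊤ := by
  haveI := Subalgebra.isSimpleOrder_of_finrank_prime F L hr
  refine (eq_bot_or_eq_top _).resolve_left fun h => hx ?_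
  have h1 : x ∈ Algebra.adjoin F {x} := Algebra.subset_adjoin rfl
  rw [h, Algebra.mem_bot] at h1
  exact h1

/-- A subspace invariant under a generator of `L` is invariant under `L`. -/
lemma mul_mem_of_adjoin (hr : (finrank F L).Prime) {x : L} (hx : x ∉ (algebraMap F L).range)
    {C : Submodule F L} (hC : ∀ c ∈ C, x * c ∈ C) (l : L) {c : L} (hc : c ∈ C) : l * c ∈ C := by
  have hl : l ∈ Algebra.adjoin F {x} := by rw [adjoin_eq_top hr hx]; exact Algebra.mem_top
  induction hl using Algebra.adjoin_induction generalizing c with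
  | mem y hy => rw [Set.mem_singleton_iff.1 hy]; exact hC c hc
  | algebraMap a => rw [← Algebra.smul_def]; exact C.smul_mem a hc
  | add y z _ _ hy hz => rw [add_mul]; exact C.add_mem (hy hc) (hz hc)
  | mul y z _ _ hy hz => rw [mul_assoc]; exact hy (hz hc)

/-- An operator commuting with a generator of `L` is a multiplication. -/
lemma eq_mul_of_commute (hr : (finrank F L).Prime) {x : L} (hx : x ∉ (algebraMap F L).range)
    {T : L →ₗ[F] L} (hT : ∀ y, T (x * y) = x * T y) (y : L) : T y = y * T 1 := by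
  suffices ∀ l ∈ Algebra.adjoin F {x}, ∀ y, T (l * y) = l * T y by
    simpa using this y (by rw [adjoin_eq_top hr hx]; exact Algebra.mem_top) 1
  intro l hl
  induction hl using Algebra.adjoin_induction with
  | mem y hy => rw [Set.mem_singleton_iff.1 hy]; exact hT
  | algebraMap a => intro y; rw [← Algebra.smul_def, ← Algebra.smul_def, map_smul]
  | add y z _ _ hy hz => intro w; rw [add_mul, map_add, hy, hz, add_mul]
  | mul y z _ _ hy hz => intro w; rw [mul_assoc, hy, hz, mul_assoc]

end field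

section trace

variable [FiniteDimensional F L] [Algebra.IsSeparable F L]

lemma eq_zero_of_trace {a : L} (h : ∀ l, Algebra.trace F L (l * a) = 0) : a = 0 := by
  refine (traceForm_nondegenerate F L).1 a fun l => ?_
  rw [Algebra.traceForm_apply, mul_comm]
  exact h l

lemma eq_of_trace {a b : L} (h : ∀ l, Algebra.trace F L (l * a) = Algebra.trace F L (l * b)) : a = b :=
  sub_eq_zero.1 (eq_zero_of_trace (F := F) fun l => by rw [mul_sub, map_sub, h, sub_self])

/-- Every functional is a trace. -/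
lemma exists_trace_eq (φ : L →ₗ[F] F) : ∃ p : L, ∀ z, φ z = Algebra.trace F L (p * z) := by
  obtain ⟨p, hp⟩ := ((Algebra.traceForm F L).toDual (traceForm_nondegenerate F L)).surjective φ
  exact ⟨p, fun z => by rw [← hp]; rfl⟩

/-- The hyperplane killed by a functional contains two independent vectors in degree at least three. -/
lemma exists_ker_not_mem_span (h3 : 3 ≤ finrank F L) (p e : L) :
    ∃ q, Algebra.trace F L (p * q) = 0 ∧ q ∉ F ∙ e := by
  by_contra! h
  let φ : L →ₗ[F] F := Algebra.trace F L ∘ₗ LinearMap.mulLeft F p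
  have h1 := Submodule.finrank_mono (show LinearMap.ker φ ≤ F ∙ e from fun q hq => h q hq)
  have h2 := LinearMap.finrank_range_add_finrank_ker φ
  have h3' := Submodule.finrank_le (LinearMap.range φ)
  have h4 : finrank F ↥(F ∙ e) ≤ 1 := (finrank_span_le_card _).trans (by simp)
  rw [finrank_self] at h3'
  omega

/-- An alternating form vanishing on all the scalar translates of a pair vanishes, unless the pair is
dependent. -/
lemma eq_zero_of_vanish [Finite L] (hr : (finrank F L).Prime) (ω : L →ₗ[F] L →ₗ[F] F) (halt : ∀ x, ω x x = 0)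
    {x y : L} (hxy : y ∉ F ∙ x) (hx : x ≠ 0) (h : ∀ l : L, ω (l * x) (l * y) = 0) : ω = 0 := by
  haveI : Finite F := Finite.of_injective _ (algebraMap F L).injective
  have hskew : ∀ a b, ω a b = -ω b a := fun a b => by
    have := halt (a + b)
    simp only [map_add, LinearMap.add_apply, halt] at this
    linear_combination this
  set z := y * x⁻¹ with hz
  have hzF : z ∉ (algebraMap F L).range := by
    rintro ⟨c, hc⟩
    exact hxy (Submodule.mem_span_singleton.2 ⟨c, by
      rw [Algebra.smul_def, hc, hz, inv_mul_cancel_right₀ hx]⟩)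
  have h' : ∀ a, ω a (a * z) = 0 := fun a => by
    have := h (a * x⁻¹)
    rwa [inv_mul_cancel_right₀ hx, mul_assoc, mul_comm x⁻¹ y] at this
  have hlin : ∀ a b, ω (a * z) b = ω a (b * z) := fun a b => by
    have := h' (a + b)
    simp only [add_mul, map_add, LinearMap.add_apply, h'] at this
    rw [hskew (a * z) b]
    linear_combination -this
  choose T hT using fun a => exists_trace_eq (ω a)
  let T' : L →ₗ[F] L :=
    { toFun := T
      map_add' := fun a b => eq_of_trace (F := F) fun l => by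
        rw [mul_comm, ← hT, map_add, LinearMap.add_apply, hT, hT, mul_add, map_add, mul_comm l, mul_comm l]
      map_smul' := fun c a => eq_of_trace (F := F) fun l => by
        rw [mul_comm, ← hT, map_smul, LinearMap.smul_apply, hT, RingHom.id_apply, mul_smul_comm, map_smul,
          mul_comm l] }
  have hcomm : ∀ a, T' (z * a) = z * T' a := fun a => eq_of_trace (F := F) fun l => by
    show Algebra.trace F L (l * T (z * a)) = Algebra.trace F L (l * (z * T a))
    rw [mul_comm l, ← hT, mul_comm z a, hlin, hT]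
    ring_nf
  set d := T' 1
  have hω : ∀ a b, ω a b = Algebra.trace F L (d * a * b) := fun a b => by
    rw [hT]
    show Algebra.trace F L (T' a * b) = _
    rw [eq_mul_of_commute hr hzF hcomm, mul_comm a]
  have hd : d = 0 := by
    by_cases h2 : (2 : F) = 0
    · refine eq_zero_of_trace (F := F) fun l => ?_
      have hchar : ringChar L = 2 := by
        haveI : Fact (Nat.Prime 2) := ⟨Nat.prime_two⟩
        haveI : CharP L 2 := (CharP.charP_iff_prime_eq_zero Nat.prime_two).2 (by
          have := congrArg (algebraMap F L) h2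
          rwa [map_ofNat, map_zero] at this)
        exact ringChar.eq L 2
      letI := Fintype.ofFinite L
      obtain ⟨s, hs⟩ := FiniteField.isSquare_of_char_two hchar l
      have := halt s
      rw [hω] at this
      rwa [hs, mul_comm, ← mul_assoc]
    · refine eq_zero_of_trace (F := F) fun l => ?_
      have e1 := hω l 1
      have e2 := hω 1 l
      rw [mul_one] at e1 e2
      rw [hskew 1 l] at e2
      have : (2 : F) * Algebra.trace F L (l * d) = 0 := by
        rw [mul_comm l d]
        linear_combination -e1 - e2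
      exact (mul_eq_zero.1 this).resolve_left h2
  ext a b
  simp [hω, hd]

omit [Algebra.IsSeparable F L] in
lemma trace_smul_mul (c : F) (a b : L) :
    Algebra.trace F L (a * (c • b)) = c * Algebra.trace F L (a * b) := by
  rw [mul_smul_comm, map_smul, smul_eq_mul]

/-- The `L`-bilinear form whose trace is a given `F`-form with self-adjoint scalars. -/
lemma exists_bilinear [IsGalois F L] [Finite L] [FiniteDimensional L V] (f : V →ₗ[F] V →ₗ[F] F)
    (hsa : ∀ (l : L) x y, f (l • x) y = f x (l • y)) :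
    ∃ B : V →ₗ[L] V →ₗ[L] L, ∀ x y, Algebra.trace F L (B x y) = f x y := by
  choose φ hφ using fun y => traceDual_surjective (L := L) (f.flip y)
  have key : ∀ y x, Algebra.trace F L (φ y x) = f x y := fun y x => by
    rw [← traceDual_apply, hφ]; rfl
  have hext : ∀ (a b : Dual L V), (∀ x, Algebra.trace F L (a x) = Algebra.trace F L (b x)) → a = b :=
    fun a b h => LinearMap.ext fun x => eq_of_trace (F := F) fun l => by
      simpa using h (l • x)
  let Φ : V →ₗ[L] Dual L V :=
    { toFun := φ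
      map_add' := fun y z => hext _ _ fun x => by simp [key]
      map_smul' := fun l y => hext _ _ fun x => by
        rw [RingHom.id_apply, LinearMap.smul_apply, smul_eq_mul, ← smul_eq_mul, ← map_smul, key, key, hsa] }
  exact ⟨Φ.flip, fun x y => key y x⟩

end trace

/-- `h` in `M` maps the line of `x₀` to a non-line through `v`. -/
def IsPair (L : Type*) [Field L] [Algebra F L] [Module L V] [IsScalarTower F L V] (P : V → Prop)
    (M : Subgroup (V ≃ₗ[F] V)) (h : V ≃ₗ[F] V) (v x₀ : V) : Prop :=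
  h ∈ M ∧ P v ∧ P x₀ ∧ v ≠ 0 ∧ x₀ ≠ 0 ∧ v ∈ (lineF L x₀).map (h : V →ₗ[F] V) ∧
    (lineF L x₀).map (h : V →ₗ[F] V) ≠ lineF L v

/-- The dimension of the intersection of the two members of a pair. -/
noncomputable def meetDim (L : Type*) [Field L] [Algebra F L] [Module L V] [IsScalarTower F L V]
    (h : V ≃ₗ[F] V) (v x₀ : V) : ℕ :=
  finrank F ↥(lineF L v ⊓ (lineF L x₀).map (h : V →ₗ[F] V))

/-- A pair meeting in the largest possible dimension. -/
def IsMaxPair (L : Type*) [Field L] [Algebra F L] [Module L V] [IsScalarTower F L V] (P : V → Prop)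
    (M : Subgroup (V ≃ₗ[F] V)) (h : V ≃ₗ[F] V) (v x₀ : V) : Prop :=
  IsPair L P M h v x₀ ∧ ∀ h' v' x₀', IsPair L P M h' v' x₀' → meetDim L h' v' x₀' ≤ meetDim L h v x₀

variable {M : Subgroup (V ≃ₗ[F] V)} {P : V → Prop} [Finite L] [IsGalois F L] [FiniteDimensional F L]
  [FiniteDimensional F V] [FiniteDimensional L V]

lemma exists_isMaxPair {h : V ≃ₗ[F] V} {v x₀ : V} (hp : IsPair L P M h v x₀) :
    ∃ h' v' x₀', IsMaxPair L P M h' v' x₀' := by
  classical
  let Q : ℕ → Prop := fun k => ∃ h' v' x₀', IsPair L P M h' v' x₀' ∧ meetDim L h' v' x₀' = k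
  have hQ : ∀ k, Q k → k ≤ finrank F L := by
    rintro k ⟨h', v', x₀', hp', rfl⟩
    exact (Submodule.finrank_mono inf_le_left).trans (finrank_lineF hp'.2.2.2.1).le
  have h0 : Q (meetDim L h v x₀) := ⟨h, v, x₀, hp, rfl⟩
  obtain ⟨h', v', x₀', hp', hk⟩ := Nat.findGreatest_spec (hQ _ h0) h0
  exact ⟨h', v', x₀', hp', fun a b c habc => hk ▸
    Nat.le_findGreatest (hQ _ ⟨a, b, c, habc, rfl⟩) ⟨a, b, c, habc, rfl⟩⟩

variable {h : V ≃ₗ[F] V} {v x₀ : V}

/-- Two translates of a member are translates of one line and a member. -/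
lemma IsMaxPair.meet_le (hp : IsMaxPair L P M h v x₀) (hP : ∀ (l : L) a, P a → P (l • a))
    {t : V ≃ₗ[F] V} (ht : t ∈ M) {w : V} (hw0 : w ≠ 0)
    (hwS : w ∈ (lineF L x₀).map (h : V →ₗ[F] V))
    (hwT : w ∈ ((lineF L x₀).map (h : V →ₗ[F] V)).map (t : V →ₗ[F] V))
    (hne : ((lineF L x₀).map (h : V →ₗ[F] V)).map (t : V →ₗ[F] V) ≠ (lineF L x₀).map (h : V →ₗ[F] V)) :
    IsPair L P M (h⁻¹ * t * h) (h.symm w) x₀ ∧
      meetDim L (h⁻¹ * t * h) (h.symm w) x₀ = finrank F
        ↥(((lineF L x₀).map (h : V →ₗ[F] V)).map (t : V →ₗ[F] V) ⊓ (lineF L x₀).map (h : V →ₗ[F] V)) ∧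
      meetDim L (h⁻¹ * t * h) (h.symm w) x₀ ≤ meetDim L h v x₀ := by
  obtain ⟨⟨hh, hPv, hPx, hv, hx, hvS, hSne⟩, hmax⟩ := hp
  set S := (lineF L x₀).map (h : V →ₗ[F] V) with hS
  have hmw : h.symm w ∈ lineF L x₀ (F := F) := by
    obtain ⟨z, hz, hzw⟩ := hwS
    rw [← hzw]; simpa using hz
  have hw' : h.symm w ≠ 0 := by simpa using hw0
  have hline := lineF_eq_of_mem hmw hw'
  have hback : S.map (h.symm : V →ₗ[F] V) = lineF L x₀ := by
    rw [hS, ← Submodule.map_comp, show (h.symm : V →ₗ[F] V) ∘ₗ (h : V →ₗ[F] V) = LinearMap.id from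
      LinearMap.ext fun y => h.symm_apply_apply y, Submodule.map_id]
  have himg : (lineF L x₀).map ((h⁻¹ * t * h : V ≃ₗ[F] V) : V →ₗ[F] V)
      = (S.map (t : V →ₗ[F] V)).map (h.symm : V →ₗ[F] V) := by
    rw [hS, ← Submodule.map_comp, ← Submodule.map_comp]; rfl
  have hPw : P (h.symm w) := by
    obtain ⟨l, hl⟩ := mem_lineF.1 hmw
    rw [← hl]; exact hP l _ hPx
  have hpair : IsPair L P M (h⁻¹ * t * h) (h.symm w) x₀ := by
    refine ⟨M.mul_mem (M.mul_mem (M.inv_mem hh) ht) hh, hPw, hPx, hw', hx, ?_, ?_⟩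
    · rw [himg]; exact ⟨w, hwT, rfl⟩
    · rw [himg, hline, ← hback]
      exact fun he => hne (Submodule.map_injective_of_injective h.symm.injective he)
  refine ⟨hpair, ?_, hmax _ _ _ hpair⟩
  unfold meetDim
  rw [himg, hline, ← hback, ← Submodule.map_inf _ h.symm.injective, LinearEquiv.finrank_map_eq,
    inf_comm]

/-- An element fixing the intersection and moving a further vector into the member stabilises it. -/
lemma IsMaxPair.stab (hp : IsMaxPair L P M h v x₀) (hP : ∀ (l : L) a, P a → P (l • a))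
    {t : V ≃ₗ[F] V} (ht : t ∈ M)
    (hfix : ∀ y ∈ lineF L v ⊓ (lineF L x₀).map (h : V →ₗ[F] V),
      y ∈ ((lineF L x₀).map (h : V →ₗ[F] V)).map (t : V →ₗ[F] V))
    {u : V} (hu : u ∉ lineF L v (F := F)) (huS : u ∈ (lineF L x₀).map (h : V →ₗ[F] V))
    (hut : u ∈ ((lineF L x₀).map (h : V →ₗ[F] V)).map (t : V →ₗ[F] V)) :
    ((lineF L x₀).map (h : V →ₗ[F] V)).map (t : V →ₗ[F] V) = (lineF L x₀).map (h : V →ₗ[F] V) := by
  by_contra hne
  set S := (lineF L x₀).map (h : V →ₗ[F] V)
  obtain ⟨-, h1, h2⟩ := hp.meet_le hP ht (w := v) hp.1.2.2.2.1 hp.1.2.2.2.2.2.1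
    (hfix v ⟨self_mem_lineF v, hp.1.2.2.2.2.2.1⟩) hne
  have hlt : lineF L v ⊓ S < S.map (t : V →ₗ[F] V) ⊓ S := by
    refine lt_of_le_of_ne (fun y hy => ⟨hfix y hy, hy.2⟩) fun he => hu ?_
    exact (show u ∈ lineF L v ⊓ S by rw [he]; exact ⟨hut, huS⟩).1
  have := Submodule.finrank_lt_finrank_of_lt hlt
  rw [← h1] at this
  exact absurd h2 (not_le.2 this)

/-- A family of elements translating a member along `L v` produces a transvection on an `L`-line. -/
lemma IsMaxPair.exists_transvection (hr : (finrank F L).Prime) (hp : IsMaxPair L P M h v x₀)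
    (hP : ∀ (l : L) a, P a → P (l • a)) (t : L → (V ≃ₗ[F] V)) (ht : ∀ c, t c ∈ M) (γ : V →ₗ[F] L)
    (hγv : ∀ l : L, γ (l • v) = 0)
    (htS : ∀ c, ∀ y ∈ (lineF L x₀).map (h : V →ₗ[F] V), t c y = y + (c * γ y) • v)
    {u₀ : V} (hu₀ : u₀ ∈ (lineF L x₀).map (h : V →ₗ[F] V)) (hγu₀ : γ u₀ ≠ 0) :
    ∃ (c : L) (φ : L →ₗ[F] F) (e : L), φ ≠ 0 ∧ e ≠ 0 ∧ φ e = 0 ∧
      h⁻¹ * t c * h ∈ M ∧ ∀ l : L, (h⁻¹ * t c * h) (l • x₀) = (l + φ l • e) • x₀ := by
  classical
  obtain ⟨hh, hPv, hPx, hv, hx, hvS, hSne⟩ := hp.1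
  set S := (lineF L x₀).map (h : V →ₗ[F] V) with hS
  let C : Submodule F L :=
    { carrier := {c | c • v ∈ S}
      zero_mem' := by simp
      add_mem' := fun {a b} (ha : a • v ∈ S) (hb : b • v ∈ S) => by
        show (a + b) • v ∈ S; rw [add_smul]; exact S.add_mem ha hb
      smul_mem' := fun c a (ha : a • v ∈ S) => by
        show (c • a) • v ∈ S; rw [smul_assoc]; exact S.smul_mem c ha }
  have hC1 : (1 : L) ∈ C := by show (1 : L) • v ∈ S; rwa [one_smul]
  have hdimS : finrank F S = finrank F L := by rw [hS, LinearEquiv.finrank_map_eq, finrank_lineF hx]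
  -- a translation by an element of `C` stabilises
  have key : ∀ c u, u ∈ S → γ u ≠ 0 → c * γ u ∈ C → ∀ u' ∈ S, c * γ u' ∈ C := by
    intro c u hu hγu hcu
    have hu' : u ∉ lineF L v (F := F) := fun hm => by
      obtain ⟨l, rfl⟩ := mem_lineF.1 hm
      exact hγu (hγv l)
    have hst := hp.stab hP (ht c) (fun y hy => by
      obtain ⟨l, hl⟩ := mem_lineF.1 hy.1
      exact ⟨y, hy.2, by
        show t c y = y
        rw [htS c y hy.2, ← hl, hγv, mul_zero, zero_smul, add_zero]⟩) hu' hu
      ⟨u - (c * γ u) • v, S.sub_mem hu hcu, by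
        show t c (u - (c * γ u) • v) = u
        rw [htS c _ (S.sub_mem hu hcu), map_sub, hγv, sub_zero, sub_add_cancel]⟩
    intro u' hu'
    have hm : t c u' ∈ S := by rw [hS, ← hst]; exact ⟨u', hu', rfl⟩
    rw [htS c u' hu'] at hm
    show (c * γ u') • v ∈ S
    simpa using S.sub_mem hm hu'
  -- hence the coefficients of the member are one-dimensional
  have hone : ∀ u ∈ S, ∃ f : F, γ u = f • γ u₀ := by
    intro u hu
    by_contra hcon
    push Not at hcon
    have hx' : γ u * (γ u₀)⁻¹ ∉ (algebraMap F L).range := by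
      rintro ⟨f, hf⟩
      exact hcon f (by rw [Algebra.smul_def, hf, inv_mul_cancel_right₀ hγu₀])
    have hinv : ∀ c ∈ C, γ u * (γ u₀)⁻¹ * c ∈ C := fun c hc => by
      have := key (c * (γ u₀)⁻¹) u₀ hu₀ hγu₀ (by rwa [inv_mul_cancel_right₀ hγu₀]) u hu
      rwa [show c * (γ u₀)⁻¹ * γ u = γ u * (γ u₀)⁻¹ * c by ring] at this
    refine hSne (Submodule.eq_of_le_of_finrank_eq ?_ (by rw [finrank_lineF hv, hdimS])).symm
    intro y hy
    obtain ⟨l, rfl⟩ := mem_lineF.1 hy
    have := mul_mem_of_adjoin hr hx' hinv l hC1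
    rwa [mul_one] at this
  set c := (γ u₀)⁻¹ with hc
  have hcC : c * γ u₀ ∈ C := by rwa [hc, inv_mul_cancel₀ hγu₀]
  -- pulled back to the line
  obtain ⟨z, hz, hzv⟩ := hvS
  obtain ⟨e, rfl⟩ := mem_lineF.1 hz
  have he : e ≠ 0 := fun h0 => hv (by rw [← hzv, h0]; simp)
  let ψ : L →ₗ[F] L := γ ∘ₗ (h : V →ₗ[F] V) ∘ₗ (LinearMap.toSpanSingleton L V x₀).restrictScalars F
  have hψ : ∀ l, ψ l = γ (h (l • x₀)) := fun l => rfl
  choose φ hφ using fun l : L => hone (h (l • x₀)) ⟨_, mem_lineF.2 ⟨l, rfl⟩, rfl⟩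
  have hφinj : ∀ a b : F, a • γ u₀ = b • γ u₀ → a = b := fun a b hab => by
    by_contra hne
    exact hγu₀ ((smul_eq_zero.1 (show (a - b) • γ u₀ = 0 by rw [sub_smul, hab, sub_self])).resolve_left
      (sub_ne_zero.2 hne))
  let φ' : L →ₗ[F] F :=
    { toFun := φ
      map_add' := fun a b => hφinj _ _ (by
        rw [add_smul, ← hφ, ← hφ, ← hφ, ← hψ, ← hψ, ← hψ, map_add])
      map_smul' := fun a b => hφinj _ _ (by
        rw [RingHom.id_apply, smul_eq_mul, mul_smul, ← hφ, ← hφ, ← hψ, ← hψ, map_smul]) }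
  have hxM : h⁻¹ * t c * h ∈ M := M.mul_mem (M.mul_mem (M.inv_mem hh) (ht c)) hh
  refine ⟨c, φ', e, ?_, he, ?_, hxM, fun l => ?_⟩
  · intro h0
    obtain ⟨y, hy, hyu⟩ := hu₀
    obtain ⟨l, rfl⟩ := mem_lineF.1 hy
    change h (l • x₀) = u₀ at hyu
    have := hφ l
    rw [hyu, show φ l = φ' l from rfl, h0, LinearMap.zero_apply, zero_smul] at this
    exact hγu₀ this
  · refine hφinj _ _ ?_
    rw [zero_smul]
    show φ e • γ u₀ = 0
    rw [← hφ, show h (e • x₀) = v from hzv]
    simpa using hγv 1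
  · have hS' : h (l • x₀) ∈ S := ⟨_, mem_lineF.2 ⟨l, rfl⟩, rfl⟩
    show h.symm (t c (h (l • x₀))) = (l + φ l • e) • x₀
    rw [htS c _ hS', hφ, map_add, h.symm_apply_apply, hc, mul_smul_comm, inv_mul_cancel₀ hγu₀,
      add_smul, smul_assoc, one_smul, map_smul, show h.symm v = e • x₀ by
        rw [LinearEquiv.symm_apply_eq]; exact hzv.symm, ← smul_assoc]

end CfsgLib.C3Max
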