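import Cfsg.Agent.C3Max.Basic

/-!
An overgroup of the orthogonal group over an extension field of prime degree, odd characteristic: reflections,
Siegel elements, hyperbolic pairs and torus elements inside the overgroup.
-/

set_option autoImplicit false
set_option linter.unusedSectionVars false
set_option linter.unusedSimpArgs false
set_option linter.style.haveILetI false

namespace CfsgLib.C3Max.Orth

open Module CfsgLib.FieldExtMax

variable {F L V : Type*} [Field F] [Field L] [Algebra F L] [AddCommGroup V] [Module F V]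
  [Module L V] [IsScalarTower F L V] [Finite L] [IsGalois F L] [FiniteDimensional F L]
  [FiniteDimensional F V] [FiniteDimensional L V]

/-- The reflection in an anisotropic vector. -/
noncomputable def refl (B : V →ₗ[L] V →ₗ[L] L) (a y : V) : V := y - (2 * B y a / B a a) • a

/-- The hypotheses on the overgroup. -/
structure Over (B : V →ₗ[L] V →ₗ[L] L) (M : Subgroup (V ≃ₗ[F] V)) : Prop where
  symm : ∀ x y, B x y = B y x
  nondeg : ∀ v, v ≠ 0 → ∃ w, B v w ≠ 0
  two : (2 : F) ≠ 0
  prime : (finrank F L).Prime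
  dim : 3 ≤ finrank L V
  dim_three : finrank L V = 3 → 3 ≤ finrank F L
  dim_two : finrank F L = 2 → 5 ≤ finrank L V ∨ (4 ≤ finrank L V ∧ ∀ v e z, v ≠ 0 → B v v = 0 → B e e = 0 →
    B v e = 1 → B z v = 0 → B z e = 0 → B z z = 0 → z = 0)
  pres : ∀ g ∈ M, ∀ x y, Algebra.trace F L (B (g x) (g y)) = Algebra.trace F L (B x y)
  det : ∀ g ∈ M, LinearMap.det (g : V →ₗ[F] V) = 1
  comm : ∀ a b, B a a ≠ 0 → B b b ≠ 0 → ∃ g ∈ M, ∀ y, g y = refl B a (refl B b (refl B a (refl B b y)))
  pair : ∀ a a' b b', B a a ≠ 0 → B a' a' ≠ 0 → B b b ≠ 0 → B b' b' ≠ 0 →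
    (∃ g ∈ M, ∀ y, g y = refl B a (refl B a' y)) ∨ (∃ g ∈ M, ∀ y, g y = refl B b (refl B b' y)) ∨
      ∃ g ∈ M, ∀ y, g y = refl B a (refl B a' (refl B b (refl B b' y)))

/-- `M` has an `L`-linear isometry mapping `w` to `w'`. -/
def Moves (B : V →ₗ[L] V →ₗ[L] L) (M : Subgroup (V ≃ₗ[F] V)) (w w' : V) : Prop :=
  ∃ g ∈ M, g w = w' ∧ (∀ (a : L) y, g (a • y) = a • g y) ∧ ∀ x y, B (g x) (g y) = B x y

/-- The Siegel transformation. -/
noncomputable def sieg (B : V →ₗ[L] V →ₗ[L] L) (v a y : V) : V :=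
  y + B y v • a - (B y a + B a a / 2 * B y v) • v

/-- The radical of the form on `W` is trivial. -/
def Good (B : V →ₗ[L] V →ₗ[L] L) (W : Submodule L V) : Prop :=
  ∀ y ∈ W, y ≠ 0 → ∃ z ∈ W, B y z ≠ 0

variable {B : V →ₗ[L] V →ₗ[L] L} {M : Subgroup (V ≃ₗ[F] V)} (hB : Over B M)
include hB

lemma two_ne : (2 : L) ≠ 0 := by
  rw [← map_ofNat (algebraMap F L) 2]
  simpa using hB.two

lemma refl_add (a x y : V) : refl B a (x + y) = refl B a x + refl B a y := by
  simp only [refl, map_add, LinearMap.add_apply, mul_add, add_div, add_smul]; abel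

lemma refl_smul (a : V) (c : L) (x : V) : refl B a (c • x) = c • refl B a x := by
  simp only [refl, map_smul, LinearMap.smul_apply, smul_eq_mul, smul_sub, smul_smul]
  congr 2; ring

lemma refl_orth {a x : V} (h : B x a = 0) : refl B a x = x := by simp [refl, h]

lemma refl_self {a : V} (ha : B a a ≠ 0) : refl B a a = -a := by
  rw [refl, mul_div_cancel_right₀ _ ha, two_smul]; abel

lemma refl_B {a : V} (ha : B a a ≠ 0) (x y : V) : B (refl B a x) (refl B a y) = B x y := by
  simp only [refl, map_sub, map_smul, LinearMap.sub_apply, LinearMap.smul_apply, smul_eq_mul,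
    hB.symm a y]
  field_simp
  ring

lemma refl_refl {a : V} (ha : B a a ≠ 0) (x : V) : refl B a (refl B a x) = x := by
  have e : B (refl B a x) a = -B x a := by
    simp only [refl, map_sub, map_smul, LinearMap.sub_apply, LinearMap.smul_apply, smul_eq_mul]
    field_simp; ring
  rw [refl, e, refl]
  rw [mul_neg, neg_div, neg_smul, sub_neg_eq_add, sub_add_cancel]

lemma B_add_self (x y : V) : B (x + y) (x + y) = B x x + 2 * B x y + B y y := by
  simp only [map_add, LinearMap.add_apply, hB.symm y x]; ring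

lemma good_top : Good B (⊤ : Submodule L V) := fun y _ hy =>
  let ⟨z, hz⟩ := hB.nondeg y hy
  ⟨z, Submodule.mem_top, hz⟩

lemma exists_aniso {W : Submodule L V} (hW : Good B W) (h : W ≠ ⊥) : ∃ a ∈ W, B a a ≠ 0 := by
  by_contra! hc
  obtain ⟨y, hy, hy0⟩ := Submodule.exists_mem_ne_zero_of_ne_bot h
  obtain ⟨z, hz, hyz⟩ := hW y hy hy0
  have := hc _ (W.add_mem hy hz)
  rw [B_add_self hB, hc y hy, hc z hz, zero_add, add_zero, mul_eq_zero] at this
  exact hyz (this.resolve_left (two_ne hB))

lemma good_inf {W : Submodule L V} (hW : Good B W) {a : V} (ha : a ∈ W) (haa : B a a ≠ 0) :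
    Good B (W ⊓ LinearMap.ker (B.flip a)) ∧
      finrank L W ≤ finrank L ↥(W ⊓ LinearMap.ker (B.flip a)) + 1 := by
  refine ⟨fun y hy hy0 => ?_, ?_⟩
  · obtain ⟨z, hz, hyz⟩ := hW y hy.1 hy0
    have hya : B y a = 0 := hy.2
    refine ⟨z - (B z a / B a a) • a, ⟨W.sub_mem hz (W.smul_mem _ ha), ?_⟩, by simpa [hya] using hyz⟩
    show B (z - (B z a / B a a) • a) a = 0
    simp [div_mul_cancel₀ _ haa]
  · have h1 := Submodule.finrank_sup_add_finrank_inf_eq W (LinearMap.ker (B.flip a))
    have h2 := LinearMap.finrank_range_add_finrank_ker (B.flip a)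
    have h3 := Submodule.finrank_le (LinearMap.range (B.flip a))
    have h4 := Submodule.finrank_le (W ⊔ LinearMap.ker (B.flip a))
    rw [finrank_self] at h3
    omega

lemma exists_orth_aniso {W : Submodule L V} (hW : Good B W) (h : 2 ≤ finrank L W) :
    ∃ a ∈ W, ∃ b ∈ W, B a a ≠ 0 ∧ B b b ≠ 0 ∧ B b a = 0 := by
  obtain ⟨a, ha, haa⟩ := exists_aniso hB hW fun h0 => by rw [h0, finrank_bot] at h; omega
  obtain ⟨h1, h2⟩ := good_inf hB hW ha haa
  obtain ⟨b, hb, hbb⟩ := exists_aniso hB h1 fun h0 => by rw [h0, finrank_bot] at h2; omega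
  exact ⟨a, ha, b, hb.1, haa, hbb, hb.2⟩

/-- A space of dimension at least two takes every non-zero value. -/
lemma exists_value' {W : Submodule L V} (hW : Good B W) (h : 2 ≤ finrank L W) {c : L} (hc : c ≠ 0) :
    ∃ w ∈ W, B w w = c := by
  obtain ⟨a, ha, b, hb, haa, hbb, hab⟩ := exists_orth_aniso hB hW h
  classical
  letI := Fintype.ofFinite L
  have hodd : Fintype.card L % 2 = 1 := FiniteField.odd_card_of_char_ne_two fun h' => two_ne hB (by
    have := ringChar.Nat.cast_ringChar (R := L)
    rw [h'] at this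
    exact_mod_cast this)
  obtain ⟨α, β, h1⟩ := FiniteField.exists_root_sum_quadratic
    (f := Polynomial.C (B a a) * Polynomial.X ^ 2)
    (g := Polynomial.C (B b b) * Polynomial.X ^ 2 + Polynomial.C (-c))
    (Polynomial.degree_C_mul_X_pow 2 haa)
    (by rw [Polynomial.degree_add_eq_left_of_degree_lt] <;>
        simp [Polynomial.degree_C_mul_X_pow 2 hbb, Polynomial.degree_C hc]) hodd
  simp only [Polynomial.eval_add, Polynomial.eval_mul, Polynomial.eval_C, Polynomial.eval_pow,
    Polynomial.eval_X] at h1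
  refine ⟨α • a + β • b, W.add_mem (W.smul_mem _ ha) (W.smul_mem _ hb), ?_⟩
  simp only [map_add, map_smul, LinearMap.add_apply, LinearMap.smul_apply, smul_eq_mul,
    hB.symm a b, hab]
  linear_combination h1

/-- A space of dimension at least three has a singular vector. -/
lemma exists_singular {W : Submodule L V} (hW : Good B W) (h : 3 ≤ finrank L W) :
    ∃ v ∈ W, v ≠ 0 ∧ B v v = 0 := by
  obtain ⟨a, ha, haa⟩ := exists_aniso hB hW fun h0 => by rw [h0, finrank_bot] at h; omega
  obtain ⟨h1, h2⟩ := good_inf hB hW ha haa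
  obtain ⟨w, hw, hw'⟩ := exists_value' hB h1 (by omega) (c := -B a a) (neg_ne_zero.2 haa)
  have hwa : B w a = 0 := hw.2
  have hval : B (a + w) (a + w) = 0 := by rw [B_add_self hB, hB.symm a w, hwa, hw']; ring
  refine ⟨a + w, W.add_mem ha hw.1, fun h0 => haa ?_, hval⟩
  have := congrArg (fun z => B z a) h0
  simpa [hwa] using this

/-- A singular vector completes to a hyperbolic pair inside a non-degenerate space. -/
lemma exists_partner {W : Submodule L V} (hW : Good B W) {v : V} (hv : v ∈ W) (hv0 : v ≠ 0)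
    (hvv : B v v = 0) : ∃ e ∈ W, B e e = 0 ∧ B v e = 1 := by
  obtain ⟨z, hz, hvz⟩ := hW v hv hv0
  set z' := (B v z)⁻¹ • z
  have h1 : B v z' = 1 := by simp [z', inv_mul_cancel₀ hvz]
  refine ⟨z' - (B z' z' / 2) • v, W.sub_mem (W.smul_mem _ hz) (W.smul_mem _ hv), ?_,
    by simp [h1, hvv]⟩
  simp only [map_sub, map_smul, LinearMap.sub_apply, LinearMap.smul_apply, smul_eq_mul, h1,
    hB.symm z' v, hvv]
  field_simp [two_ne hB]
  ring

/-- The perpendicular space of a pair. -/
def perp₂ (B : V →ₗ[L] V →ₗ[L] L) (v e : V) : Submodule L V :=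
  LinearMap.ker (B.flip v) ⊓ LinearMap.ker (B.flip e)

omit hB in
lemma mem_perp₂ {v e y : V} : y ∈ perp₂ B v e ↔ B y v = 0 ∧ B y e = 0 := Iff.rfl

lemma good_perp₂ {v e : V} (hvv : B v v = 0) (hee : B e e = 0) (hve : B v e = 1) :
    Good B (perp₂ B v e) ∧ finrank L V ≤ finrank L (perp₂ B v e) + 2 := by
  refine ⟨fun y hy hy0 => ?_, ?_⟩
  · obtain ⟨h1, h2⟩ := mem_perp₂.1 hy
    obtain ⟨z, hz⟩ := hB.nondeg y hy0
    refine ⟨z - B z e • v - B z v • e, mem_perp₂.2 ⟨?_, ?_⟩, by simpa [h1, h2] using hz⟩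
    · simp [hvv, hB.symm e v, hve]
    · simp [hee, hve]
  · have h1 := Submodule.finrank_sup_add_finrank_inf_eq (LinearMap.ker (B.flip v))
      (LinearMap.ker (B.flip e))
    have h2 := LinearMap.finrank_range_add_finrank_ker (B.flip v)
    have h3 := Submodule.finrank_le (LinearMap.range (B.flip v))
    have h4 := LinearMap.finrank_range_add_finrank_ker (B.flip e)
    have h5 := Submodule.finrank_le (LinearMap.range (B.flip e))
    have h6 := Submodule.finrank_le (LinearMap.ker (B.flip v) ⊔ LinearMap.ker (B.flip e))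
    rw [finrank_self] at h3 h5
    show _ ≤ finrank L ↥(LinearMap.ker (B.flip v) ⊓ LinearMap.ker (B.flip e)) + 2
    omega

lemma perp₂_ne_bot {v e : V} (hvv : B v v = 0) (hee : B e e = 0) (hve : B v e = 1) :
    perp₂ B v e ≠ ⊥ := fun h => by
  have h1 := (good_perp₂ hB hvv hee hve).2
  have h2 := hB.dim
  rw [h, finrank_bot] at h1
  omega

/-- Separating a vector from a singular line. -/
lemma exists_sep {v u : V} (hv : v ≠ 0) (hvv : B v v = 0) (hu : u ∉ lineF L v (F := F)) :
    ∃ w, B v w = 0 ∧ B u w = 1 := by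
  obtain ⟨e, -, hee, hve⟩ := exists_partner hB (good_top hB) Submodule.mem_top hv hvv
  by_cases huv : B u v = 0
  · obtain ⟨w₀, hw₀⟩ := hB.nondeg (u - B u e • v) fun h =>
      hu (mem_lineF.2 ⟨B u e, (sub_eq_zero.1 h).symm⟩)
    set w₁ := w₀ - B v w₀ • e
    have h1 : B v w₁ = 0 := by simp [w₁, hve]
    have h2 : B u w₁ ≠ 0 := by
      have e1 : B u w₁ = B (u - B u e • v) w₀ := by simp [w₁]; ring
      rwa [e1]
    exact ⟨(B u w₁)⁻¹ • w₁, by simp [h1], by simp [inv_mul_cancel₀ h2]⟩
  · exact ⟨(B u v)⁻¹ • v, by simp [hvv], by simp [inv_mul_cancel₀ huv]⟩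

lemma sieg_B {v a : V} (hvv : B v v = 0) (hva : B v a = 0) (x y : V) :
    B (sieg B v a x) (sieg B v a y) = B x y := by
  simp only [sieg, map_add, map_sub, map_smul, LinearMap.add_apply, LinearMap.sub_apply,
    LinearMap.smul_apply, smul_eq_mul, hvv, hva, hB.symm a v, hB.symm a y, hB.symm v y]
  field_simp [two_ne hB]
  ring

lemma sieg_smul (v a : V) (c : L) (y : V) : sieg B v a (c • y) = c • sieg B v a y := by
  simp only [sieg, map_smul, LinearMap.smul_apply, smul_eq_mul, smul_sub, smul_add, smul_smul]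
  congr 2; ring

lemma sieg_fix {v a y : V} (h1 : B y v = 0) (h2 : B y a = 0) : sieg B v a y = y := by
  simp [sieg, h1, h2]

lemma sieg_add {v a a' : V} (hvv : B v v = 0) (hva : B v a = 0) (hva' : B v a' = 0) (y : V) :
    sieg B v a (sieg B v a' y) = sieg B v (a + a') y := by
  simp only [sieg, map_add, map_sub, map_smul, LinearMap.add_apply, LinearMap.sub_apply,
    LinearMap.smul_apply, smul_eq_mul, hvv, hva, hva', hB.symm a v, hB.symm a' v, hB.symm a' a]
  match_scalars <;> field_simp [two_ne hB] <;> ring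

/-- Siegel transformations lie in the overgroup. -/
lemma exists_sieg {v a : V} (hvv : B v v = 0) (hva : B v a = 0) :
    ∃ g ∈ M, ∀ y, g y = sieg B v a y := by
  have h2 := two_ne hB
  have key : ∀ a, B v a = 0 → B a a ≠ 0 → ∃ g ∈ M, ∀ y, g y = sieg B v a y := by
    intro a hva haa
    set c := -(B a a) / 4
    set b := a + c • v
    have hbb : B b b = B a a := by
      simp [b, hvv, hva, hB.symm a v]
    obtain ⟨g, hg, hgy⟩ := hB.comm b a (by rwa [hbb]) haa
    refine ⟨g, hg, fun y => ?_⟩
    have one : ∀ z, refl B b (refl B a z) =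
        z - (2 * c * B z v / B a a) • a + (2 * c * (B z a - c * B z v) / B a a) • v := by
      intro z
      have e : B (refl B a z) b = -B z a + c * B z v := by
        simp only [refl, b, map_sub, map_add, map_smul, LinearMap.sub_apply, LinearMap.smul_apply,
          smul_eq_mul, hva, hB.symm a v]
        field_simp; ring
      rw [refl, e, hbb, refl]
      simp only [b]
      match_scalars <;> field_simp <;> ring
    have h4 : (4 : L) ≠ 0 := by
      rw [show (4 : L) = 2 * 2 by norm_num]; exact mul_ne_zero h2 h2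
    rw [hgy, one, one]
    simp only [sieg, c, map_sub, map_add, map_smul, LinearMap.sub_apply, LinearMap.add_apply,
      LinearMap.smul_apply, smul_eq_mul, hva, hvv, hB.symm a v]
    match_scalars <;> field_simp <;> ring
  by_cases haa : B a a = 0
  · obtain ⟨y, hvy, hyy⟩ : ∃ y, B v y = 0 ∧ B y y ≠ 0 := by
      rcases eq_or_ne v 0 with rfl | hv
      · obtain ⟨y, -, hy⟩ := exists_aniso hB (good_top hB) fun h => by
          have := hB.dim; rw [← finrank_top, h, finrank_bot] at this; omega
        exact ⟨y, by simp, hy⟩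
      obtain ⟨e, -, hee, hve⟩ := exists_partner hB (good_top hB) Submodule.mem_top hv hvv
      obtain ⟨y, hy, hyy⟩ := exists_aniso hB (good_perp₂ hB hvv hee hve).1 (perp₂_ne_bot hB hvv hee hve)
      exact ⟨y, by rw [hB.symm]; exact (mem_perp₂.1 hy).1, hyy⟩
    obtain ⟨l, hl⟩ : ∃ l : L, B (l • y) (l • y) ≠ 0 ∧ B (a - l • y) (a - l • y) ≠ 0 := by
      have hexp : ∀ l : L, B (a - l • y) (a - l • y) = l * (l * B y y - 2 * B a y) := fun l => by
        simp [haa, hB.symm y a]; ring
      by_cases h1 : B y y - 2 * B a y = 0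
      · refine ⟨-1, by simpa using hyy, ?_⟩
        rw [hexp]
        intro h0
        have : (2 : L) * B y y = 0 := by linear_combination h1 + h0
        exact hyy ((mul_eq_zero.1 this).resolve_left h2)
      · exact ⟨1, by simpa using hyy, by rw [hexp]; simpa using h1⟩
    obtain ⟨g₁, hg₁, e₁⟩ := key (a - l • y) (by simp [hva, hvy]) hl.2
    obtain ⟨g₂, hg₂, e₂⟩ := key (l • y) (by simp [hvy]) hl.1
    refine ⟨g₁ * g₂, M.mul_mem hg₁ hg₂, fun z => ?_⟩
    rw [LinearEquiv.mul_apply, e₂, e₁, sieg_add hB hvv (by simp [hva, hvy]) (by simp [hvy]),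
      sub_add_cancel]
  · exact key a hva haa

lemma moves_comp {x y z : V} (h : Moves B M x y) (h' : Moves B M y z) : Moves B M x z := by
  obtain ⟨g, hg, hgx, hgl, hgB⟩ := h
  obtain ⟨g', hg', hgy, hgl', hgB'⟩ := h'
  exact ⟨g' * g, M.mul_mem hg' hg, by rw [LinearEquiv.mul_apply, hgx, hgy],
    fun l u => by simp [LinearEquiv.mul_apply, hgl, hgl'], fun u u' => by
      simp [LinearEquiv.mul_apply, hgB, hgB']⟩

lemma moves_smul {x y : V} (h : Moves B M x y) (c : L) : Moves B M (c • x) (c • y) := by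
  obtain ⟨g, hg, hgx, hgl, hgB⟩ := h
  exact ⟨g, hg, by rw [hgl, hgx], hgl, hgB⟩

lemma moves_sieg {v a : V} (hvv : B v v = 0) (hva : B v a = 0) (x : V) :
    Moves B M x (sieg B v a x) := by
  obtain ⟨g, hg, hgy⟩ := exists_sieg hB hvv hva
  exact ⟨g, hg, hgy x, fun l y => by rw [hgy, hgy, sieg_smul hB], fun y z => by
    rw [hgy, hgy, sieg_B hB hvv hva]⟩

/-- From one vector of a hyperbolic pair to a multiple of the other. -/
lemma moves_pair {x e b : V} (hxx : B x x = 0) (hee : B e e = 0) (hxe : B x e = 1)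
    (hb : b ∈ perp₂ B x e) (hbb : B b b ≠ 0) : Moves B M x ((-2 / B b b) • e) := by
  obtain ⟨hbx, hbe⟩ := mem_perp₂.1 hb
  set c := -2 / B b b with hc
  have h1 : sieg B e (c • b) x = c • sieg B x b e := by
    simp only [sieg, map_smul, LinearMap.smul_apply, smul_eq_mul, hxe, hB.symm x b, hbx, hB.symm e x,
      hB.symm e b, hbe]
    have h2 := two_ne hB
    match_scalars <;> simp [hc] <;> field_simp <;> ring
  have h3 : sieg B x (-b) (sieg B x b e) = e := by
    rw [sieg_add hB hxx (by simp [hB.symm x b, hbx]) (by rw [hB.symm, hbx]), neg_add_cancel]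
    simp [sieg]
  have h4 := moves_comp hB (moves_sieg hB hee (a := c • b) (by simp [hB.symm e b, hbe]) x)
    (moves_sieg hB hxx (a := -b) (by simp [hB.symm x b, hbx]) (sieg B e (c • b) x))
  rwa [h1, sieg_smul hB, h3] at h4

/-- A singular line is moved to any other. -/
lemma moves_line {x y : V} (hx : x ≠ 0) (hxx : B x x = 0) (hy : y ≠ 0) (hyy : B y y = 0) :
    ∃ c : L, c ≠ 0 ∧ Moves B M x (c • y) := by
  have key : ∀ {x y : V}, B x x = 0 → B y y = 0 → B x y ≠ 0 → ∃ c : L, c ≠ 0 ∧ Moves B M x (c • y) := by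
    intro x y hxx hyy hxy
    set e := (B x y)⁻¹ • y
    have hee : B e e = 0 := by simp [e, hyy]
    have hxe : B x e = 1 := by simp [e, inv_mul_cancel₀ hxy]
    obtain ⟨b, hb, hbb⟩ := exists_aniso hB (good_perp₂ hB hxx hee hxe).1 (perp₂_ne_bot hB hxx hee hxe)
    refine ⟨-2 / B b b * (B x y)⁻¹, mul_ne_zero (div_ne_zero (neg_ne_zero.2 (two_ne hB)) hbb)
      (inv_ne_zero hxy), ?_⟩
    rw [mul_smul]
    exact moves_pair hB hxx hee hxe hb hbb
  by_cases hxy : B x y = 0
  · obtain ⟨z, hzz, hxz, hyz⟩ : ∃ z, B z z = 0 ∧ B x z ≠ 0 ∧ B z y ≠ 0 := by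
      obtain ⟨e, -, hee, hxe⟩ := exists_partner hB (good_top hB) Submodule.mem_top hx hxx
      obtain ⟨e', -, hee', hye⟩ := exists_partner hB (good_top hB) Submodule.mem_top hy hyy
      by_cases h1 : B e y = 0
      · by_cases h2 : B x e' = 0
        · refine ⟨(e + e') + (-(B (e + e') (e + e')) / 2) • x, ?_, ?_, ?_⟩
          · rw [B_add_self hB]
            simp only [map_add, map_smul, LinearMap.add_apply, LinearMap.smul_apply, smul_eq_mul,
              hB.symm e x, hxe, hxx, hB.symm e' x, h2]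
            field_simp [two_ne hB]; ring
          · simp [hxe, h2, hxx]
          · simp [h1, hxy, hB.symm e' y, hye]
        · exact ⟨e', hee', h2, by rw [hB.symm, hye]; exact one_ne_zero⟩
      · exact ⟨e, hee, by rw [hxe]; exact one_ne_zero, h1⟩
    obtain ⟨c, hc, h1⟩ := key hxx hzz hxz
    obtain ⟨c', hc', h2⟩ := key hzz hyy hyz
    exact ⟨c * c', mul_ne_zero hc hc', by rw [mul_smul]; exact moves_comp hB h1 (moves_smul hB h2 c)⟩
  · exact key hxx hyy hxy

/-- In odd degree a non-zero element times some ground scalar is a square. -/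
lemma exists_smul_square (hr : Odd (finrank F L)) (l : L) (hl : l ≠ 0) :
    ∃ (f : F) (s : L), f ≠ 0 ∧ f • l = s ^ 2 := by
  classical
  haveI : Finite F := Finite.of_injective _ (algebraMap F L).injective
  by_cases hs : IsSquare l
  · obtain ⟨s, rfl⟩ := hs
    exact ⟨1, s, one_ne_zero, by rw [one_smul, sq]⟩
  letI := Fintype.ofFinite F
  letI := Fintype.ofFinite L
  obtain ⟨f, hf⟩ := FiniteField.exists_nonsquare (F := F) fun h => hB.two (by
    have := ringChar.Nat.cast_ringChar (R := F)
    rw [h] at this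
    exact_mod_cast this)
  have hf0 : f ≠ 0 := by rintro rfl; exact hf IsSquare.zero
  have hfl : ¬ IsSquare (algebraMap F L f) := fun h => hf (by
    obtain ⟨t, ht⟩ := h
    have h1 := congrArg (Algebra.norm F) ht
    rw [map_mul, Algebra.norm_algebraMap] at h1
    obtain ⟨k, hk⟩ := hr
    rw [hk, pow_succ, pow_mul, sq] at h1
    refine ⟨Algebra.norm F t * (f ^ k)⁻¹, ?_⟩
    rw [mul_mul_mul_comm, ← h1, mul_pow]
    have : f ^ k ≠ 0 := pow_ne_zero _ hf0
    field_simp)
  have hprod : IsSquare (algebraMap F L f * l) := by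
    have h1 := (FiniteField.unit_isSquare_iff (fun h => two_ne hB (by
      have := ringChar.Nat.cast_ringChar (R := L)
      rw [h] at this
      exact_mod_cast this)) (Units.mk0 l hl))
    by_contra h3
    have hc : ringChar L ≠ 2 := fun h => two_ne hB (by
      have := ringChar.Nat.cast_ringChar (R := L)
      rw [h] at this
      exact_mod_cast this)
    have e1 := (quadraticChar_neg_one_iff_not_isSquare (F := L)).2 hfl
    have e2 := (quadraticChar_neg_one_iff_not_isSquare (F := L)).2 hs
    have e3 := (quadraticChar_neg_one_iff_not_isSquare (F := L)).2 h3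
    rw [map_mul, e1, e2] at e3
    norm_num at e3
  obtain ⟨s, hs'⟩ := hprod
  exact ⟨f, s, hf0, by rw [Algebra.smul_def, hs', sq]⟩

/-- Torus elements, up to ground scalars. -/
lemma moves_scal {x : V} (hx : x ≠ 0) (hxx : B x x = 0) {l : L} (hl : l ≠ 0) :
    ∃ f : F, f ≠ 0 ∧ Moves B M x ((f • l) • x) := by
  obtain ⟨e, -, hee, hxe⟩ := exists_partner hB (good_top hB) Submodule.mem_top hx hxx
  obtain ⟨hgood, hdim⟩ := good_perp₂ hB hxx hee hxe
  have hex : B e x = 1 := by rw [hB.symm, hxe]
  have h2 := two_ne hB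
  have comb : ∀ b ∈ perp₂ B x e, ∀ b' ∈ perp₂ B x e, B b b ≠ 0 → B b' b' ≠ 0 →
      Moves B M x ((4 / (B b b * B b' b')) • x) := by
    intro b hb b' hb' hbb hbb'
    have h1 := moves_pair hB hxx hee hxe hb hbb
    have h3 := moves_smul hB (moves_pair hB hee hxx hex (b := b')
      (mem_perp₂.2 ⟨(mem_perp₂.1 hb').2, (mem_perp₂.1 hb').1⟩) hbb') (-2 / B b b)
    have h4 := moves_comp hB h1 h3
    rwa [smul_smul, show -2 / B b b * (-2 / B b' b') = 4 / (B b b * B b' b') by field_simp; ring] at h4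
  have h4 : (4 : L) ≠ 0 := by rw [show (4 : L) = 2 * 2 by norm_num]; exact mul_ne_zero h2 h2
  obtain ⟨b, hb, hbb⟩ := exists_aniso hB hgood (perp₂_ne_bot hB hxx hee hxe)
  by_cases h3 : finrank L V = 3
  · have hodd : Odd (finrank F L) := hB.prime.odd_of_ne_two fun h => by
      have := hB.dim_three h3; omega
    obtain ⟨f, s, hf, hfs⟩ := exists_smul_square hB hodd l hl
    have hs : s ≠ 0 := by
      rintro rfl
      rw [zero_pow two_ne_zero, smul_eq_zero] at hfs
      exact hfs.elim hf hl
    set t := 2 / (B b b * s)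
    have ht : t ≠ 0 := div_ne_zero h2 (mul_ne_zero hbb hs)
    refine ⟨f, hf, ?_⟩
    have h5 := comb b hb (t • b) (Submodule.smul_mem _ _ hb) hbb
      (by simp [ht, hbb])
    rwa [show 4 / (B b b * B (t • b) (t • b)) = f • l by
      rw [hfs]; simp [t]; field_simp; ring] at h5
  · have hd : 2 ≤ finrank L (perp₂ B x e) := by have := hB.dim; omega
    obtain ⟨b', hb', hbb'⟩ := exists_value' hB hgood hd (c := 4 / (B b b * l))
      (div_ne_zero h4 (mul_ne_zero hbb hl))
    refine ⟨1, one_ne_zero, ?_⟩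
    have h5 := comb b hb b' hb' hbb (by rw [hbb']; exact div_ne_zero h4 (mul_ne_zero hbb hl))
    rwa [hbb', show 4 / (B b b * (4 / (B b b * l))) = l by field_simp, ← one_smul F l] at h5

/-- Some commutator of two reflections in `W` moves a given vector of `W`. -/
lemma exists_comm_moving {W : Submodule L V} (hW : Good B W) (h : 2 ≤ finrank L W) {z : V}
    (hz : z ∈ W) (hz0 : z ≠ 0) : ∃ a ∈ W, ∃ b ∈ W, B a a ≠ 0 ∧ B b b ≠ 0 ∧
      refl B a (refl B b (refl B a (refl B b z))) ≠ z := by
  have h2 := two_ne hB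
  obtain ⟨l, hl0, hl1⟩ : ∃ l : L, l ≠ 0 ∧ l * l ≠ 1 := by
    by_contra! hc
    classical
    letI := Fintype.ofFinite L
    have hle : (Finset.univ : Finset L) ⊆ {0, 1, -1} := fun l _ => by
      rcases eq_or_ne l 0 with rfl | hl
      · simp
      · rcases mul_self_eq_one_iff.1 (hc l hl) with rfl | rfl <;> simp
    have h1 := (Finset.card_le_card hle).trans Finset.card_le_three
    have hF : 3 ≤ Nat.card F := by
      haveI : Finite F := Finite.of_injective _ (algebraMap F L).injective
      letI := Fintype.ofFinite F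
      rw [Nat.card_eq_fintype_card]
      refine Fintype.two_lt_card_iff.2 ⟨0, 1, -1, zero_ne_one, by simp, fun h => hB.two ?_⟩
      linear_combination h
    have hL : Nat.card L = Nat.card F ^ finrank F L := Module.natCard_eq_pow_finrank
    rw [Finset.card_univ, ← Nat.card_eq_fintype_card, hL] at h1
    have := (Nat.pow_le_pow_right (show 1 ≤ Nat.card F by omega) hB.prime.two_le)
    have := Nat.pow_le_pow_left hF 2
    omega
  by_cases hzz : B z z = 0
  · obtain ⟨e, he, hee, hze⟩ := exists_partner hB hW hz hz0 hzz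
    have hb : B (z + l • e) (z + l • e) = 2 * l := by
      rw [B_add_self hB]; simp [hzz, hee, hze]
    have ha : B (z + e) (z + e) = 2 := by rw [B_add_self hB]; simp [hzz, hee, hze]
    refine ⟨z + e, W.add_mem hz he, z + l • e, W.add_mem hz (W.smul_mem _ he), by rwa [ha],
      by rw [hb]; exact mul_ne_zero h2 hl0, ?_⟩
    have e1 : refl B (z + l • e) z = -(l • e) := by
      rw [refl, hb, map_add, map_smul, hzz, hze]
      match_scalars <;> simp <;> field_simp <;> ring
    have e2 : refl B (z + e) e = -z := by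
      rw [refl, ha, map_add, hee, hB.symm e z, hze]
      match_scalars <;> simp [h2]
    have e3 : refl B (z + e) (-(l • e)) = l • z := by
      rw [← neg_smul, refl_smul hB, e2, smul_neg, neg_smul, neg_neg]
    rw [e1, e3, refl_smul hB, e1, refl_smul hB, e3, smul_smul]
    intro h'
    have := congrArg (fun y => B y e) h'
    simp [hze] at this
    exact hl1 this
  · obtain ⟨hW', hd⟩ := good_inf hB hW hz hzz
    obtain ⟨w, hw, hww⟩ := exists_aniso hB hW' fun h0 => by rw [h0, finrank_bot] at hd; omega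
    have hwz : B w z = 0 := hw.2
    obtain ⟨k, hk0, hk⟩ : ∃ k : L, k ≠ 0 ∧ B z z + k * k * B w w ≠ 0 := by
      by_cases h1 : B z z + B w w = 0
      · refine ⟨l, hl0, fun h' => hl1 ?_⟩
        exact mul_right_cancel₀ hww (by linear_combination h' - h1)
      · exact ⟨1, one_ne_zero, by simpa using h1⟩
    have hb : B (z + k • w) (z + k • w) = B z z + k * k * B w w := by
      rw [B_add_self hB]; simp [hB.symm z w, hwz]; ring
    refine ⟨z, hz, z + k • w, W.add_mem hz (W.smul_mem _ hw.1), hzz, by rwa [hb], fun h' => ?_⟩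
    have hbb : B (z + k • w) (z + k • w) ≠ 0 := by rwa [hb]
    have e1 := congrArg (refl B z) h'
    rw [refl_refl hB hzz, refl_self hB hzz] at e1
    have e2 := congrArg (refl B (z + k • w)) e1
    rw [refl_refl hB hbb] at e2
    have e3 : refl B (z + k • w) (-z) = -refl B (z + k • w) z := by
      rw [← neg_one_smul L z, refl_smul hB, neg_one_smul]
    rw [e3] at e2
    have e4 := congrArg (fun y => B y w) e2
    have e5 : B (refl B z (refl B (z + k • w) z)) w = B (refl B (z + k • w) z) w := by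
      simp [refl, hB.symm z w, hwz]
    have e6 : B (refl B (z + k • w) z) w = -(2 * B z z * k * B w w) / (B z z + k * k * B w w) := by
      simp [refl, hb, hB.symm z w, hwz]
      field_simp
    simp only [map_neg, LinearMap.neg_apply, e5, e6] at e4
    have : (2 : L) * (-(2 * B z z * k * B w w) / (B z z + k * k * B w w)) = 0 := by linear_combination e4
    simp [h2, hzz, hk0, hww, hk] at this

end CfsgLib.C3Max.Orth
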