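import Cfsg.Agent.C3Max.OrthPair
import Cfsg.Agent.Coprime.Generation
import Mathlib.GroupTheory.Transfer

/-!
In dimension three a translate of a singular line forces root elements, so outside the semilinear group
some element induces a transvection on a singular line.
-/

set_option autoImplicit false
set_option linter.unusedSectionVars false
set_option linter.unusedSimpArgs false
set_option linter.style.haveILetI false

namespace CfsgLib.C3Max.Orth

open Module CfsgLib.FieldExtMax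

variable {F L V : Type*} [Field F] [Field L] [Algebra F L] [AddCommGroup V] [Module F V]
  [Module L V] [IsScalarTower F L V] [Finite L] [IsGalois F L] [FiniteDimensional F L]
  [FiniteDimensional F V] [FiniteDimensional L V]

local notation "Tr" => Algebra.trace F L

omit [Finite L] [IsGalois F L] [FiniteDimensional F L] [FiniteDimensional F V] in
/-- The determinant of a rank one perturbation of the identity. -/
lemma det_one_add_smulRight' (φ : Dual L V) (a : V) :
    LinearMap.det (LinearMap.id + φ.smulRight a) = 1 + φ a := by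
  classical
  let b := Module.finBasis L V
  rw [← LinearMap.det_toMatrix b]
  have h : LinearMap.toMatrix b b (LinearMap.id + φ.smulRight a) =
      1 + Matrix.replicateCol Unit (b.repr a) * Matrix.replicateRow Unit (fun j => φ (b j)) := by
    ext i j
    simp [LinearMap.toMatrix_apply, Matrix.one_apply, Matrix.mul_apply, Finsupp.single_apply, mul_comm, eq_comm]
  rw [h, Matrix.det_one_add_replicateCol_mul_replicateRow]
  congr 1
  conv_rhs => rw [← b.sum_repr a, map_sum]
  simp [dotProduct, mul_comm]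

variable {B : V →ₗ[L] V →ₗ[L] L} {M : Subgroup (V ≃ₗ[F] V)} (hB : Over B M)
include hB

/-- The shape of the stabiliser of a singular line fixing two of its vectors. -/
def IsShift (B : V →ₗ[L] V →ₗ[L] L) (v b : V) (g : V ≃ₗ[F] V) (w : L) (ω : L →ₗ[F] L) : Prop :=
  ∀ y, g y = sieg B v (w • b) y + ω (B y v) • v

omit hB in
lemma isShift_comp {v b : V} (hB : Over B M) (hvv : B v v = 0) (hvb : B v b = 0) {g g' : V ≃ₗ[F] V}
    {w w' : L} {ω ω' : L →ₗ[F] L} (h : IsShift B v b g w ω) (h' : IsShift B v b g' w' ω') :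
    IsShift B v b (g * g') (w + w') (ω + ω') := by
  intro y
  have hlin : ∀ z z', sieg B v (w • b) (z + z') = sieg B v (w • b) z + sieg B v (w • b) z' := fun z z' => by
    simp only [sieg, map_add, LinearMap.add_apply, add_smul, mul_add]; module
  have hβ : B (sieg B v (w' • b) y + ω' (B y v) • v) v = B y v := by
    simp [sieg, hvv, hB.symm b v, hvb]
  rw [LinearEquiv.mul_apply, h', h, hβ, hlin, sieg_smul hB,
    sieg_add hB hvv (by simp [hvb]) (by simp [hvb]), ← add_smul,
    show sieg B v (w • b) v = v by simp [sieg, hvv, hvb], LinearMap.add_apply, add_smul, add_smul]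
  abel

/-- Stabilisers of a singular line fixing two of its vectors are shifts, if there are no root elements. -/
lemma exists_isShift (hs : finrank L V = 3) {v e b : V} (hvv : B v v = 0) (hee : B e e = 0)
    (hve : B v e = 1) (hb : b ∈ perp₂ B v e) (hbb : B b b ≠ 0) (hX : RootFree B M v) {g : V ≃ₗ[F] V}
    (hg : g ∈ M) (hline : ∀ l : L, g (l • v) ∈ lineF L v (F := F)) (hg1 : g v = v) {c₁ : L}
    (hc₁ : c₁ ∉ (algebraMap F L).range) (hgc : g (c₁ • v) = c₁ • v) :
    ∃ w ω, IsShift B v b g w ω := by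
  have h2 := two_ne hB
  have hv : v ≠ 0 := fun h => by simp [h] at hve
  have hev : B e v = 1 := by rw [hB.symm, hve]
  obtain ⟨hbv, hbe⟩ := mem_perp₂.1 hb
  have hvb : B v b = 0 := by rw [hB.symm, hbv]
  have heb : B e b = 0 := by rw [hB.symm, hbe]
  have hdec := decomp_three hB hs hvv hee hve hb hbb
  -- the line is fixed pointwise
  obtain ⟨A, hA⟩ := exists_action hB hv hvv hline
  obtain ⟨ψ, hψ⟩ := exists_twist hB hvv hv hX hg hA
  have hAinj : Function.Injective A := fun l l' hll => by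
    have := hA l'
    rw [← hll, ← hA] at this
    exact smul_left_injective L hv (g.injective this).symm
  have hA1 : A 1 = (1 : F) • (1 : L) := smul_left_injective L hv (by
    show A 1 • v = ((1 : F) • (1 : L)) • v
    rw [← hA, one_smul, one_smul, one_smul, hg1])
  have hAc : A c₁ = (1 : F) • c₁ := smul_left_injective L hv (by
    show A c₁ • v = ((1 : F) • c₁) • v
    rw [← hA, hgc, one_smul])
  have hAid : A = LinearMap.id := LinearMap.ext fun l => by
    rw [eq_scalar_of_twist hB.prime hAinj hψ hA1 hAc one_ne_zero (fun hm => hc₁ (by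
      obtain ⟨f, rfl⟩ := Submodule.mem_span_singleton.1 hm
      exact ⟨f, by rw [Algebra.smul_def, mul_one]⟩)) l, one_smul]
    rfl
  subst hAid
  obtain ⟨T, hTinj, hT, hTr⟩ := exists_adjoint hB hvv hv hg (A := LinearMap.id) hA
  have hTid : T = LinearMap.id := LinearMap.ext fun β => eq_of_trace (F := F) fun l => by
    rw [hTr]; rfl
  subst hTid
  have hgv : ∀ y, B (g y) v = B y v := fun y => by
    have := hT (g y); rwa [g.symm_apply_apply, LinearMap.id_apply, eq_comm] at this
  -- the middle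
  have hmid : ∃ ε : L, ε * ε = 1 ∧ ∀ z : L, B (g (z • b)) b = ε * z * B b b := by
    have hs' : ∀ κ μ : L, μ * B (g (κ • b)) b = κ * B (g.symm (μ • b)) b := by
      intro κ μ
      let τ : L →ₗ[F] L :=
        ((B.flip (μ • b)).restrictScalars F) ∘ₗ (g : V →ₗ[F] V) ∘ₗ
          ((LinearMap.toSpanSingleton L V (κ • b)).restrictScalars F) -
        ((B.flip (κ • b)).restrictScalars F) ∘ₗ (g.symm : V →ₗ[F] V) ∘ₗ
          ((LinearMap.toSpanSingleton L V (μ • b)).restrictScalars F)
      have h0 := LinearMap.congr_fun (hX τ (inX_commutator hB hvv hv hg (A := LinearMap.id)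
        (T := LinearMap.id) hA hTinj hT (b := κ • b) (b' := μ • b) (by simp [hbv]) (by simp [hbv])
        (τ := τ) fun β => rfl)) 1
      change B (g ((1 : L) • κ • b)) (μ • b) - B (g.symm ((1 : L) • μ • b)) (κ • b) = 0 at h0
      rw [one_smul, one_smul, LinearMap.map_smul (B (g (κ • b))), LinearMap.map_smul (B (g.symm (μ • b))),
        smul_eq_mul, smul_eq_mul, sub_eq_zero] at h0
      exact h0
    refine ⟨B (g.symm b) b / B b b, ?_, fun z => by
      have := hs' z 1; rw [one_mul, one_smul] at this; rw [this]; field_simp⟩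
    set ε := B (g.symm b) b / B b b with hε
    have hG : ∀ z : L, B (g (z • b)) b = ε * z * B b b := fun z => by
      have := hs' z 1; rw [one_mul, one_smul] at this; rw [this, hε]; field_simp
    have hval : ∀ z : L, B (g (z • b)) (g (z • b)) = ε * z * (ε * z) * B b b := fun z => by
      have h3 := hdec (g (z • b))
      rw [hgv, show B (z • b) v = 0 by simp [hbv], zero_smul, add_zero, hG,
        mul_div_cancel_right₀ _ hbb] at h3
      rw [h3]; simp [hvv, hvb, hbv]; ring
    have hnorm : ∀ z : L, Tr ((ε * ε - 1) * B b b * (z * z)) = 0 := fun z => by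
      have h3 := hB.pres g hg (z • b) (z • b)
      rw [hval, show B (z • b) (z • b) = z * z * B b b by simp; ring, ← sub_eq_zero, ← map_sub] at h3
      rw [← h3]; congr 1; ring
    have h0 : (ε * ε - 1) * B b b = 0 := eq_zero_of_trace (F := F) fun l => by
      rw [show l * ((ε * ε - 1) * B b b) = (ε * ε - 1) * B b b * (((l + 1) / 2) * ((l + 1) / 2)) -
        (ε * ε - 1) * B b b * (((l - 1) / 2) * ((l - 1) / 2)) by field_simp; ring, map_sub, hnorm, hnorm,
        sub_zero]
    exact sub_eq_zero.1 ((mul_eq_zero.1 h0).resolve_right hbb)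
  obtain ⟨ε, hεε, hε⟩ := hmid
  let ω₁ : L →ₗ[F] L := ((B.flip e).restrictScalars F) ∘ₗ (g : V →ₗ[F] V) ∘ₗ
    ((LinearMap.toSpanSingleton L V b).restrictScalars F)
  let ω₂ : L →ₗ[F] L := LinearMap.mulLeft F (B b b)⁻¹ ∘ₗ ((B.flip b).restrictScalars F) ∘ₗ (g : V →ₗ[F] V) ∘ₗ
    ((LinearMap.toSpanSingleton L V e).restrictScalars F)
  let ω₃ : L →ₗ[F] L := ((B.flip e).restrictScalars F) ∘ₗ (g : V →ₗ[F] V) ∘ₗ
    ((LinearMap.toSpanSingleton L V e).restrictScalars F)
  have hgb : ∀ z : L, g (z • b) = (ε * z) • b + ω₁ z • v := fun z => by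
    conv_lhs => rw [hdec (g (z • b)), hgv, hε, mul_div_cancel_right₀ _ hbb]
    simp only [map_smul, LinearMap.smul_apply, hbv, smul_zero, zero_smul, add_zero]
    rw [add_comm]; rfl
  have hge : ∀ z : L, g (z • e) = z • e + ω₂ z • b + ω₃ z • v := fun z => by
    conv_lhs => rw [hdec (g (z • e)), hgv]
    simp only [map_smul, LinearMap.smul_apply, hev, smul_eq_mul, mul_one]
    show B (g (z • e)) e • v + z • e + (B (g (z • e)) b / B b b) • b =
      z • e + ((B b b)⁻¹ * B (g (z • e)) b) • b + B (g (z • e)) e • v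
    rw [div_eq_inv_mul]; abel
  have hgvl : ∀ z : L, g (z • v) = z • v := hA
  have hgy : ∀ y, g y = B y e • v + B y v • e + (ε * (B y b / B b b)) • b +
      (ω₁ (B y b / B b b) + ω₃ (B y v)) • v + ω₂ (B y v) • b := fun y => by
    conv_lhs => rw [hdec y, map_add, map_add, hgvl, hge, hgb]
    rw [add_smul (ω₁ _)]; abel
  -- the determinant forces the middle to be fixed
  have hε1 : ε = 1 := by
    rcases mul_self_eq_one_iff.1 hεε with h | h
    · exact h
    exfalso
    let φ : Dual L V := (-(2 / B b b)) • B.flip b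
    let R : V →ₗ[L] V := LinearMap.id + φ.smulRight b
    let f : V →ₗ[F] V := R.restrictScalars F ∘ₗ (g : V →ₗ[F] V)
    let N : Module.End F V := f - 1
    have hNy : ∀ y, N y = (-ω₂ (B y v)) • b + (ω₁ (B y b / B b b) + ω₃ (B y v)) • v := fun y => by
      show g y + φ (g y) • b - y = _
      have e1 : φ (g y) = -(2 * (-(B y b / B b b) + ω₂ (B y v))) := by
        show -(2 / B b b) * B (g y) b = _
        rw [hgy, h]; simp [hvb, heb]; field_simp
      rw [e1, hgy, h]
      conv_lhs => arg 2; rw [hdec y]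
      module
    have hN3 : N ^ 3 = 0 := by
      refine LinearMap.ext fun y => ?_
      have h1 : ∀ z, B z v = 0 → B (N z) v = 0 ∧ B (N z) b = 0 := fun z hz => by
        rw [hNy, hz]; simp [hvv, hvb, hbv]
      have hy1 : B (N y) v = 0 := by rw [hNy]; simp [hvv, hbv]
      show N (N (N y)) = 0
      rw [hNy (N (N y)), (h1 _ hy1).1, (h1 _ hy1).2]
      simp
    obtain ⟨p, hcp⟩ := CharP.exists F
    haveI : Finite F := Finite.of_injective _ (algebraMap F L).injective
    haveI : Fact p.Prime := ⟨CharP.char_is_prime F p⟩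
    haveI : Nontrivial V := ⟨⟨v, 0, hv⟩⟩
    haveI : CharP (Module.End F V) p := charP_of_injective_algebraMap
      (RingHom.injective (algebraMap F (Module.End F V))) p
    have hp3 : 3 ≤ p := by
      have := (Fact.out : p.Prime).two_le
      by_contra hlt
      obtain rfl : p = 2 := by omega
      exact hB.two (by exact_mod_cast CharP.cast_eq_zero F 2)
    have hfp : (f : Module.End F V) ^ p = 1 := by
      have h3 := sub_pow_char_of_commute p (x := (f : Module.End F V)) (y := 1) (Commute.one_right _)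
      rw [one_pow, show (f : Module.End F V) - 1 = N from rfl, ← Nat.sub_add_cancel hp3, pow_add, hN3,
        mul_zero, Nat.sub_add_cancel hp3, eq_comm, sub_eq_zero] at h3
      exact h3
    have hdet : LinearMap.det f = 1 := by
      have h3 := congrArg LinearMap.det hfp
      rw [map_pow, map_one] at h3
      exact frobenius_inj F p (by rw [frobenius_def, frobenius_def, h3, one_pow])
    have hR : LinearMap.det (R.restrictScalars F) = -1 := by
      rw [LinearMap.det_restrictScalars, det_one_add_smulRight',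
        show (1 : L) + φ b = -1 by simp [φ, hbb]; field_simp; ring,
        ← map_one (algebraMap F L), ← map_neg, Algebra.norm_algebraMap]
      exact Odd.neg_one_pow (odd_of_dim_three hB hs)
    rw [LinearMap.det_comp, hR, hB.det g hg, mul_one] at hdet
    exact hB.two (by linear_combination (-1 : F) * hdet)
  subst hε1
  -- commutators with Siegel elements
  have hτ : ∀ l β : L, ω₁ (β * l) + l * B b b * ω₂ β = 0 := by
    intro l
    let τ : L →ₗ[F] L := ω₁ ∘ₗ LinearMap.mulRight F l + LinearMap.mulLeft F (l * B b b) ∘ₗ ω₂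
    suffices hin : InX B M v τ from fun β => LinearMap.congr_fun (hX τ hin) β
    intro c
    obtain ⟨t, ht, hty⟩ := exists_sieg hB hvv (a := (algebraMap F L c * l) • b) (by simp [hvb])
    refine ⟨g * t * g⁻¹ * t⁻¹, M.mul_mem (M.mul_mem (M.mul_mem hg ht) (M.inv_mem hg)) (M.inv_mem ht),
      fun z => ?_⟩
    obtain ⟨y, rfl⟩ : ∃ y, z = t (g y) := ⟨(t * g).symm z, ((t * g).apply_symm_apply z).symm⟩
    have e0 : (g * t * g⁻¹ * t⁻¹) (t (g y)) = g (t y) := by
      simp [LinearEquiv.mul_apply]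
    have e1 : B (t (g y)) v = B y v := by
      rw [hty]; simp [sieg, hgv, hvv, hbv]
    have e2 : B (g y) b = B y b + ω₂ (B y v) * B b b := by
      rw [hgy]; simp [hvb, heb, hbb]
    have e3 : g (t y) = g y + g ((B y v * (algebraMap F L c * l)) • b) -
        g ((algebraMap F L c * l * B y b + algebraMap F L c * l * (algebraMap F L c * l) * B b b / 2 * B y v) • v) := by
      rw [hty, sieg, map_sub, map_add]
      simp only [smul_smul, map_smul, LinearMap.smul_apply, smul_eq_mul]
      ring_nf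
    rw [e0, rootMap_apply, LinearMap.flip_apply, e1, e3, hgb, hgvl, hty, sieg, hgv]
    simp only [map_smul, LinearMap.smul_apply, smul_eq_mul, e2]
    show _ = _ + (c • (ω₁ (B y v * l) + l * B b b * ω₂ (B y v))) • v
    rw [show B y v * (algebraMap F L c * l) = c • (B y v * l) by rw [Algebra.smul_def]; ring, map_smul]
    match_scalars <;> simp [Algebra.smul_def] <;> ring
  have hω₁ : ∀ l, ω₁ l = -(l * B b b * ω₂ 1) := fun l => by
    have := hτ l 1; rw [one_mul] at this; linear_combination this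
  have hω₂ : ∀ β, ω₂ β = β * ω₂ 1 := fun β => by
    have h3 := hτ 1 β
    rw [mul_one, one_mul, hω₁] at h3
    exact mul_right_cancel₀ hbb (by linear_combination h3)
  refine ⟨ω₂ 1, ω₃ + LinearMap.mulLeft F (ω₂ 1 * ω₂ 1 * B b b / 2), fun y => ?_⟩
  rw [hgy, hω₁, hω₂ (B y v), sieg, LinearMap.add_apply, LinearMap.mulLeft_apply]
  simp only [map_smul, LinearMap.smul_apply, smul_eq_mul]
  conv_rhs => arg 1; arg 1; arg 1; rw [hdec y]
  match_scalars <;> field_simp <;> ring

/-- A member through two vectors of a singular line and off its perpendicular forces root elements. -/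
lemma not_rootFree_of_two (hs : finrank L V = 3) {v : V} (hv : v ≠ 0) (hvv : B v v = 0) {h : V ≃ₗ[F] V}
    (hh : h ∈ M) {x₀ : V} (hx : x₀ ≠ 0) (hxx : B x₀ x₀ = 0)
    (hvS : v ∈ (lineF L x₀).map (h : V →ₗ[F] V)) {c₁ : L} (hc₁ : c₁ ∉ (algebraMap F L).range)
    (hcS : c₁ • v ∈ (lineF L x₀).map (h : V →ₗ[F] V)) {u₀ : V}
    (hu₀ : u₀ ∈ (lineF L x₀).map (h : V →ₗ[F] V)) (hβ : B u₀ v ≠ 0) : ¬ RootFree B M v := by
  intro hX
  classical
  have h2 := two_ne hB
  obtain ⟨e, -, hee, hve⟩ := exists_partner hB (good_top hB) Submodule.mem_top hv hvv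
  obtain ⟨b, hb, hbb⟩ := exists_aniso hB (good_perp₂ hB hvv hee hve).1 (perp₂_ne_bot hB hvv hee hve)
  obtain ⟨hbv, hbe⟩ := mem_perp₂.1 hb
  have hvb : B v b = 0 := by rw [hB.symm, hbv]
  haveI : Finite F := Finite.of_injective _ (algebraMap F L).injective
  haveI : Finite V := Module.finite_of_finite F
  haveI : Finite (V ≃ₗ[F] V) := Finite.of_injective (fun g => (g : V → V)) DFunLike.coe_injective
  let G : Subgroup (V ≃ₗ[F] V) :=
    { carrier := {g | g ∈ M ∧ g v = v ∧ g (c₁ • v) = c₁ • v}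
      one_mem' := ⟨M.one_mem, rfl, rfl⟩
      mul_mem' := fun {a b} ha hb => ⟨M.mul_mem ha.1 hb.1,
        by rw [LinearEquiv.mul_apply, hb.2.1, ha.2.1], by rw [LinearEquiv.mul_apply, hb.2.2, ha.2.2]⟩
      inv_mem' := fun {a} ha => ⟨M.inv_mem ha.1,
        (LinearEquiv.symm_apply_eq a).2 ha.2.1.symm, (LinearEquiv.symm_apply_eq a).2 ha.2.2.symm⟩ }
  obtain ⟨p, hcp⟩ := CharP.exists F
  haveI : Fact p.Prime := ⟨CharP.char_is_prime F p⟩
  have hshift : ∀ g : G, (∀ l : L, (g : V ≃ₗ[F] V) (l • v) ∈ lineF L v (F := F)) →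
      ∃ w ω, IsShift B v b (g : V ≃ₗ[F] V) w ω := fun g hl =>
    exists_isShift hB hs hvv hee hve hb hbb hX g.2.1 hl g.2.2.1 hc₁ g.2.2.2
  have hfixl : ∀ {g : V ≃ₗ[F] V} {w ω}, IsShift B v b g w ω → ∀ l : L, g (l • v) = l • v :=
    fun hg l => by rw [hg]; simp [sieg, hvv, hvb]
  let P : Subgroup G :=
    { carrier := {g | ∃ w ω, IsShift B v b (g : V ≃ₗ[F] V) w ω}
      one_mem' := ⟨0, 0, fun y => by simp [sieg]⟩
      mul_mem' := fun ⟨w, ω, h⟩ ⟨w', ω', h'⟩ => ⟨w + w', ω + ω', isShift_comp hB hvv hvb h h'⟩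
      inv_mem' := fun {g} ⟨w, ω, h⟩ => hshift g⁻¹ fun l => by
        have := hfixl h l
        rw [show ((g⁻¹ : G) : V ≃ₗ[F] V) (l • v) = l • v from (LinearEquiv.symm_apply_eq _).2 this.symm]
        exact mem_lineF.2 ⟨l, rfl⟩ }
  have hinj : ∀ {g g' : V ≃ₗ[F] V} {w ω}, IsShift B v b g w ω → IsShift B v b g' w ω → g = g' :=
    fun h h' => LinearEquiv.ext fun y => by rw [h, h']
  haveI hPc : IsMulCommutative P := ⟨⟨fun ⟨g, w, ω, hg⟩ ⟨g', w', ω', hg'⟩ => Subtype.ext (Subtype.ext (by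
    have h1 := isShift_comp hB hvv hvb hg hg'
    have h3 := isShift_comp hB hvv hvb hg' hg
    rw [add_comm w', add_comm ω'] at h3
    exact hinj h1 h3))⟩⟩
  have hexp : ∀ g : P, g ^ p = 1 := by
    rintro ⟨g, w, ω, hg⟩
    have hn : ∀ n : ℕ, IsShift B v b ((g : V ≃ₗ[F] V) ^ n) (n • w) (n • ω) := by
      intro n
      induction n with
      | zero => intro y; simp [sieg]
      | succ n ih => rw [pow_succ, succ_nsmul, succ_nsmul]; exact isShift_comp hB hvv hvb ih hg
    refine Subtype.ext (Subtype.ext ?_)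
    simp only [SubgroupClass.coe_pow, OneMemClass.coe_one]
    refine hinj (hn p) (w := p • w) (ω := p • ω) fun y => ?_
    haveI : CharP L p := charP_of_injective_algebraMap (algebraMap F L).injective p
    have e1 : p • w = 0 := by rw [nsmul_eq_mul, CharP.cast_eq_zero, zero_mul]
    have e2 : (p • ω) (B y v) = 0 := by rw [LinearMap.smul_apply, nsmul_eq_mul, CharP.cast_eq_zero, zero_mul]
    rw [e1, e2]; simp [sieg]
  have hPp : IsPGroup p P := fun g => ⟨1, by rw [pow_one]; exact hexp g⟩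
  -- the Siegel elements
  choose t ht hty using fun l : L => exists_sieg hB hvv (a := l • b) (by simp [hvb])
  have htG : ∀ l, t l ∈ G := fun l => ⟨ht l, by rw [hty]; simp [sieg, hvv, hvb],
    by rw [hty]; simp [sieg, hvv, hvb]⟩
  have htS : ∀ l, IsShift B v b (t l) l 0 := fun l y => by rw [hty]; simp
  have hfix : ∀ {l : L}, l ≠ 0 → ∀ y, t l y = y → y ∈ lineF L v (F := F) := by
    intro l hl y hy
    have h3 := congrArg (fun z => B z b) hy
    rw [hty] at h3
    simp [sieg, hvb, hl, hbb] at h3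
    have h4 := congrArg (fun z => B z e) hy
    rw [hty] at h4
    simp [sieg, h3, hve, hl] at h4
    refine mem_lineF.2 ⟨B y e, ?_⟩
    conv_rhs => rw [decomp_three hB hs hvv hee hve hb hbb y, h3, h4]
    simp
  -- elements commuting with a shift up to shifts
  have hmem : ∀ (g : G) (l : L), l ≠ 0 → (∀ z : L, (t l) ((g : V ≃ₗ[F] V) (z • v)) = (g : V ≃ₗ[F] V) (z • v)) →
      g ∈ P := fun g l hl hz => hshift g fun z => hfix hl _ (hz z)
  have hnorm : ∀ g : G, (∀ u ∈ P, g⁻¹ * u * g ∈ P) → g ∈ P := by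
    intro g hg
    refine hmem g 1 one_ne_zero fun z => ?_
    obtain ⟨w, ω, hw⟩ := hg ⟨t 1, htG 1⟩ ⟨1, 0, htS 1⟩
    have h3 := hfixl hw z
    simp only [Subgroup.coe_mul, Subgroup.coe_inv, LinearEquiv.mul_apply] at h3
    have h4 := congrArg (g : V ≃ₗ[F] V) h3
    simpa using h4
  obtain ⟨S, hPS⟩ := hPp.exists_le_sylow
  have hSP : (S : Subgroup G) = P := by
    by_contra hne
    have hlt : P.subgroupOf S < ⊤ := lt_top_iff_ne_top.2 fun h =>
      hne (le_antisymm (Subgroup.subgroupOf_eq_top.1 h) hPS)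
    haveI : Group.IsNilpotent (S : Subgroup G) := S.2.isNilpotent
    obtain ⟨s, hs', hsP⟩ := SetLike.exists_of_lt (Group.normalizerCondition_of_isNilpotent _ hlt)
    refine hsP (hnorm s fun u hu => ?_)
    have h3 := (Subgroup.mem_normalizer_iff''.1 hs') ⟨u, hPS hu⟩
    exact h3.1 hu
  have hPn : Subgroup.normalizer ((S : Subgroup G) : Set G) ≤ Subgroup.centralizer ((S : Subgroup G) : Set G) := by
    intro g hg
    have hgP : g ∈ P := hnorm g fun u hu => by
      rw [hSP] at hg
      exact (Subgroup.mem_normalizer_iff''.1 hg u).1 hu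
    rw [Subgroup.mem_centralizer_iff]
    intro u hu
    rw [SetLike.mem_coe, hSP] at hu
    exact congrArg Subtype.val (hPc.is_comm.comm (⟨u, hu⟩ : P) ⟨g, hgP⟩)
  have hcompl := MonoidHom.ker_transferSylow_isComplement' S hPn
  set N := (MonoidHom.transferSylow S hPn).ker with hN
  let U : Subgroup G :=
    { carrier := {g | ∃ l, (g : V ≃ₗ[F] V) = t l}
      one_mem' := ⟨0, LinearEquiv.ext fun y => by rw [hty]; simp [sieg]⟩
      mul_mem' := fun {a a'} ⟨l, hl⟩ ⟨l', hl'⟩ => ⟨l + l', LinearEquiv.ext fun y => by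
        rw [Subgroup.coe_mul, hl, hl', LinearEquiv.mul_apply, hty, hty, hty,
          sieg_add hB hvv (by simp [hvb]) (by simp [hvb]), add_smul]⟩
      inv_mem' := fun {a} ⟨l, hl⟩ => ⟨-l, by
        rw [Subgroup.coe_inv, hl, inv_eq_iff_mul_eq_one]
        refine LinearEquiv.ext fun y => ?_
        rw [LinearEquiv.mul_apply, hty, hty, sieg_add hB hvv (by simp [hvb]) (by simp [hvb]), neg_smul,
          add_neg_cancel]
        simp [sieg]⟩ }
  have hUP : U ≤ P := fun g ⟨l, hl⟩ => ⟨l, 0, hl ▸ htS l⟩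
  have hinjt : ∀ {l l' : L}, t l = t l' → l = l' := fun {l l'} hll => by
    have h3 := congrArg (fun g => B (g e) b) hll
    have hev : B e v = 1 := by rw [hB.symm, hve]
    have heb : B e b = 0 := by rw [hB.symm, hbe]
    simp only [hty] at h3
    simpa [sieg, hev, heb, hvb, hbb] using h3
  have hN1 : N ≤ ⊥ := by
    refine CfsgLib.Coprime.le_of_centralizers (A := U) ?_ ?_ ?_ ?_ ?_
    · exact ⟨⟨fun a a' => by
        have h3 := congrArg Subtype.val (hPc.is_comm.comm (⟨a, hUP a.2⟩ : P) ⟨a', hUP a'.2⟩)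
        exact Subtype.ext h3⟩⟩
    · intro hcyc
      obtain ⟨⟨g, l₀, hl₀⟩, hgen⟩ := hcyc.exists_generator
      have hall : ∀ l : L, ∃ n : ℤ, l = n • l₀ := by
        intro l
        obtain ⟨n, hn⟩ := Subgroup.mem_zpowers_iff.1 (hgen ⟨⟨t l, htG l⟩, l, rfl⟩)
        refine ⟨n, hinjt ?_⟩
        have hpow : ∀ m : ℤ, t l₀ ^ m = t (m • l₀) := by
          let f : Multiplicative L →* (V ≃ₗ[F] V) := MonoidHom.mk' (fun m => t (Multiplicative.toAdd m))
            fun a a' => LinearEquiv.ext fun y => by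
              rw [LinearEquiv.mul_apply, toAdd_mul, hty, hty, hty,
                sieg_add hB hvv (by simp [hvb]) (by simp [hvb]), add_smul]
          intro m
          exact (map_zpow f (Multiplicative.ofAdd l₀) m).symm
        rw [← hpow, ← hl₀]
        exact (congrArg (fun z : U => ((z : G) : V ≃ₗ[F] V)) hn).symm.trans (by simp)
      have htop : (⊤ : Submodule F L) ≤ F ∙ l₀ := fun l _ => by
        obtain ⟨n, rfl⟩ := hall l
        exact Submodule.mem_span_singleton.2 ⟨n, Int.cast_smul_eq_zsmul F n l₀⟩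
      have h3 := Submodule.finrank_mono htop
      have h4 : finrank F ↥(F ∙ l₀) ≤ 1 := (finrank_span_le_card _).trans (by simp)
      rw [finrank_top] at h3
      have := hB.prime.two_le
      omega
    · rw [Subgroup.normalizer_eq_top]
      exact le_top
    · obtain ⟨m, hm⟩ := IsPGroup.iff_card.1 (hPp.to_le hUP)
      rw [hm]
      exact Nat.Coprime.pow_left m ((Fact.out : p.Prime).coprime_iff_not_dvd.2
        (MonoidHom.not_dvd_card_ker_transferSylow S hPn))
    · rintro a ⟨l, hl⟩ ha g ⟨hgN, hgC⟩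
      have hl0 : l ≠ 0 := fun h0 => ha (Subtype.ext (by
        rw [hl, h0]; exact LinearEquiv.ext fun y => by rw [hty]; simp [sieg]))
      have hgP : g ∈ P := hmem g l hl0 fun z => by
        have h3 := Subgroup.mem_centralizer_singleton_iff.1 hgC
        have h4 := congrArg (fun w : G => (w : V ≃ₗ[F] V) (z • v)) h3
        simp only [Subgroup.coe_mul, LinearEquiv.mul_apply, hl] at h4
        rw [hfixl (htS l)] at h4
        exact h4.symm
      exact hcompl.disjoint.le_bot ⟨hgN, hSP ▸ hgP⟩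
  have htop : P = ⊤ := by
    rw [← hSP]
    have h3 := hcompl
    rw [le_bot_iff.1 hN1, Subgroup.isComplement'_bot_left] at h3
    exact h3
  -- a conjugate of a Siegel element is then a shift, but has the wrong shape
  obtain ⟨e', -, hee', hxe'⟩ := exists_partner hB (good_top hB) Submodule.mem_top hx hxx
  obtain ⟨b', hb', hbb'⟩ := exists_aniso hB (good_perp₂ hB hxx hee' hxe').1 (perp₂_ne_bot hB hxx hee' hxe')
  obtain ⟨hbx, hbe'⟩ := mem_perp₂.1 hb'
  obtain ⟨s, hsM, hsy⟩ := exists_sieg hB hxx (a := b') (by rw [hB.symm, hbx])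
  have hfixS : ∀ z ∈ (lineF L x₀).map (h : V →ₗ[F] V), (h * s * h⁻¹) z = z := by
    rintro _ ⟨z, hz, rfl⟩
    obtain ⟨l, rfl⟩ := mem_lineF.1 hz
    show h (s (h.symm (h (l • x₀)))) = h (l • x₀)
    rw [h.symm_apply_apply, hsy, sieg]
    simp [hxx, hB.symm x₀ b', hbx]
  obtain ⟨w, ω, hg⟩ : (⟨h * s * h⁻¹, M.mul_mem (M.mul_mem hh hsM) (M.inv_mem hh), hfixS v hvS,
      hfixS _ hcS⟩ : G) ∈ P := htop ▸ Subgroup.mem_top _
  have hw : w = 0 := by
    have h3 := congrArg (fun z => B z b) ((hg u₀).symm.trans (hfixS u₀ hu₀))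
    simpa [sieg, hvb, hbb, hβ] using h3
  set g := h * s * h⁻¹ with hgdef
  have hgy : ∀ y, g y = y + ω (B y v) • v := fun y => by
    rw [show g y = _ from hg y, hw]; simp [sieg]
  have hsq : g (g (h e') - h e') - (g (h e') - h e') = 0 := by
    rw [hgy (h e'), add_sub_cancel_left, hgy]
    simp [hvv]
  have hconj : ∀ y, g (h y) = h (s y) := fun y => by simp [hgdef, LinearEquiv.mul_apply]
  rw [hconj, ← map_sub, hconj, ← map_sub, map_eq_zero_iff h h.injective, hsy, hsy, sieg, sieg] at hsq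
  have h3 := congrArg (fun z => B z e') hsq
  simp [hB.symm e' x₀, hxe', hB.symm e' b', hbe', hxx, hee', hB.symm x₀ b', hbx] at h3
  exact hbb' h3

/-- A pair meeting in the ground field gives an orthogonal vector or root elements. -/
lemma pairI_or_root_of_one (hs : finrank L V = 3) {h : V ≃ₗ[F] V} {v x₀ : V}
    (hp : IsMaxPair L (fun x => B x x = 0) M h v x₀) (hk : meetDim L h v x₀ ≤ 1)
    {u₀ : V} (hu₀ : u₀ ∈ (lineF L x₀).map (h : V →ₗ[F] V)) (hβ : B u₀ v ≠ 0) :
    PairI B M ∨ ¬ RootFree B M x₀ := by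
  have h2 := two_ne hB
  obtain ⟨⟨hh, hvv, hxx, hv, hx, hvS, hSne⟩, hmax⟩ := hp
  have hp : IsMaxPair L (fun x => B x x = 0) M h v x₀ := ⟨⟨hh, hvv, hxx, hv, hx, hvS, hSne⟩, hmax⟩
  replace hvv : B v v = 0 := hvv
  replace hxx : B x₀ x₀ = 0 := hxx
  set S := (lineF L x₀).map (h : V →ₗ[F] V) with hS
  obtain ⟨u₁, hu₁, h₁₁⟩ : ∃ u ∈ S, B u u ≠ 0 := by
    by_contra! hall
    have h3 := hall _ (S.add_mem hu₀ hvS)
    rw [B_add_self hB, hall u₀ hu₀, hvv, zero_add, add_zero] at h3
    exact hβ ((mul_eq_zero.1 h3).resolve_left h2)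
  obtain ⟨u₂, hu₂, hu₂0, h₂₁⟩ : ∃ u ∈ S, u ≠ 0 ∧ B u u₁ = 0 := by
    let J : S →ₗ[F] L := ((B.flip u₁).restrictScalars F) ∘ₗ S.subtype
    have hJ : LinearMap.range J ≤ LinearMap.ker (Algebra.trace F L) := by
      rintro _ ⟨y, rfl⟩
      exact trace_member hB hp y.2 hu₁
    have d1 := LinearMap.finrank_range_add_finrank_ker J
    have d2 := Submodule.finrank_mono hJ
    have d3 := LinearMap.finrank_range_add_finrank_ker (Algebra.trace F L)
    rw [LinearMap.range_eq_top.2 (Algebra.trace_surjective F L), finrank_top, finrank_self] at d3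
    rw [show finrank F S = finrank F L by rw [hS, LinearEquiv.finrank_map_eq, finrank_lineF hx]] at d1
    obtain ⟨y, hy, hy0⟩ := Submodule.exists_mem_ne_zero_of_ne_bot
      (Submodule.one_le_finrank_iff.1 (show 1 ≤ finrank F ↥(LinearMap.ker J) by omega))
    exact ⟨y, y.2, fun h0 => hy0 (Subtype.ext h0), hy⟩
  by_cases h₂₂ : B u₂ u₂ = 0
  · refine Or.inl ⟨h, u₂, x₀, ⟨⟨hh, h₂₂, hxx, hu₂0, hx, hu₂, fun he => ?_⟩, fun a b c hp' =>
      (hmax a b c hp').trans (hk.trans ?_)⟩, u₁, hu₁, fun hm => ?_, by rw [hB.symm]; exact h₂₁⟩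
    · obtain ⟨l, hl⟩ := no_line hB hp hu₂0
      exact hl (he.symm ▸ mem_lineF.2 ⟨l, rfl⟩)
    · exact Submodule.one_le_finrank_iff.2 (Submodule.ne_bot_iff _ |>.2 ⟨u₂, ⟨self_mem_lineF u₂, hu₂⟩, hu₂0⟩)
    · obtain ⟨l, rfl⟩ := mem_lineF.1 hm
      simp [h₂₂] at h₁₁
  have h₁₂ : B u₁ u₂ = 0 := by rw [hB.symm]; exact h₂₁
  obtain ⟨hW₁, hd₁⟩ := good_inf hB (good_top hB) Submodule.mem_top h₁₁
  obtain ⟨hW₂, hd₂⟩ := good_inf hB hW₁ (a := u₂) ⟨Submodule.mem_top, h₂₁⟩ h₂₂
  obtain ⟨u₃, hu₃, h₃₃⟩ := exists_aniso hB hW₂ fun h0 => by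
    rw [h0, finrank_bot] at hd₂; rw [finrank_top] at hd₁; omega
  have h₃₁ : B u₃ u₁ = 0 := hu₃.1.2
  have h₃₂ : B u₃ u₂ = 0 := hu₃.2
  rcases not_rootFree_of_signs hB hs hp hk hu₁ hu₂ h₁₁ h₂₂ h₃₃ h₂₁ h₃₁ h₃₂ with hX | horth
  · exact Or.inr hX
  · -- the member lies in a plane
    obtain ⟨f, s, hf, hfs⟩ := exists_smul_square hB (odd_of_dim_three hB hs) (B u₃ u₃ * B u₀ v)
      (mul_ne_zero h₃₃ hβ)
    have hs0 : s ≠ 0 := by
      rintro rfl
      rw [zero_pow two_ne_zero, smul_eq_zero] at hfs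
      exact hfs.elim hf (mul_ne_zero h₃₃ hβ)
    refine Or.inl (pairI_of_shift hB hp hu₀ hβ (b := s⁻¹ • u₃) (fun y hy' => by simp [horth y hy'])
      (c := f⁻¹) ?_ (inv_ne_zero hf))
    rw [map_inv₀, map_smul, map_smul, LinearMap.smul_apply, smul_eq_mul, smul_eq_mul]
    have hfa : algebraMap F L f ≠ 0 := by simpa using hf
    rw [Algebra.smul_def] at hfs
    field_simp
    linear_combination hfs

/-- Outside the semilinear group some element induces a transvection on a singular line. -/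
theorem exists_transv [Finite V] (hM : ¬ M ≤ semiLin F L V) :
    ∃ a : V, a ≠ 0 ∧ B a a = 0 ∧ ∃ x ∈ M, ∃ (φ : L →ₗ[F] F) (e : L),
      φ ≠ 0 ∧ e ≠ 0 ∧ φ e = 0 ∧ ∀ l : L, x (l • a) = (l + φ l • e) • a := by
  obtain ⟨h₀, v₀, z₀, hp₀⟩ := exists_pair_of_not_le hB hM
  obtain ⟨h, v, x₀, hp⟩ := exists_isMaxPair hp₀
  refine transv_of_pairI hB ?_
  by_cases hi : ∃ u ∈ (lineF L x₀).map (h : V →ₗ[F] V), u ∉ lineF L v (F := F) ∧ B u v = 0
  · exact ⟨h, v, x₀, hp, hi⟩
  push Not at hi
  have hv : v ≠ 0 := hp.1.2.2.2.1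
  have hvv : B v v = 0 := hp.1.2.1
  have hx : x₀ ≠ 0 := hp.1.2.2.2.2.1
  have hxx : B x₀ x₀ = 0 := hp.1.2.2.1
  obtain ⟨u₀, hu₀, hu₀v⟩ : ∃ u ∈ (lineF L x₀).map (h : V →ₗ[F] V), u ∉ lineF L v (F := F) := by
    by_contra! hle
    exact hp.1.2.2.2.2.2.2 (Submodule.eq_of_le_of_finrank_eq hle (by
      rw [LinearEquiv.finrank_map_eq, finrank_lineF hv, finrank_lineF hx]))
  have hβ : B u₀ v ≠ 0 := hi u₀ hu₀ hu₀v
  by_cases hs : finrank L V = 3
  swap
  · exact pairI_of_four hB (by have := hB.dim; omega) hp hu₀ hu₀v hβ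
  have hii : ∀ u ∈ (lineF L x₀).map (h : V →ₗ[F] V), B u v = 0 → u ∈ lineF L v (F := F) :=
    fun u hu huv => by_contra fun hn => hi u hu hn huv
  have hmove : ∀ {a a' : V}, a ≠ 0 → B a a = 0 → a' ≠ 0 → B a' a' = 0 → ¬ RootFree B M a →
      ¬ RootFree B M a' := by
    intro a a' ha haa ha' ha'a hX hX'
    refine hX fun τ hτ => by_contra fun hne => ?_
    obtain ⟨τ', hne', hτ'⟩ := exists_inX_of hB ha haa ha' ha'a ⟨τ, hne, hτ⟩
    exact hne' (hX' τ' hτ')
  by_contra hno
  have hX : ¬ RootFree B M v := by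
    by_cases hk : ∃ c : L, c ∉ (algebraMap F L).range ∧ c • v ∈ (lineF L x₀).map (h : V →ₗ[F] V)
    · obtain ⟨c, hc, hcS⟩ := hk
      exact not_rootFree_of_two hB hs hv hvv hp.1.1 hx hxx hp.1.2.2.2.2.2.1 hc hcS hu₀ hβ
    · push Not at hk
      have hdim : meetDim L h v x₀ ≤ 1 := by
        have hle : lineF L v ⊓ (lineF L x₀).map (h : V →ₗ[F] V) ≤ F ∙ v := by
          rintro y ⟨hy1, hy2⟩
          obtain ⟨l, rfl⟩ := mem_lineF.1 hy1
          by_cases hl : l ∈ (algebraMap F L).range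
          · obtain ⟨f, rfl⟩ := hl
            exact Submodule.mem_span_singleton.2 ⟨f, (algebraMap_smul L f v).symm⟩
          · exact absurd hy2 (hk l hl)
        refine (Submodule.finrank_mono hle).trans ?_
        rw [finrank_span_singleton hv]
      rcases pairI_or_root_of_one hB hs hp hdim hu₀ hβ with hI | hX
      · exact absurd hI hno
      · exact hmove hx hxx hv hvv hX
  exact hno (pairI_of_root hB hs hp hu₀ hii hu₀v hX)

end CfsgLib.C3Max.Orth
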