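import Cfsg.Agent.C3Max.OrthBasic

/-!
Rotations in a plane, the scalar they induce, and the existence of a translate of a singular line which is
not a line and has a singular vector.
-/

set_option autoImplicit false
set_option linter.unusedSectionVars false
set_option linter.unusedSimpArgs false
set_option linter.style.haveILetI false

namespace CfsgLib.C3Max.Orth

open Module CfsgLib.FieldExtMax

variable {F L V : Type*} [Field F] [Field L] [Algebra F L] [AddCommGroup V] [Module F V]
  [Module L V] [IsScalarTower F L V] [Finite L] [IsGalois F L] [FiniteDimensional F L]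
  [FiniteDimensional F V] [FiniteDimensional L V]

/-- The component along the plane of two orthogonal vectors. -/
noncomputable def proj (B : V →ₗ[L] V →ₗ[L] L) (a w y : V) : V :=
  (B y a / B a a) • a + (B y w / B w w) • w

omit [IsGalois F L] in
/-- Over a finite field every element is a square in an extension of degree two. -/
lemma isSquare_algebraMap_of_two (h2 : finrank F L = 2) (f : F) : IsSquare (algebraMap F L f) := by
  classical
  haveI : Finite F := Finite.of_injective _ (algebraMap F L).injective
  letI := Fintype.ofFinite F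
  letI := Fintype.ofFinite L
  rcases eq_or_ne f 0 with rfl | hf
  · rw [map_zero]; exact IsSquare.zero
  by_cases hch : ringChar L = 2
  · exact FiniteField.isSquare_of_char_two hch _
  have hcard : Fintype.card L = Fintype.card F ^ 2 := by rw [← h2]; exact Module.card_eq_pow_finrank
  have hodd := FiniteField.odd_card_of_char_ne_two hch
  obtain ⟨k, hk⟩ : ∃ k, Fintype.card F = 2 * k + 1 := ⟨Fintype.card F / 2, by
    rw [hcard, Nat.pow_mod] at hodd
    rcases Nat.mod_two_eq_zero_or_one (Fintype.card F) with h | h <;> rw [h] at hodd <;> omega⟩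
  rw [FiniteField.isSquare_iff hch ((map_ne_zero _).2 hf), ← map_pow]
  have h1 : Fintype.card L / 2 = (Fintype.card F - 1) * (k + 1) := by
    rw [hcard, hk, Nat.add_sub_cancel, show (2 * k + 1) ^ 2 = 2 * (2 * k * (k + 1)) + 1 by ring]
    omega
  rw [h1, pow_mul, FiniteField.pow_card_sub_one_eq_one f hf, one_pow, map_one]

variable {B : V →ₗ[L] V →ₗ[L] L} {M : Subgroup (V ≃ₗ[F] V)} (hB : Over B M)
include hB

lemma odd_of_dim_three (h : finrank L V = 3) : Odd (finrank F L) :=
  hB.prime.odd_of_ne_two fun h2 => by have := hB.dim_three h; omega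

lemma proj_proj {a w : V} (ha : B a a ≠ 0) (hw : B w w ≠ 0) (hwa : B w a = 0) (y : V) :
    proj B a w (proj B a w y) = proj B a w y := by
  simp [proj, hwa, hB.symm a w, div_mul_cancel₀ _ ha, div_mul_cancel₀ _ hw]

lemma proj_smul (a w : V) (l : L) (y : V) : proj B a w (l • y) = l • proj B a w y := by
  simp [proj, smul_smul, mul_div_assoc]

lemma refl_pair_add {a w : V} (ha : B a a ≠ 0) (hw : B w w ≠ 0) (hwa : B w a = 0)
    (hb : B a a + B w w ≠ 0) (y : V) :
    refl B a (refl B (a + w) y) + refl B (a + w) (refl B a y) =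
      (2 : L) • y + (2 * ((B a a - B w w) / (B a a + B w w)) - 2) • proj B a w y := by
  have haw : B a w = 0 := by rw [hB.symm, hwa]
  have hbb : B (a + w) (a + w) = B a a + B w w := by rw [B_add_self hB, haw]; ring
  have hba : B (a + w) a = B a a := by simp [hwa]
  have e : B (refl B a y) (a + w) = -B y a + B y w := by
    simp only [refl, map_sub, map_add, map_smul, LinearMap.sub_apply, LinearMap.smul_apply, smul_eq_mul,
      haw]
    field_simp; ring
  have e' : B (refl B (a + w) y) a =
      B y a - 2 * (B y a + B y w) / (B a a + B w w) * B a a := by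
    rw [refl, hbb]
    simp only [map_sub, map_smul, LinearMap.sub_apply, LinearMap.smul_apply, smul_eq_mul, hba]
    rw [map_add]
  conv_lhs => rw [refl, e', refl, hbb, refl, e, hbb, refl]
  simp only [map_add]
  unfold proj
  match_scalars <;> field_simp <;> ring

/-- A rotation of a plane in `W` and its inverse, adding up to a scalar outside the ground field. -/
lemma exists_rot {W : Submodule L V} (hW : Good B W) (h : 2 ≤ finrank L W)
    (hr : finrank F L = 2 → 3 ≤ finrank L W ∨ ∀ z ∈ W, B z z = 0 → z = 0) {a : V} (ha : a ∈ W) (haa : B a a ≠ 0) :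
    ∃ w ∈ W, B w a = 0 ∧ B w w ≠ 0 ∧ ∃ (g g' : V ≃ₗ[F] V) (k : L), g ∈ M ∧ g' ∈ M ∧
      k ∉ (algebraMap F L).range ∧ (∀ y, B y a = 0 → B y w = 0 → g y = y ∧ g' y = y) ∧
      ∀ y, g y + g' y = (2 : L) • y + k • proj B a w y := by
  have h2 := two_ne hB
  have hF : ∀ f : F, algebraMap F L f ∈ (algebraMap F L).range := fun f => ⟨f, rfl⟩
  obtain ⟨hW', hd⟩ := good_inf hB hW ha haa
  -- the value on the second vector and the cosine
  obtain ⟨w, hw, hww, hsum, hc⟩ : ∃ w ∈ W ⊓ LinearMap.ker (B.flip a), B w w ≠ 0 ∧
      B a a + B w w ≠ 0 ∧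
      ((B a a - B w w) / (B a a + B w w)) ^ 2 ∉ (algebraMap F L).range := by
    obtain ⟨c₀, hc₀⟩ : ∃ c : L, c ∉ (algebraMap F L).range := by
      by_contra! hall
      have h1 : Function.Surjective (Algebra.linearMap F L) := fun x => hall x
      have h2' := LinearMap.finrank_range_of_inj (f := Algebra.linearMap F L) (algebraMap F L).injective
      rw [LinearMap.range_eq_top.2 h1, finrank_top, finrank_self] at h2'
      exact hB.prime.ne_one h2'
    by_cases hr2 : finrank F L = 2
    · rcases hr hr2 with hW3 | hWa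
      · obtain ⟨c, hc, hc1, hc2⟩ : ∃ c : L, c ^ 2 ∉ (algebraMap F L).range ∧ c ≠ 1 ∧ c ≠ -1 := by
          obtain ⟨c, hc⟩ : ∃ c : L, c ^ 2 ∉ (algebraMap F L).range := by
            by_contra! hall
            obtain ⟨u, hu⟩ := hall c₀
            obtain ⟨u', hu'⟩ := hall (1 + c₀)
            refine hc₀ ⟨(u' - u - 1) / 2, ?_⟩
            rw [map_div₀, map_sub, map_sub, map_one, map_ofNat, hu, hu']
            field_simp
            ring
          exact ⟨c, hc, fun h => hc (by rw [h, one_pow]; exact ⟨1, map_one _⟩),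
            fun h => hc (by rw [h, neg_one_sq]; exact ⟨1, map_one _⟩)⟩
        have h1c : 1 + c ≠ 0 := fun h => hc2 (by linear_combination h)
        have hd' : 2 ≤ finrank L ↥(W ⊓ LinearMap.ker (B.flip a)) := by omega
        have hne : (1 - c) / (1 + c) * B a a ≠ 0 :=
          mul_ne_zero (div_ne_zero (sub_ne_zero.2 hc1.symm) h1c) haa
        obtain ⟨w, hw, hwv⟩ := exists_value' hB hW' hd' hne
        refine ⟨w, hw, by rwa [hwv], ?_, ?_⟩
        · rw [hwv]
          intro h0
          have : (2 : L) * B a a = 0 := by field_simp at h0; linear_combination h0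
          exact mul_ne_zero h2 haa this
        · rw [hwv]
          have hden : B a a + (1 - c) / (1 + c) * B a a = 2 / (1 + c) * B a a := by field_simp; ring
          have hnum : B a a - (1 - c) / (1 + c) * B a a = c * (2 / (1 + c) * B a a) := by field_simp; ring
          rwa [hden, hnum, mul_div_cancel_right₀ _ (mul_ne_zero (div_ne_zero h2 h1c) haa)]
      · -- an anisotropic plane
        obtain ⟨w, hw, hww⟩ := exists_aniso hB hW' fun h0 => by rw [h0, finrank_bot] at hd; omega
        have hwa : B w a = 0 := hw.2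
        have haw : B a w = 0 := by rw [hB.symm, hwa]
        have hsum : B a a + B w w ≠ 0 := fun h0 => by
          have h1 := hWa (a + w) (W.add_mem ha hw.1) (by rw [B_add_self hB, haw]; linear_combination h0)
          have h3 := congrArg (fun y => B y a) h1
          simp [hwa, haa] at h3
        refine ⟨w, hw, hww, hsum, fun hsq => ?_⟩
        obtain ⟨f, hf⟩ := hsq
        obtain ⟨s, hs⟩ := isSquare_algebraMap_of_two (L := L) hr2 (-(1 - f))
        set c := (B a a - B w w) / (B a a + B w w) with hcdef
        have e : c * (B a a + B w w) = B a a - B w w := div_mul_cancel₀ _ hsum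
        have hf' : algebraMap F L (-(1 - f)) = -(1 - c ^ 2) := by rw [map_neg, map_sub, map_one, hf]
        have h1c : (1 + c) * (B a a + B w w) = 2 * B a a := by linear_combination e
        have h1c0 : 1 + c ≠ 0 := fun h0 => mul_ne_zero h2 haa (by rw [← h1c, h0, zero_mul])
        have key : B w w * (1 + c) ^ 2 + s * s * B a a = 0 := by
          rw [← hs, hf']
          linear_combination (1 + c) * e
        have h3 := hWa (s • a + (1 + c) • w) (W.add_mem (W.smul_mem _ ha) (W.smul_mem _ hw.1)) (by
          simp only [map_add, map_smul, LinearMap.add_apply, LinearMap.smul_apply, smul_eq_mul, hwa, haw]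
          linear_combination key)
        have h4 := congrArg (fun y => B y w) h3
        simp [haw, hww, h1c0] at h4
    · have hodd : Odd (finrank F L) := hB.prime.odd_of_ne_two hr2
      obtain ⟨w₀, hw₀, hww₀⟩ := exists_aniso hB hW' fun h0 => by rw [h0, finrank_bot] at hd; omega
      obtain ⟨t, ht⟩ : ∃ t : L, t * t * (B w₀ w₀ / B a a) ∉ (algebraMap F L).range := by
        by_contra! hall
        refine hc₀ ?_
        have hsub : ∀ u : L, u * (B w₀ w₀ / B a a) ∈ (algebraMap F L).range := fun u => by
          have := (algebraMap F L).range.sub_mem (hall ((u + 1) / 2)) (hall ((u - 1) / 2))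
          convert this using 1
          field_simp; ring
        have := hsub (c₀ * (B w₀ w₀ / B a a)⁻¹)
        rwa [mul_assoc, inv_mul_cancel₀ (div_ne_zero hww₀ haa), mul_one] at this
      set μ := t * t * (B w₀ w₀ / B a a) with hμ
      have hμ0 : μ ≠ 0 := fun h => ht (h ▸ ⟨0, map_zero _⟩)
      have hμ1 : 1 + μ ≠ 0 := fun h => ht ⟨-1, by rw [map_neg, map_one]; show -1 = μ; linear_combination -h⟩
      have hval : B (t • w₀) (t • w₀) = μ * B a a := by simp [hμ]; field_simp
      refine ⟨t • w₀, Submodule.smul_mem _ _ hw₀, by rw [hval]; exact mul_ne_zero hμ0 haa, ?_, ?_⟩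
      · rw [hval, show B a a + μ * B a a = (1 + μ) * B a a by ring]
        exact mul_ne_zero hμ1 haa
      · rw [hval]
        intro hsq
        set c := (B a a - μ * B a a) / (B a a + μ * B a a) with hcdef
        have hcF : c ∈ (algebraMap F L).range := by
          by_contra hcn
          obtain ⟨f, hf⟩ := hsq
          have hle : finrank F L ≤ 2 := by
            have hspan : (⊤ : Submodule F L) ≤ F ∙ (1 : L) ⊔ F ∙ c := by
              intro l _
              have hC : ∀ d ∈ F ∙ (1 : L) ⊔ F ∙ c, c * d ∈ F ∙ (1 : L) ⊔ F ∙ c := by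
                intro d hd
                obtain ⟨x, hx, y, hy, rfl⟩ := Submodule.mem_sup.1 hd
                obtain ⟨s, rfl⟩ := Submodule.mem_span_singleton.1 hx
                obtain ⟨s', rfl⟩ := Submodule.mem_span_singleton.1 hy
                rw [mul_add, mul_smul_comm, mul_smul_comm, mul_one, ← sq, ← hf,
                  Algebra.algebraMap_eq_smul_one, smul_smul, add_comm]
                exact Submodule.add_mem_sup (Submodule.mem_span_singleton.2 ⟨_, rfl⟩)
                  (Submodule.mem_span_singleton.2 ⟨_, rfl⟩)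
              simpa using mul_mem_of_adjoin hB.prime hcn hC l
                (Submodule.mem_sup_left (Submodule.mem_span_singleton_self 1))
            have h1 := Submodule.finrank_mono hspan
            have h2' := Submodule.finrank_add_le_finrank_add_finrank (F ∙ (1 : L)) (F ∙ c)
            have h3 : finrank F ↥(F ∙ (1 : L)) ≤ 1 := (finrank_span_le_card _).trans (by simp)
            have h4 : finrank F ↥(F ∙ c) ≤ 1 := (finrank_span_le_card _).trans (by simp)
            rw [finrank_top] at h1
            omega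
          have := hB.prime.two_le
          omega
        obtain ⟨f, hf⟩ := hcF
        refine ht ⟨(1 - f) / (1 + f), ?_⟩
        have e : c * (1 + μ) = 1 - μ := by rw [hcdef]; field_simp
        rw [map_div₀, map_sub, map_add, map_one, hf, div_eq_iff (fun h0 => h2 (by linear_combination -e + (1 + μ) * h0))]
        linear_combination -e
  have hwa : B w a = 0 := hw.2
  refine ⟨w, hw.1, hwa, hww, ?_⟩
  set b := a + w
  have hbb : B b b = B a a + B w w := by rw [B_add_self hB, hB.symm a w, hwa]; ring
  obtain ⟨g, hg, hgy⟩ := hB.comm a b haa (by rwa [hbb])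
  obtain ⟨g', hg', hgy'⟩ := hB.comm b a (by rwa [hbb]) haa
  set c := (B a a - B w w) / (B a a + B w w)
  refine ⟨g, g', 4 * c ^ 2 - 4, hg, hg', fun hm => hc ?_, fun y h1 h2 => ?_, fun y => ?_⟩
  · obtain ⟨f, hf⟩ := hm
    refine ⟨(f + 4) / 4, ?_⟩
    have h4 : (4 : L) ≠ 0 := by rw [show (4 : L) = 2 * 2 by norm_num]; exact mul_ne_zero h2 h2
    rw [map_div₀, map_add, map_ofNat, hf]
    field_simp
    ring
  · have e1 : refl B a y = y := refl_orth hB h1
    have e2 : refl B b y = y := refl_orth hB (by simp [b, h1, h2])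
    rw [hgy, hgy', e2, e1, e2, e1]
    exact ⟨rfl, by rw [e2]⟩
  · have S := refl_pair_add hB haa hww hwa (by rwa [hbb] at *)
    have hRR : ∀ y, refl B b (refl B a (refl B a (refl B b y))) = y := fun y => by
      rw [refl_refl hB haa, refl_refl hB (by rwa [hbb])]
    have hRR' : ∀ y, refl B a (refl B b (refl B b (refl B a y))) = y := fun y => by
      rw [refl_refl hB (by rwa [hbb]), refl_refl hB haa]
    have key : ∀ y, refl B a (refl B b (refl B a (refl B b y))) + refl B b (refl B a (refl B b (refl B a y)))
        + (2 : L) • y = refl B a (refl B b (refl B a (refl B b y) + refl B b (refl B a y))) +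
          refl B b (refl B a (refl B a (refl B b y) + refl B b (refl B a y))) := fun y => by
      rw [refl_add hB, refl_add hB, refl_add hB, refl_add hB, hRR, hRR', two_smul]
      abel
    have h5 := key y
    rw [S, S] at h5
    rw [hgy, hgy', eq_sub_of_add_eq h5]
    simp only [proj_proj hB haa hww hwa, proj_smul hB, smul_add, smul_smul]
    have hp : proj B a w ((2 : L) • y + (2 * c - 2) • proj B a w y) = (2 * c) • proj B a w y := by
      have hadd : ∀ u u' : V, proj B a w (u + u') = proj B a w u + proj B a w u' := fun u u' => by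
        simp only [proj, map_add, LinearMap.add_apply, add_div, add_smul]; abel
      rw [hadd, proj_smul hB, proj_smul hB, proj_proj hB haa hww hwa, ← add_smul]; congr 1; ring
    rw [hp]
    match_scalars <;> ring

/-- A subspace containing no `L`-line of the plane and stable under a rotation is orthogonal to the plane. -/
lemma orth_of_rot {S : Submodule F V} {a w : V} (ha : B a a ≠ 0) (hw : B w w ≠ 0) (hwa : B w a = 0)
    {g g' : V ≃ₗ[F] V} {k : L} (hk : k ∉ (algebraMap F L).range)
    (hgy : ∀ y, g y + g' y = (2 : L) • y + k • proj B a w y) (hS : ∀ y ∈ S, g y ∈ S ∧ g' y ∈ S)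
    (hno : ∀ z ∈ Submodule.span L ({a, w} : Set V), z ≠ 0 → ∃ l : L, l • z ∉ S) :
    ∀ y ∈ S, B y a = 0 ∧ B y w = 0 := by
  intro y hy
  have hkey : ∀ u ∈ S, k • proj B a w u ∈ S := fun u hu => by
    have h1 : g u + g' u - (2 : L) • u ∈ S := S.sub_mem (S.add_mem (hS u hu).1 (hS u hu).2) (by
      rw [two_smul]; exact S.add_mem hu hu)
    rwa [hgy, add_sub_cancel_left] at h1
  have hk0 : k ≠ 0 := fun h => hk (h ▸ ⟨0, map_zero _⟩)
  set z := proj B a w y with hz
  have hz0 : z = 0 := by
    by_contra h0
    obtain ⟨l, hl⟩ := hno z (Submodule.add_mem _ (Submodule.smul_mem _ _ (Submodule.subset_span (by simp)))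
      (Submodule.smul_mem _ _ (Submodule.subset_span (by simp)))) h0
    let C : Submodule F L := S.comap ((LinearMap.toSpanSingleton L V z).restrictScalars F)
    have hC : ∀ c ∈ C, k * c ∈ C := fun c (hc : c • z ∈ S) => by
      show (k * c) • z ∈ S
      rw [mul_smul]
      convert hkey _ hc using 2
      rw [proj_smul hB, hz, proj_proj hB ha hw hwa]
    have h1 := mul_mem_of_adjoin hB.prime hk hC (l * k⁻¹) (show k ∈ C from hkey y hy)
    rw [inv_mul_cancel_right₀ hk0] at h1
    exact hl h1
  constructor
  · have := congrArg (fun u => B u a) hz0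
    simpa [hz, proj, hwa, div_mul_cancel₀ _ ha] using this
  · have := congrArg (fun u => B u w) hz0
    simpa [hz, proj, hB.symm a w, hwa, div_mul_cancel₀ _ hw] using this

/-- Orthogonality to the anisotropic vectors of a non-degenerate space. -/
lemma orth_of_aniso {W : Submodule L V} (hW : Good B W) {y : V}
    (h : ∀ a ∈ W, B a a ≠ 0 → B y a = 0) {z : V} (hz : z ∈ W) : B y z = 0 := by
  by_cases hzz : B z z = 0
  · rcases eq_or_ne z 0 with rfl | hz0
    · simp
    obtain ⟨e, he, hee, hze⟩ := exists_partner hB hW hz hz0 hzz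
    have h1 := h (z + e) (W.add_mem hz he) (by
      rw [B_add_self hB, hzz, hee, hze]; simpa using two_ne hB)
    have h2 := h (z - e) (W.sub_mem hz he) (by
      rw [show B (z - e) (z - e) = -2 by simp [hzz, hee, hze, hB.symm e z]; norm_num]
      simpa using two_ne hB)
    simp only [map_add, map_sub] at h1 h2
    have h3 : (2 : L) * B y z = 0 := by linear_combination h1 + h2
    exact (mul_eq_zero.1 h3).resolve_left (two_ne hB)
  · exact h z hz hzz

/-- Two singular vectors have a singular vector orthogonal to neither. -/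
lemma exists_common {x y : V} (hx : x ≠ 0) (hxx : B x x = 0) (hy : y ≠ 0) (hyy : B y y = 0) :
    ∃ z, B z z = 0 ∧ B x z ≠ 0 ∧ B y z ≠ 0 := by
  obtain ⟨e, -, hee, hxe⟩ := exists_partner hB (good_top hB) Submodule.mem_top hx hxx
  obtain ⟨e', -, hee', hye⟩ := exists_partner hB (good_top hB) Submodule.mem_top hy hyy
  by_cases h1 : B y e = 0
  · by_cases h2 : B x e' = 0
    · by_cases hxy : B x y = 0
      · refine ⟨(e + e') + (-(B (e + e') (e + e')) / 2) • x, ?_, ?_, ?_⟩
        · rw [B_add_self hB]
          simp only [map_add, map_smul, LinearMap.add_apply, LinearMap.smul_apply, smul_eq_mul,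
            hB.symm e x, hxe, hxx, hB.symm e' x, h2]
          field_simp [two_ne hB]; ring
        · simp [hxe, h2, hxx]
        · simp [h1, hye, hB.symm y x, hxy]
      · obtain ⟨b, hb, hbb⟩ := exists_aniso hB (good_perp₂ hB hxx hee hxe).1
          (perp₂_ne_bot hB hxx hee hxe)
        obtain ⟨hbx, hbe⟩ := mem_perp₂.1 hb
        by_cases hyb : B y b = 0
        · refine ⟨e + b + (-(B b b) / 2) • x, ?_, ?_, ?_⟩
          · rw [B_add_self hB]
            simp [hee, hB.symm e b, hbe, hB.symm e x, hxe, hbx, hxx, hB.symm x b]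
            field_simp [two_ne hB]; ring
          · simp [hxe, hB.symm x b, hbx, hxx]
          · simp [h1, hyb, hB.symm y x, hxy, hbb, two_ne hB]
        · have hpm : B y b + -(B b b) / 2 * B y x ≠ 0 ∨ -B y b + -(B b b) / 2 * B y x ≠ 0 := by
            by_contra! hc
            have : (2 : L) * B y b = 0 := by linear_combination hc.1 - hc.2
            exact hyb ((mul_eq_zero.1 this).resolve_left (two_ne hB))
          rcases hpm with hp | hp
          · refine ⟨e + b + (-(B b b) / 2) • x, ?_, ?_, ?_⟩
            · rw [B_add_self hB]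
              simp [hee, hB.symm e b, hbe, hB.symm e x, hxe, hbx, hxx, hB.symm x b]
              field_simp [two_ne hB]; ring
            · simp [hxe, hB.symm x b, hbx, hxx]
            · simpa [h1] using hp
          · refine ⟨e - b + (-(B b b) / 2) • x, ?_, ?_, ?_⟩
            · rw [B_add_self hB]
              simp [hee, hB.symm e b, hbe, hB.symm e x, hxe, hbx, hxx, hB.symm x b]
              field_simp [two_ne hB]; ring
            · simp [hxe, hB.symm x b, hbx, hxx]
            · simpa [h1] using hp
    · exact ⟨e', hee', h2, by rw [hye]; exact one_ne_zero⟩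
  · exact ⟨e, hee, by rw [hxe]; exact one_ne_zero, h1⟩

variable [Finite V]

/-- Maps sending singular lines onto singular lines are semilinear. -/
lemma mem_semiLin_of_cone {g : V ≃ₗ[F] V}
    (hg : ∀ x, B x x = 0 → x ≠ 0 → (lineF L x).map (g : V →ₗ[F] V) = lineF L (g x)) :
    g ∈ semiLin F L V := by
  have h2 := two_ne hB
  intro l
  have hc : ∀ x, B x x = 0 → ∀ m : L, ∃ c : L, g (m • x) = c • g x := fun x hxx m => by
    rcases eq_or_ne x 0 with rfl | hx
    · exact ⟨0, by simp⟩
    have : g (m • x) ∈ lineF L (g x) (F := F) := hg x hxx hx ▸ ⟨_, mem_lineF.2 ⟨m, rfl⟩, rfl⟩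
    obtain ⟨c, hc⟩ := mem_lineF.1 this
    exact ⟨c, hc.symm⟩
  have hpull : ∀ x, B x x = 0 → ∀ d : L, ∃ m : L, g (m • x) = d • g x := fun x hxx d => by
    rcases eq_or_ne x 0 with rfl | hx
    · exact ⟨0, by simp⟩
    have : d • g x ∈ (lineF L x).map (g : V →ₗ[F] V) := by rw [hg x hxx hx]; exact mem_lineF.2 ⟨d, rfl⟩
    obtain ⟨z, hz, hzd⟩ := this
    obtain ⟨m, rfl⟩ := mem_lineF.1 hz
    exact ⟨m, hzd⟩
  have key : ∀ x y, B x x = 0 → B y y = 0 → B x y ≠ 0 → ∀ c d : L, g (l • x) = c • g x →
      g (l • y) = d • g y → c = d := by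
    intro x y hxx hyy hxy c d hgc hgd
    have hx : x ≠ 0 := fun h => hxy (by simp [h])
    set e := (B x y)⁻¹ • y
    have hxe : B x e = 1 := by simp [e, inv_mul_cancel₀ hxy]
    have hee : B e e = 0 := by simp [e, hyy]
    obtain ⟨w, hw, hww⟩ := exists_aniso hB (good_perp₂ hB hxx hee hxe).1 (perp₂_ne_bot hB hxx hee hxe)
    obtain ⟨hwx, hwe⟩ := mem_perp₂.1 hw
    have hwy : B w y = 0 := by simpa [e, hxy] using hwe
    let D : AddSubgroup L :=
      { carrier := {a | g ((l * a) • x) = d • g (a • x)}
        zero_mem' := by simp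
        add_mem' := fun {a b} (ha : g _ = _) (hb : g _ = _) => by
          show g _ = _
          rw [mul_add, add_smul, map_add, ha, hb, ← smul_add, ← map_add, ← add_smul]
        neg_mem' := fun {a} (ha : g _ = _) => by
          show g _ = _
          rw [mul_neg, neg_smul, map_neg, ha, ← smul_neg, ← map_neg, ← neg_smul] }
    set a₀ := -(B w w) / (2 * B x y)
    have hsq : ∀ t : L, a₀ * (t * t) ∈ D := by
      intro t
      rcases eq_or_ne t 0 with rfl | ht
      · simp
      set a := a₀ * (t * t)
      have hval : ∀ s : L, s * s = t * t → B (y + s • w + a • x) (y + s • w + a • x) = 0 := fun s hs => by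
        simp only [map_add, map_smul, LinearMap.add_apply, LinearMap.smul_apply, smul_eq_mul, hyy, hxx,
          hB.symm y w, hwy, hB.symm y x, hwx, hB.symm x w]
        have ea : a * (2 * B x y) = -(B w w) * (t * t) := by
          simp only [a, a₀]; field_simp
        linear_combination ea + B w w * hs
      have hp := hval t rfl
      have hm := hval (-t) (by ring)
      obtain ⟨c₁, hc₁⟩ := hc _ hp l
      obtain ⟨c₂, hc₂⟩ := hc _ hm l
      obtain ⟨c₃, hc₃⟩ := hc (a • x) (by simp [hxx]) l
      have hsum : g (l • (y + t • w + a • x)) + g (l • (y + (-t) • w + a • x)) =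
          (2 : L) • g (l • y) + (2 : L) • g (l • a • x) := by
        rw [two_smul, two_smul, ← map_add, ← map_add, ← map_add, ← map_add]
        congr 1; module
      have hsum' : g (y + t • w + a • x) + g (y + (-t) • w + a • x) =
          (2 : L) • g y + (2 : L) • g (a • x) := by
        rw [two_smul, two_smul, ← map_add, ← map_add, ← map_add, ← map_add]
        congr 1; module
      rw [hc₁, hc₂, hc₃, hgd] at hsum
      obtain ⟨m₁, hm₁⟩ := hpull _ hp (c₁ - d)
      obtain ⟨m₂, hm₂⟩ := hpull _ hm (c₂ - d)
      obtain ⟨m₃, hm₃⟩ := hpull (a • x) (by simp [hxx]) ((2 : L) * (c₃ - d))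
      have hrel : m₁ • (y + t • w + a • x) + m₂ • (y + (-t) • w + a • x) = m₃ • a • x := by
        apply g.injective
        rw [map_add, hm₁, hm₂, hm₃]
        linear_combination (norm := module) hsum - d • hsum'
      have h3 := congrArg (fun z => B z x) hrel
      have h4 := congrArg (fun z => B z w) hrel
      simp only [map_add, map_smul, LinearMap.add_apply, LinearMap.smul_apply, smul_eq_mul, hxx,
        hB.symm y x, hwx, hB.symm y w, hwy, hB.symm x w] at h3 h4
      have e1 : m₁ + m₂ = 0 := by
        refine (mul_eq_zero.1 (show (m₁ + m₂) * B x y = 0 by linear_combination h3)).resolve_right hxy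
      have e2 : m₁ - m₂ = 0 := by
        refine (mul_eq_zero.1 (show (m₁ - m₂) * (t * B w w) = 0 by linear_combination h4)).resolve_right
          (mul_ne_zero ht hww)
      have e3 : m₁ = 0 := (mul_eq_zero.1 (show (2 : L) * m₁ = 0 by linear_combination e1 + e2)).resolve_left h2
      have e4 : m₂ = 0 := by linear_combination e1 - e3
      rw [e3, e4, zero_smul, zero_smul, add_zero, eq_comm, ← map_eq_zero_iff g g.injective, hm₃] at hrel
      have ha0 : g (a • x) ≠ 0 := by
        rw [Ne, map_eq_zero_iff g g.injective, smul_eq_zero]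
        exact not_or.2 ⟨mul_ne_zero (div_ne_zero (neg_ne_zero.2 hww) (mul_ne_zero h2 hxy))
          (mul_self_ne_zero.2 ht), hx⟩
      rw [smul_eq_zero, or_iff_left ha0, mul_eq_zero, or_iff_right h2, sub_eq_zero] at hrel
      show g ((l * a) • x) = d • g (a • x)
      rw [mul_smul, hc₃, hrel]
    have h1 : (1 : L) ∈ D := by
      have ha₀ : a₀ ≠ 0 := div_ne_zero (neg_ne_zero.2 hww) (mul_ne_zero h2 hxy)
      have := D.sub_mem (hsq ((a₀⁻¹ + 1) / 2)) (hsq ((a₀⁻¹ - 1) / 2))
      convert this using 1
      field_simp; ring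
    have h1' : g ((l * 1) • x) = d • g ((1 : L) • x) := h1
    rw [mul_one, one_smul, hgc] at h1'
    exact smul_left_injective L (show g x ≠ 0 by simpa using hx) h1'
  obtain ⟨x, -, hx, hxx⟩ := exists_singular hB (good_top hB) (by rw [finrank_top]; exact hB.dim)
  obtain ⟨c, hgc⟩ := hc x hxx l
  refine ⟨c, fun u => ?_⟩
  have hsing : ∀ y, B y y = 0 → g (l • y) = c • g y := fun y hyy => by
    rcases eq_or_ne y 0 with rfl | hy
    · simp
    obtain ⟨z, hzz, hxz, hyz⟩ := exists_common hB hx hxx hy hyy
    obtain ⟨d, hd⟩ := hc z hzz l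
    obtain ⟨d', hd'⟩ := hc y hyy l
    rw [hd', key y z hyy hzz hyz d' d hd' hd, ← key x z hxx hzz hxz c d hgc hd]
  obtain ⟨e, -, hee, hxe⟩ := exists_partner hB (good_top hB) Submodule.mem_top hx hxx
  set w := u - B u e • x - B u x • e with hwdef
  set e' := e + w + (-(B w w) / 2) • x with he'def
  have hwx : B w x = 0 := by simp [hwdef, hxx, hB.symm e x, hxe]
  have hwe : B w e = 0 := by simp [hwdef, hee, hxe]
  have he' : B e' e' = 0 := by
    rw [he'def, B_add_self hB]
    simp [hee, hB.symm e w, hwe, hB.symm e x, hxe, hwx, hxx, hB.symm x w]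
    field_simp; ring
  have hu : u = B u e • x + (B u x - 1) • e + e' + (B w w / 2) • x := by
    rw [he'def, hwdef]; module
  rw [hu]
  simp only [smul_add, map_add]
  rw [hsing _ (by simp [hxx]), hsing _ (by simp [hee]), hsing _ he', hsing _ (by simp [hxx])]

/-- Outside the semilinear group some translate of a singular line is no line but has a singular vector. -/
lemma exists_pair_of_not_le (hM : ¬ M ≤ semiLin F L V) :
    ∃ h v x₀, IsPair L (fun x => B x x = 0) M h v x₀ := by
  by_contra! hno
  obtain ⟨g, hgM, hg⟩ := SetLike.not_le_iff_exists.1 hM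
  refine hg (mem_semiLin_of_cone hB fun x hxx hx => ?_)
  by_contra hne
  set S := (lineF L x).map (g : V →ₗ[F] V)
  have hgx : g x ≠ 0 := by simpa using hx
  have hno' : ∀ y ∈ S, B y y = 0 → y = 0 := by
    intro y hy hyy
    by_contra hy0
    refine hno g y x ⟨hgM, hyy, hxx, hy0, hx, hy, fun he => ?_⟩
    exact hne (by rw [show S = lineF L y from he, lineF_eq_of_mem (show g x ∈ lineF L y (F := F) from he ▸ (⟨x, self_mem_lineF x, rfl⟩ : g x ∈ S)) hgx])
  have hpS : g x ∈ S := ⟨x, self_mem_lineF x, rfl⟩
  have hpp : B (g x) (g x) ≠ 0 := fun h => hgx (hno' _ hpS h)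
  -- elements fixing `g x` stabilise the member
  have hstab : ∀ t ∈ M, t (g x) = g x → ∀ y ∈ S, t y ∈ S := by
    intro t ht htx y hy
    have hxfix : (g⁻¹ * t * g) x = x := by
      show g.symm (t (g x)) = x
      rw [htx, g.symm_apply_apply]
    have hline : (lineF L x).map ((g⁻¹ * t * g : V ≃ₗ[F] V) : V →ₗ[F] V) = lineF L x := by
      by_contra hne'
      exact hno _ x x ⟨M.mul_mem (M.mul_mem (M.inv_mem hgM) ht) hgM, hxx, hxx, hx, hx,
        ⟨x, self_mem_lineF x, hxfix⟩, hne'⟩
    obtain ⟨z, hz, rfl⟩ := hy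
    have : (g⁻¹ * t * g) z ∈ lineF L x (F := F) := hline ▸ ⟨z, hz, rfl⟩
    exact ⟨_, this, g.apply_symm_apply _⟩
  obtain ⟨hW, hd⟩ := good_inf hB (good_top hB) Submodule.mem_top hpp
  rw [finrank_top] at hd
  set W := (⊤ : Submodule L V) ⊓ LinearMap.ker (B.flip (g x))
  have hdim := hB.dim
  have horth : ∀ a ∈ W, B a a ≠ 0 → ∀ y ∈ S, B y a = 0 := by
    intro a ha haa
    obtain ⟨w, hw, hwa, hww, r₁, r₂, k, h1, h2, hk, hfix, hsum⟩ := exists_rot hB hW (by omega)
      (fun h => Or.inl (by rcases hB.dim_two h with h5 | ⟨h4, -⟩ <;> omega)) ha haa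
    have hp : B (g x) a = 0 ∧ B (g x) w = 0 := by
      rw [hB.symm (g x) a, hB.symm (g x) w]; exact ⟨ha.2, hw.2⟩
    refine fun y hy => (orth_of_rot hB haa hww hwa hk hsum
      (fun u hu => ⟨hstab r₁ h1 (hfix _ hp.1 hp.2).1 u hu, hstab r₂ h2 (hfix _ hp.1 hp.2).2 u hu⟩)
      (fun z hz hz0 => ?_) y hy).1
    by_contra! hall
    have hle : lineF L z (F := F) ≤ S := fun u hu => by
      obtain ⟨l, rfl⟩ := mem_lineF.1 hu; exact hall l
    have heq := Submodule.eq_of_le_of_finrank_eq hle (by
      rw [finrank_lineF hz0, LinearEquiv.finrank_map_eq, finrank_lineF hx])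
    obtain ⟨l, hl⟩ := mem_lineF.1 (heq.symm ▸ hpS : g x ∈ lineF L z (F := F))
    have hzW : z ∈ W := (Submodule.span_le.2 (by
      rintro _ (rfl | rfl)
      · exact ha
      · exact hw)) hz
    have := (W.smul_mem l hzW).2
    rw [hl] at this
    exact hpp this
  -- so the member is the line of `g x`
  have hle : S ≤ lineF L (g x) := by
    intro y hy
    set y' := y - (B y (g x) / B (g x) (g x)) • g x
    have hy' : y' ∈ W := ⟨Submodule.mem_top, by
      show B y' (g x) = 0
      simp [y', div_mul_cancel₀ _ hpp]⟩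
    have h0 : y' = 0 := by
      by_contra h0
      obtain ⟨z, hz, hyz⟩ := hW y' hy' h0
      refine hyz ?_
      have h1 : B y z = 0 := orth_of_aniso hB hW (fun a ha haa => horth a ha haa y hy) hz
      simp [y', h1, hB.symm (g x) z, show B z (g x) = 0 from hz.2]
    exact mem_lineF.2 ⟨_, (sub_eq_zero.1 h0).symm⟩
  have heq := Submodule.eq_of_le_of_finrank_eq hle (by
    rw [LinearEquiv.finrank_map_eq, finrank_lineF hx, finrank_lineF hgx])
  refine hpp (eq_zero_of_trace (F := F) fun l => ?_)
  have hl : l • g x ∈ S := heq.symm ▸ mem_lineF.2 ⟨l, rfl⟩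
  obtain ⟨z, hz, hzl⟩ := hl
  obtain ⟨m, rfl⟩ := mem_lineF.1 hz
  rw [← smul_eq_mul, ← LinearMap.smul_apply, ← map_smul, ← hzl]
  rw [show B ((g : V →ₗ[F] V) (m • x)) (g x) = B (g (m • x)) (g x) from rfl, hB.pres g hgM]
  simp [hxx]

end CfsgLib.C3Max.Orth
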