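import Cfsg.Agent.C3Max.OrthWedge
import Cfsg.Agent.OrthGeo.QuadOdd
import Cfsg.Agent.Classical.Orth.Omega

/-!
The normaliser of a self-adjoint extension field of prime degree is maximal in the commutator subgroup of an
orthogonal group in odd characteristic.
-/

set_option autoImplicit false
set_option linter.unusedSimpArgs false
set_option linter.style.haveILetI false

namespace CfsgLib.C3Max

open Module CfsgLib.FieldExtMax CfsgLib.OrthGeo CfsgLib.Classical.Orth Cfsg.Geo
open scoped Matrix MatrixGroups commutatorElement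

set_option maxHeartbeats 1600000 in
/-- The statement in the small dimensions too: degree two needs dimension at least ten, or eight and minus type. -/
theorem orth_normalizer_maximal_of_three {ι : Type} [Fintype ι] [DecidableEq ι] {F : Type*} [Field F] [Fintype F]
    {Q : (ι → F) → F} (hQ : IsNondegenerateQuadraticForm Q) (h2 : (2 : F) ≠ 0) {r : ℕ} (hr : r.Prime)
    (hn : 8 ≤ Fintype.card ι) (hnr : 3 * r ≤ Fintype.card ι ∨ (Odd (Fintype.card ι) ∧ r ≠ Fintype.card ι))
    (hthree : Fintype.card ι = 3 * r → 3 ≤ r)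
    (htwo : r = 2 → 10 ≤ Fintype.card ι ∨ (Fintype.card ι = 8 ∧ ¬ IsPlusTypeOn Q ⊤))
    {K : Subalgebra F (Matrix ι ι F)}
    (hK : Cfsg.Geo.IsFieldSubalgebra r K) (hsa : Cfsg.Geo.IsSelfAdjointFor (QuadraticMap.polar Q) K) :
    Cfsg.Geo.IsMaximalIn (omegaGL Q) (Cfsg.Geo.subalgebraNormalizer K ⊓ omegaGL Q) := by
  classical
  haveI : Nonempty ι := Fintype.card_pos_iff.1 (by omega)
  letI : Field K := fieldOf hK
  letI : Module K (ι → F) := moduleOf K
  haveI : IsScalarTower F K (ι → F) := ⟨fun c k y => Matrix.smul_mulVec c (k : Matrix ι ι F) y⟩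
  haveI : Finite K := inferInstance
  haveI : FiniteDimensional F K := Module.Finite.of_finite
  haveI : IsGalois F K := GaloisField.instIsGaloisOfFinite
  haveI : FiniteDimensional K (ι → F) := Module.Finite.of_finite
  obtain ⟨B, hBf⟩ := exists_bilinear (L := K) (bform hQ) fun l x y => hsa l l.2 x y
  have hexc : ¬ (Nat.card F = 2 ∧ Fintype.card ι = 4) := fun h => by omega
  have hsym : ∀ x y, B x y = B y x := fun x y => eq_of_trace (F := F) fun l => by
    rw [← smul_eq_mul, ← smul_eq_mul, ← LinearMap.map_smul (B x), ← LinearMap.map_smul (B y), hBf, hBf,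
      b_symm hQ y]
    exact (hsa l l.2 x y).symm
  have hnd : ∀ v, v ≠ 0 → ∃ w, B v w ≠ 0 := fun v hv => by
    obtain ⟨⟨w, hw⟩, -⟩ := hQ.nondegenerate v hv
    refine ⟨w, fun h => hw ?_⟩
    rw [← bform_apply hQ w v, b_symm hQ, ← hBf, h, map_zero]
  -- dimensions
  have hfr : finrank F K = r := hK.finrank_eq
  have hmul := Module.finrank_mul_finrank F K (ι → F)
  rw [hfr, finrank_fintype_fun_eq_card] at hmul
  set s := finrank K (ι → F) with hs
  have hs3 : 3 ≤ s := by
    by_contra! hlt
    have := hr.two_le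
    rcases hnr with h | ⟨h, hne⟩
    · have : r * s ≤ r * 2 := Nat.mul_le_mul_left r (by omega)
      omega
    · rw [← hmul, Nat.odd_mul] at h
      have h1 : s = 1 := by
        obtain ⟨k, hk⟩ := h.2
        omega
      rw [h1] at hmul
      omega
  have hs5 : s = 3 → 3 ≤ r := fun h => hthree (by rw [h] at hmul; omega)
  have hs7 : r = 2 → 5 ≤ s ∨ (4 ≤ s ∧ ∀ v e z : ι → F, v ≠ 0 → B v v = 0 → B e e = 0 → B v e = 1 →
      B z v = 0 → B z e = 0 → B z z = 0 → z = 0) := fun h => by
    rcases htwo h with h10 | ⟨h8, hminus⟩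
    · exact Or.inl (by rw [h] at hmul; omega)
    refine Or.inr ⟨by rw [h] at hmul; omega, fun v e z hv hvv _ hve hzv hze hzz => ?_⟩
    by_contra hz
    have hli : LinearIndependent K ![v, z] := LinearIndependent.pair_iff.2 fun a b hab => by
      have h1 := congrArg (fun y => B y e) hab
      simp [hve, hze] at h1
      rw [h1, zero_smul, zero_add] at hab
      exact ⟨h1, (smul_eq_zero.1 hab).resolve_right hz⟩
    refine hminus ⟨(Submodule.span K (Set.range ![v, z])).restrictScalars F, le_top, fun y hy => ?_, ?_⟩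
    · obtain ⟨c, hc⟩ := (Submodule.mem_span_range_iff_exists_fun K).1 hy
      have hyy : B y y = 0 := by
        rw [← hc]
        simp [Fin.sum_univ_two, hvv, hzz, hzv, hsym v z]
      have h3 : bform hQ y y = 0 := by rw [← hBf, hyy, map_zero]
      rw [b_self hQ] at h3
      exact (mul_eq_zero.1 h3).resolve_left h2
    · have h4 : finrank F ↥((Submodule.span K (Set.range ![v, z])).restrictScalars F) =
          finrank F K * finrank K ↥(Submodule.span K (Set.range ![v, z])) :=
        (Module.finrank_mul_finrank F K (Submodule.span K (Set.range ![v, z]))).symm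
      rw [h4, finrank_span_eq_card hli, hfr, h, Fintype.card_fin, finrank_top, finrank_fintype_fun_eq_card, h8]
  -- reflections over the field
  have hQB : ∀ a : ι → F, B a a ≠ 0 → ∃ R : GL ι F, R ∈ Cfsg.isometryGroup F Q ∧
      (∀ y, (R : Matrix ι ι F) *ᵥ y = Orth.refl B a y) ∧ R * R = 1 ∧
      finrank F (residual R) = r ∧ glEquiv R ∈ semiLin F K (ι → F) := by
    intro a ha
    have two : (2 : K) ≠ 0 := by
      rw [← map_ofNat (algebraMap F K) 2]
      simpa using h2
    have hinv : ∀ y, Orth.refl B a (Orth.refl B a y) = y := fun y => by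
      have e : B (Orth.refl B a y) a = -B y a := by
        simp only [Orth.refl, map_sub, map_smul, LinearMap.sub_apply, LinearMap.smul_apply, smul_eq_mul]
        field_simp; ring
      rw [Orth.refl, e, Orth.refl, mul_neg, neg_div, neg_smul, sub_neg_eq_add, sub_add_cancel]
    let R₀ : (ι → F) →ₗ[K] (ι → F) := LinearMap.id + ((-(2 / B a a)) • B.flip a).smulRight a
    have hR₀ : ∀ y, R₀ y = Orth.refl B a y := fun y => by
      simp [R₀, Orth.refl, sub_eq_add_neg, ← neg_smul, mul_comm, mul_div_assoc]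
      congr 1; ring
    let R₁ : (ι → F) ≃ₗ[K] (ι → F) := LinearEquiv.ofLinear R₀ R₀
      (LinearMap.ext fun y => by simp [hR₀, hinv]) (LinearMap.ext fun y => by simp [hR₀, hinv])
    obtain ⟨R, hR⟩ := (glEquiv (ι := ι) (F := F)).surjective (R₁.restrictScalars F)
    have hRy : ∀ y, (R : Matrix ι ι F) *ᵥ y = Orth.refl B a y := fun y => by
      rw [← glEquiv_apply, hR]; exact (show R₁ y = R₀ y from rfl).trans (hR₀ y)
    have hiso : R ∈ Cfsg.isometryGroup F Q := by
      refine OrthGeo.mem_isometryGroup.2 fun x => ?_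
      have hB2 : B (Orth.refl B a x) (Orth.refl B a x) = B x x := by
        simp only [Orth.refl, map_sub, map_smul, LinearMap.sub_apply, LinearMap.smul_apply, smul_eq_mul,
          hsym a x]
        field_simp
        ring
      have h3 : bform hQ ((R : Matrix ι ι F) *ᵥ x) ((R : Matrix ι ι F) *ᵥ x) = bform hQ x x := by
        rw [← hBf, ← hBf, hRy, hB2]
      rw [b_self hQ, b_self hQ] at h3
      exact mul_left_cancel₀ h2 h3
    refine ⟨R, hiso, hRy, (glEquiv (ι := ι) (F := F)).injective (LinearEquiv.ext fun y => ?_), ?_, ?_⟩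
    · rw [map_mul, map_one, LinearEquiv.mul_apply, glEquiv_apply, glEquiv_apply, hRy, hRy, hinv]
      rfl
    · have ha0 : a ≠ 0 := fun h => ha (by simp [h])
      have hres : residual R = lineF K a (F := F) := by
        refine le_antisymm ?_ fun y hy => ?_
        · rintro _ ⟨y, rfl⟩
          refine mem_lineF.2 ⟨2 * B y a / B a a, ?_⟩
          rw [Matrix.mulVecLin_apply, Matrix.sub_mulVec, Matrix.one_mulVec, hRy, Orth.refl, sub_sub_cancel]
        · obtain ⟨l, rfl⟩ := mem_lineF.1 hy
          refine ⟨(l / 2) • a, ?_⟩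
          rw [Matrix.mulVecLin_apply, Matrix.sub_mulVec, Matrix.one_mulVec, hRy, Orth.refl, sub_sub_cancel,
            map_smul, LinearMap.smul_apply, smul_eq_mul]
          congr 1
          field_simp
      rw [hres, finrank_lineF ha0, hfr]
    · intro l
      exact ⟨l, fun y => by rw [hR]; exact map_smul R₁ l y⟩
  have hsemi : ∀ g : GL ι F, glEquiv g ∈ semiLin F K (ι → F) ↔ g ∈ Cfsg.Geo.subalgebraNormalizer K := by
    intro g
    rw [mem_normalizer_iff hK]
    constructor
    · intro h k hk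
      obtain ⟨l, hl⟩ := h ⟨k, hk⟩
      exact ⟨l, l.2, fun y => hl y⟩
    · intro h l
      obtain ⟨k', hk', he⟩ := h l l.2
      exact ⟨⟨k', hk'⟩, fun y => he y⟩
  -- membership of products of reflections
  have hmemO : ∀ {g : GL ι F} (hg : g ∈ Cfsg.isometryGroup F Q), Even (finrank F (residual g)) →
      IsSquare (spinor hQ g) → g ∈ omegaGL Q := fun {g} hg h1 h3 =>
    ⟨⟨g, hg⟩, mem_omega_of_invariants hQ hexc h1 h3, rfl⟩
  have hover : ∀ M : Subgroup (GL ι F), Cfsg.Geo.subalgebraNormalizer K ⊓ omegaGL Q ≤ M → M ≤ omegaGL Q →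
      Orth.Over B (M.map (glEquiv (ι := ι) (F := F)).toMonoidHom) := by
    intro M hle hMO
    have hput : ∀ {g : GL ι F}, g ∈ omegaGL Q → glEquiv g ∈ semiLin F K (ι → F) →
        glEquiv g ∈ M.map (glEquiv (ι := ι) (F := F)).toMonoidHom :=
      fun {g} hg hs => ⟨g, hle ⟨(hsemi g).1 hs, hg⟩, rfl⟩
    refine ⟨hsym, hnd, h2, hfr.symm ▸ hr, hs3, fun h => hfr.symm ▸ hs5 h, fun h => hs7 (hfr ▸ h), ?_, ?_, ?_, ?_⟩
    · rintro _ ⟨g, hg, rfl⟩ x y
      rw [hBf, hBf]
      exact isometry_b hQ (omegaGL_le (hMO hg)) x y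
    · rintro _ ⟨g, hg, rfl⟩
      obtain ⟨g', hg', hgg⟩ := hMO hg
      have hdet : (g : Matrix ι ι F).det = 1 := by
        rw [det_eq_neg_one_pow hQ hexc (omegaGL_le (hMO hg)), Even.neg_one_pow]
        rw [← hgg]
        exact (invariants_of_mem_omega hQ hexc hg').1
      change LinearMap.det ((glEquiv g : (ι → F) ≃ₗ[F] (ι → F)) : (ι → F) →ₗ[F] (ι → F)) = 1
      rw [show ((glEquiv g : (ι → F) ≃ₗ[F] (ι → F)) : (ι → F) →ₗ[F] (ι → F)) = Matrix.toLin' (g : Matrix ι ι F)
        from LinearMap.ext fun y => by simp [glEquiv_apply], LinearMap.det_toLin', hdet]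
    · intro a b ha hb
      obtain ⟨R, hR, hRy, hRR, -, hRs⟩ := hQB a ha
      obtain ⟨T, hT, hTy, hTT, -, hTs⟩ := hQB b hb
      refine ⟨glEquiv ⁅R, T⁆, hput (commutator_mem_omegaGL hR hT) ?_, fun y => ?_⟩
      · rw [map_commutatorElement, commutatorElement_def]
        exact mul_mem (mul_mem (mul_mem hRs hTs) (inv_mem hRs)) (inv_mem hTs)
      · rw [commutatorElement_def, inv_eq_of_mul_eq_one_right hRR, inv_eq_of_mul_eq_one_right hTT,
          glEquiv_apply]
        simp only [Units.val_mul, ← Matrix.mulVec_mulVec, hRy, hTy]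
    · intro a a' b b' ha ha' hb hb'
      obtain ⟨R, hR, hRy, -, hRd, hRs⟩ := hQB a ha
      obtain ⟨R', hR', hR'y, -, hR'd, hR's⟩ := hQB a' ha'
      obtain ⟨T, hT, hTy, -, hTd, hTs⟩ := hQB b hb
      obtain ⟨T', hT', hT'y, -, hT'd, hT's⟩ := hQB b' hb'
      have he1 : Even (finrank F (residual (R * R'))) := (invariants_mul hQ hexc hR hR').1.2 (by rw [hRd, hR'd])
      have he2 : Even (finrank F (residual (T * T'))) := (invariants_mul hQ hexc hT hT').1.2 (by rw [hTd, hT'd])
      have hsl : glEquiv (R * R') ∈ semiLin F K (ι → F) := by rw [map_mul]; exact mul_mem hRs hR's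
      have htl : glEquiv (T * T') ∈ semiLin F K (ι → F) := by rw [map_mul]; exact mul_mem hTs hT's
      have hy1 : ∀ y, glEquiv (R * R') y = Orth.refl B a (Orth.refl B a' y) := fun y => by
        rw [map_mul, LinearEquiv.mul_apply, glEquiv_apply, glEquiv_apply, hRy, hR'y]
      have hy2 : ∀ y, glEquiv (T * T') y = Orth.refl B b (Orth.refl B b' y) := fun y => by
        rw [map_mul, LinearEquiv.mul_apply, glEquiv_apply, glEquiv_apply, hTy, hT'y]
      by_cases h1 : IsSquare (spinor hQ (R * R'))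
      · exact Or.inl ⟨_, hput (hmemO (mul_mem hR hR') he1 h1) hsl, hy1⟩
      by_cases h3 : IsSquare (spinor hQ (T * T'))
      · exact Or.inr (Or.inl ⟨_, hput (hmemO (mul_mem hT hT') he2 h3) htl, hy2⟩)
      refine Or.inr (Or.inr ⟨_, hput (hmemO (mul_mem (mul_mem hR hR') (mul_mem hT hT'))
        ((invariants_mul hQ hexc (mul_mem hR hR') (mul_mem hT hT')).1.2 (iff_of_true he1 he2))
        ((CfsgLib.Classical.Orth.isSquare_spinor_mul hQ hexc (mul_mem hR hR') (mul_mem hT hT')).2
          (CfsgLib.Classical.Orth.isSquare_mul_of_not h1 h3)))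
        (by rw [map_mul]; exact mul_mem hsl htl), fun y => ?_⟩)
      rw [map_mul, LinearEquiv.mul_apply, hy1, hy2]
  refine ⟨lt_of_le_of_ne inf_le_right fun he => ?_, fun M hle hMO => ?_⟩
  · -- a root element of a singular line is not semilinear
    have hB := hover _ le_rfl inf_le_right
    obtain ⟨z, -, hz, hzz⟩ := Orth.exists_singular hB (Orth.good_top hB) (by rw [finrank_top]; exact hs3)
    obtain ⟨z', -, hz'z', hzz'⟩ := Orth.exists_partner hB (Orth.good_top hB) Submodule.mem_top hz hzz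
    obtain ⟨k, hk, hk0⟩ : ∃ k : K, Algebra.trace F K k = 0 ∧ k ≠ 0 := by
      by_contra! hc
      have h1 := LinearMap.finrank_range_add_finrank_ker (Algebra.trace F K)
      rw [show LinearMap.ker (Algebra.trace F K) = ⊥ from (Submodule.eq_bot_iff _).2 fun y hy => hc y hy,
        finrank_bot, add_zero, hfr] at h1
      have h3 := Submodule.finrank_le (LinearMap.range (Algebra.trace F K))
      rw [finrank_self] at h3
      have := hr.two_le
      omega
    obtain ⟨t, ht⟩ := Algebra.trace_surjective F K 1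
    have hzQ : Q z = 0 := by
      have h3 : bform hQ z z = 0 := by rw [← hBf, hzz, map_zero]
      rw [b_self hQ] at h3
      exact (mul_eq_zero.1 h3).resolve_left h2
    set κ := k⁻¹ * t
    have hκQ : Q (κ • z) = 0 := by
      have h3 : bform hQ (κ • z) (κ • z) = 0 := by rw [← hBf]; simp [hzz]
      rw [b_self hQ] at h3
      exact (mul_eq_zero.1 h3).resolve_left h2
    have hzκ : bform hQ z (κ • z) = 0 := by rw [← hBf]; simp [hzz]
    have hE := eichler_mem_omega hQ (by omega) hzQ hzκ
    set g := eichler hQ hzQ hzκ with hg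
    let ω : K → K := fun β => Algebra.trace F K (κ * β) • (1 : K) - Algebra.trace F K β • κ
    have hgy : ∀ y, glEquiv g y = y + ω (B z y) • z := fun y => by
      rw [glEquiv_apply, hg, eichler_mulVec hQ, hκQ, zero_mul, zero_smul, sub_zero, ← hBf, ← hBf, map_smul,
        LinearMap.smul_apply, smul_eq_mul, sub_smul, smul_assoc, smul_assoc, one_smul, add_sub_assoc]
    have hsl : glEquiv g ∈ semiLin F K (ι → F) := by
      rw [hsemi]; exact (he.symm ▸ hE : g ∈ Cfsg.Geo.subalgebraNormalizer K ⊓ omegaGL Q).1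
    have hω0 : ω 0 = 0 := by simp [ω]
    have hlin : ∀ l β : K, ω (l * β) = l * ω β := by
      intro l β
      obtain ⟨c, hc⟩ := hsl l
      have h3 := hc z
      rw [hgy, hgy, map_smul, smul_eq_mul, hzz, mul_zero, hω0, zero_smul, add_zero, add_zero] at h3
      have hcl : l = c := smul_left_injective _ hz h3
      have h4 := hc (β • z')
      rw [← hcl, hgy, hgy, map_smul, map_smul, hzz', smul_eq_mul, smul_eq_mul, mul_one, smul_add,
        add_right_inj, smul_smul] at h4
      exact smul_left_injective _ hz h4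
    have hdiag : ∀ β : K, Algebra.trace F K (ω 1 * (β * β)) = 0 := fun β => by
      rw [show ω 1 * (β * β) = β * (β * ω 1) by ring, ← hlin β 1, mul_one]
      simp only [ω, mul_sub, mul_smul_comm, map_sub, map_smul, smul_eq_mul, mul_one, mul_comm β κ]
      ring
    have hω1 : ω 1 = 0 := eq_zero_of_trace (F := F) fun l => by
      have h4 : (2 : K) ≠ 0 := by rw [← map_ofNat (algebraMap F K) 2]; simpa using h2
      rw [show l * ω 1 = ω 1 * (((l + 1) / 2) * ((l + 1) / 2)) - ω 1 * (((l - 1) / 2) * ((l - 1) / 2)) by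
        field_simp; ring, map_sub, hdiag, hdiag, sub_zero]
    have h5 : ω k = 0 := by rw [← mul_one k, hlin, hω1, mul_zero]
    have h6 : κ * k = t := by simp only [κ]; field_simp
    simp [ω, h6, ht, hk] at h5
  · have hB := hover M hle hMO
    rcases Orth.semiLin_or_omega hQ hB hBf (hMO.trans omegaGL_le) with h | h
    · exact Or.inl (le_antisymm (le_inf (fun g hg => (hsemi g).1 (h ⟨g, hg, rfl⟩)) hMO) hle)
    · exact Or.inr (le_antisymm hMO h)

/-- The same with a bound five on the degree in dimension three over the field. -/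
theorem orth_normalizer_maximal_of {ι : Type} [Fintype ι] [DecidableEq ι] {F : Type*} [Field F] [Fintype F]
    {Q : (ι → F) → F} (hQ : IsNondegenerateQuadraticForm Q) (h2 : (2 : F) ≠ 0) {r : ℕ} (hr : r.Prime)
    (hn : 8 ≤ Fintype.card ι) (hnr : 3 * r ≤ Fintype.card ι ∨ (Odd (Fintype.card ι) ∧ r ≠ Fintype.card ι))
    (hthree : Fintype.card ι = 3 * r → 5 ≤ r)
    (htwo : r = 2 → 10 ≤ Fintype.card ι ∨ (Fintype.card ι = 8 ∧ ¬ IsPlusTypeOn Q ⊤))
    {K : Subalgebra F (Matrix ι ι F)}
    (hK : Cfsg.Geo.IsFieldSubalgebra r K) (hsa : Cfsg.Geo.IsSelfAdjointFor (QuadraticMap.polar Q) K) :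
    Cfsg.Geo.IsMaximalIn (omegaGL Q) (Cfsg.Geo.subalgebraNormalizer K ⊓ omegaGL Q) :=
  orth_normalizer_maximal_of_three hQ h2 hr hn hnr (fun h => le_trans (by norm_num) (hthree h)) htwo hK hsa

theorem orth_normalizer_maximal {ι : Type} [Fintype ι] [DecidableEq ι] {F : Type*} [Field F] [Fintype F]
    {Q : (ι → F) → F} (hQ : IsNondegenerateQuadraticForm Q) (h2 : (2 : F) ≠ 0) {r : ℕ} (hr : r.Prime)
    (hn : 13 ≤ Fintype.card ι) (hnr : 3 * r ≤ Fintype.card ι ∨ (Odd (Fintype.card ι) ∧ r ≠ Fintype.card ι))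
    {K : Subalgebra F (Matrix ι ι F)}
    (hK : Cfsg.Geo.IsFieldSubalgebra r K) (hsa : Cfsg.Geo.IsSelfAdjointFor (QuadraticMap.polar Q) K) :
    Cfsg.Geo.IsMaximalIn (omegaGL Q) (Cfsg.Geo.subalgebraNormalizer K ⊓ omegaGL Q) :=
  orth_normalizer_maximal_of hQ h2 hr (by omega) hnr (fun h => by omega) (fun _ => Or.inl (by omega)) hK hsa

end CfsgLib.C3Max
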