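import Cfsg.Agent.C3Max.OrthSigns

/-!
Two translates of singular lines meeting in the largest possible dimension: the cases in which they give
a transvection on a singular line.
-/

set_option autoImplicit false
set_option linter.unusedSectionVars false
set_option linter.unusedSimpArgs false
set_option linter.style.haveILetI false

namespace CfsgLib.C3Max.Orth

open Module CfsgLib.FieldExtMax

variable {F L V : Type*} [Field F] [Field L] [Algebra F L] [AddCommGroup V] [Module F V]
  [Module L V] [IsScalarTower F L V] [Finite L] [IsGalois F L] [FiniteDimensional F L]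
  [FiniteDimensional F V] [FiniteDimensional L V]

local notation "Tr" => Algebra.trace F L

omit [Finite L] in
/-- A symmetric form on a space of dimension at least three over a finite field has an isotropic vector. -/
lemma exists_isotropic {D : Type*} [AddCommGroup D] [Module F D] [FiniteDimensional F D] [Finite F]
    (h2 : (2 : F) ≠ 0) (T : D →ₗ[F] D →ₗ[F] F) (hs : ∀ x y, T x y = T y x) (hd : 3 ≤ finrank F D) :
    ∃ x, x ≠ 0 ∧ T x x = 0 := by
  by_contra! hno
  have hker : ∀ a b : D, 1 ≤ finrank F ↥(LinearMap.ker (T a) ⊓ LinearMap.ker (T b)) := fun a b => by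
    have h1 := Submodule.finrank_sup_add_finrank_inf_eq (LinearMap.ker (T a)) (LinearMap.ker (T b))
    have h2 := Submodule.finrank_le (LinearMap.ker (T a) ⊔ LinearMap.ker (T b))
    have h3 := LinearMap.finrank_range_add_finrank_ker (T a)
    have h4 := LinearMap.finrank_range_add_finrank_ker (T b)
    have h5 := Submodule.finrank_le (LinearMap.range (T a))
    have h6 := Submodule.finrank_le (LinearMap.range (T b))
    rw [finrank_self] at h5 h6
    omega
  haveI : Nontrivial D := Module.nontrivial_of_finrank_pos (R := F) (by omega)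
  obtain ⟨a, ha⟩ := exists_ne (0 : D)
  obtain ⟨b, ⟨hab, -⟩, hb⟩ := Submodule.exists_mem_ne_zero_of_ne_bot
    (Submodule.one_le_finrank_iff.1 (hker a a))
  obtain ⟨c, ⟨hac, hbc⟩, hc⟩ := Submodule.exists_mem_ne_zero_of_ne_bot
    (Submodule.one_le_finrank_iff.1 (hker a b))
  simp only [SetLike.mem_coe, LinearMap.mem_ker] at hab hac hbc
  classical
  letI := Fintype.ofFinite F
  have hodd : Fintype.card F % 2 = 1 := FiniteField.odd_card_of_char_ne_two fun h' => h2 (by
    have := ringChar.Nat.cast_ringChar (R := F)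
    rw [h'] at this
    exact_mod_cast this)
  obtain ⟨x, y, h1⟩ := FiniteField.exists_root_sum_quadratic
    (f := Polynomial.C (T a a) * Polynomial.X ^ 2)
    (g := Polynomial.C (T b b) * Polynomial.X ^ 2 + Polynomial.C (T c c))
    (Polynomial.degree_C_mul_X_pow 2 (hno a ha))
    (by rw [Polynomial.degree_add_eq_left_of_degree_lt] <;>
        simp [Polynomial.degree_C_mul_X_pow 2 (hno b hb), Polynomial.degree_C (hno c hc)]) hodd
  simp only [Polynomial.eval_add, Polynomial.eval_mul, Polynomial.eval_C, Polynomial.eval_pow,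
    Polynomial.eval_X] at h1
  refine hno (x • a + y • b + c) (fun h0 => hno c hc ?_) ?_
  · have := congrArg (T c) h0
    simpa [hs c a, hac, hs c b, hbc] using this
  · simp only [map_add, map_smul, LinearMap.add_apply, LinearMap.smul_apply, smul_eq_mul, hab, hac, hbc,
      hs b a, hs c a, hs c b]
    linear_combination h1

omit [Finite L] in
/-- In degree other than two only ground elements have squares in the ground field. -/
lemma mem_range_of_sq (hr : (finrank F L).Prime) (h2 : finrank F L ≠ 2) {c : L}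
    (hc : c ^ 2 ∈ (algebraMap F L).range) : c ∈ (algebraMap F L).range := by
  by_contra hcn
  obtain ⟨f, hf⟩ := hc
  have hspan : (⊤ : Submodule F L) ≤ F ∙ (1 : L) ⊔ F ∙ c := by
    intro l _
    have hC : ∀ d ∈ F ∙ (1 : L) ⊔ F ∙ c, c * d ∈ F ∙ (1 : L) ⊔ F ∙ c := by
      intro d hd
      obtain ⟨x, hx, y, hy, rfl⟩ := Submodule.mem_sup.1 hd
      obtain ⟨s, rfl⟩ := Submodule.mem_span_singleton.1 hx
      obtain ⟨s', rfl⟩ := Submodule.mem_span_singleton.1 hy
      rw [mul_add, mul_smul_comm, mul_smul_comm, mul_one, ← sq, ← hf,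
        Algebra.algebraMap_eq_smul_one, smul_smul, add_comm]
      exact Submodule.add_mem_sup (Submodule.mem_span_singleton.2 ⟨_, rfl⟩)
        (Submodule.mem_span_singleton.2 ⟨_, rfl⟩)
    simpa using mul_mem_of_adjoin hr hcn hC l
      (Submodule.mem_sup_left (Submodule.mem_span_singleton_self 1))
  have h1 := Submodule.finrank_mono hspan
  have h3 := Submodule.finrank_add_le_finrank_add_finrank (F ∙ (1 : L)) (F ∙ c)
  have h4 : finrank F ↥(F ∙ (1 : L)) ≤ 1 := (finrank_span_le_card _).trans (by simp)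
  have h5 : finrank F ↥(F ∙ c) ≤ 1 := (finrank_span_le_card _).trans (by simp)
  rw [finrank_top] at h1
  have := hr.two_le
  omega

/-- A maximal pair with a vector of the member, off the line and orthogonal to it. -/
def PairI (B : V →ₗ[L] V →ₗ[L] L) (M : Subgroup (V ≃ₗ[F] V)) : Prop :=
  ∃ h v x₀, IsMaxPair L (fun x => B x x = 0) M h v x₀ ∧
    ∃ u ∈ (lineF L x₀).map (h : V →ₗ[F] V), u ∉ lineF L v (F := F) ∧ B u v = 0

variable {B : V →ₗ[L] V →ₗ[L] L} {M : Subgroup (V ≃ₗ[F] V)} (hB : Over B M)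
include hB

lemma smul_sing (l : L) (x : V) (h : B x x = 0) : B (l • x) (l • x) = 0 := by simp [h]

lemma decomp_three (h3 : finrank L V = 3) {v e b : V} (hvv : B v v = 0) (hee : B e e = 0)
    (hve : B v e = 1) (hb : b ∈ perp₂ B v e) (hbb : B b b ≠ 0) (y : V) :
    y = B y e • v + B y v • e + (B y b / B b b) • b := by
  have hev : B e v = 1 := by rw [hB.symm, hve]
  have hli : LinearIndependent L ![v, e] := LinearIndependent.pair_iff.2 fun s t hst => by
    have h1 := congrArg (fun z => B z v) hst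
    have h2 := congrArg (fun z => B z e) hst
    simp [hvv, hee, hve, hev] at h1 h2
    exact ⟨h2, h1⟩
  have hinf : Submodule.span L (Set.range ![v, e]) ⊓ perp₂ B v e = ⊥ := by
    refine (Submodule.eq_bot_iff _).2 fun z hz => ?_
    obtain ⟨c, hc⟩ := (Submodule.mem_span_range_iff_exists_fun L).1 hz.1
    obtain ⟨h1, h2⟩ := mem_perp₂.1 hz.2
    rw [← hc] at h1 h2 ⊢
    simp [Fin.sum_univ_two, hvv, hee, hve, hev] at h1 h2 ⊢
    simp [h1, h2]
  have hdim := Submodule.finrank_sup_add_finrank_inf_eq (Submodule.span L (Set.range ![v, e])) (perp₂ B v e)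
  rw [hinf, finrank_bot, add_zero, finrank_span_eq_card hli, Fintype.card_fin] at hdim
  have h4 := Submodule.finrank_le (Submodule.span L (Set.range ![v, e]) ⊔ perp₂ B v e)
  have hb0 : b ≠ 0 := fun h => hbb (by simp [h])
  have hspan : perp₂ B v e = L ∙ b := (Submodule.eq_of_le_of_finrank_le
    ((Submodule.span_singleton_le_iff_mem _ _).2 hb) (by rw [finrank_span_singleton hb0]; omega)).symm
  set w := y - B y e • v - B y v • e with hw
  have hwp : w ∈ perp₂ B v e := mem_perp₂.2 ⟨by simp [hw, hvv, hev], by simp [hw, hee, hve]⟩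
  obtain ⟨t, ht⟩ := Submodule.mem_span_singleton.1 (hspan ▸ hwp : w ∈ L ∙ b)
  have ht' : t = B y b / B b b := by
    have := congrArg (fun z => B z b) ht
    obtain ⟨h1, h2⟩ := mem_perp₂.1 hb
    simp [hw, hB.symm v b, hB.symm e b, h1, h2] at this
    rw [eq_div_iff hbb, this]
  rw [← ht', ht, hw]; abel

variable {h : V ≃ₗ[F] V} {v x₀ : V}

/-- An element fixing `L v` and moving a vector of the member into its perpendicular, outside it. -/
lemma pairI_of_move (hp : IsMaxPair L (fun x => B x x = 0) M h v x₀) {t : V ≃ₗ[F] V} (ht : t ∈ M)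
    (hfix : ∀ l : L, t (l • v) = l • v) {u₀ : V} (hu₀ : u₀ ∈ (lineF L x₀).map (h : V →ₗ[F] V))
    (hout : t u₀ ∉ (lineF L x₀).map (h : V →ₗ[F] V))
    (horth : ∀ y ∈ (lineF L x₀).map (h : V →ₗ[F] V), Tr (B (t u₀) y) = 0) : PairI B M := by
  obtain ⟨⟨hh, hvv, hxx, hv, hx, hvS, hSne⟩, hmax⟩ := hp
  set S := (lineF L x₀).map (h : V →ₗ[F] V) with hS
  have hne : S.map (t : V →ₗ[F] V) ≠ S := fun he => hout (he ▸ ⟨u₀, hu₀, rfl⟩)
  have hfix' : ∀ y ∈ lineF L v (F := F), t y = y := fun y hy => by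
    obtain ⟨l, rfl⟩ := mem_lineF.1 hy; exact hfix l
  obtain ⟨hpair, hdim, -⟩ := IsMaxPair.meet_le ⟨⟨hh, hvv, hxx, hv, hx, hvS, hSne⟩, hmax⟩
    (fun l a h => smul_sing hB l a h) ht hv hvS ⟨v, hvS, hfix' v (self_mem_lineF v)⟩ hne
  obtain ⟨z, hz, hzv⟩ := hvS
  obtain ⟨k, rfl⟩ := mem_lineF.1 hz
  have hv' : h.symm v = k • x₀ := by rw [LinearEquiv.symm_apply_eq]; exact hzv.symm
  have hk : k ≠ 0 := fun h0 => hv (by rw [← hzv, h0]; simp)
  refine ⟨h⁻¹ * t * h, h.symm v, x₀, ⟨hpair, fun a b c hp' => (hmax a b c hp').trans ?_⟩,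
    h.symm (t u₀), ?_, fun hm => hout ?_, ?_⟩
  · rw [hdim]
    exact Submodule.finrank_mono fun y hy => ⟨⟨y, hy.2, hfix' y hy.1⟩, hy.2⟩
  · obtain ⟨z, hz', hzu⟩ := hu₀
    exact ⟨z, hz', by rw [← hzu]; rfl⟩
  · rw [hv', lineF_eq_of_mem (mem_lineF.2 ⟨k, rfl⟩) (smul_ne_zero hk hx)] at hm
    exact ⟨_, hm, h.apply_symm_apply _⟩
  · rw [hv', map_smul, smul_eq_mul, show B (h.symm (t u₀)) x₀ = 0 from eq_zero_of_trace (F := F) fun l => by
      rw [← smul_eq_mul, ← map_smul, ← hB.pres h hh, h.apply_symm_apply]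
      exact horth _ ⟨_, mem_lineF.2 ⟨l, rfl⟩, rfl⟩, mul_zero]

/-- Members are totally isotropic over the ground field. -/
lemma trace_member (hp : IsMaxPair L (fun x => B x x = 0) M h v x₀) {y z : V}
    (hy : y ∈ (lineF L x₀).map (h : V →ₗ[F] V)) (hz : z ∈ (lineF L x₀).map (h : V →ₗ[F] V)) :
    Tr (B y z) = 0 := by
  obtain ⟨⟨hh, -, hxx, -⟩, -⟩ := hp
  obtain ⟨y', hy', rfl⟩ := hy
  obtain ⟨z', hz', rfl⟩ := hz
  obtain ⟨k, rfl⟩ := mem_lineF.1 hy'
  obtain ⟨k', rfl⟩ := mem_lineF.1 hz'
  rw [show Tr (B ((h : V →ₗ[F] V) (k • x₀)) ((h : V →ₗ[F] V) (k' • x₀))) = _ from hB.pres h hh _ _]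
  simp [show B x₀ x₀ = 0 from hxx]

/-- No line other than the given one lies in the member. -/
lemma no_line (hp : IsMaxPair L (fun x => B x x = 0) M h v x₀) {z : V} (hz : z ≠ 0) :
    ∃ l : L, l • z ∉ (lineF L x₀).map (h : V →ₗ[F] V) := by
  by_contra! hall
  obtain ⟨⟨-, -, -, hv, hx, hvS, hSne⟩, -⟩ := hp
  have hle : lineF L z (F := F) ≤ (lineF L x₀).map (h : V →ₗ[F] V) := fun u hu => by
    obtain ⟨l, rfl⟩ := mem_lineF.1 hu; exact hall l
  have heq := Submodule.eq_of_le_of_finrank_eq hle (by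
    rw [finrank_lineF hz, LinearEquiv.finrank_map_eq, finrank_lineF hx])
  rw [← heq] at hvS hSne
  exact hSne (lineF_eq_of_mem hvS hv).symm

/-- A vector of the member orthogonal to `v` but off its line makes the whole member orthogonal. -/
lemma orth_of_caseI (hp : IsMaxPair L (fun x => B x x = 0) M h v x₀) {u : V}
    (huS : u ∈ (lineF L x₀).map (h : V →ₗ[F] V)) (hu : u ∉ lineF L v (F := F)) (huv : B u v = 0) :
    ∀ y ∈ (lineF L x₀).map (h : V →ₗ[F] V), B y v = 0 := by
  have h2 := two_ne hB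
  have hvv : B v v = 0 := hp.1.2.1
  have hv : v ≠ 0 := hp.1.2.2.2.1
  have hvS : v ∈ (lineF L x₀).map (h : V →ₗ[F] V) := hp.1.2.2.2.2.2.1
  set S := (lineF L x₀).map (h : V →ₗ[F] V) with hS
  -- Siegel elements with a preimage of `u` in the member stabilise it
  have hst : ∀ b, B v b = 0 → B u b • v ∈ S →
      ∀ y ∈ S, B y v • b - (B y b + B b b / 2 * B y v) • v ∈ S := by
    intro b hvb hub y hy
    obtain ⟨g, hg, hgy⟩ := exists_sieg hB hvv hvb
    have hfix : ∀ l : L, g (l • v) = l • v := fun l => by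
      rw [hgy]; simp [sieg, hvv, hvb]
    have hst := hp.stab (fun l a h => smul_sing hB l a h) hg (fun z hz => by
      obtain ⟨l, rfl⟩ := mem_lineF.1 hz.1
      exact ⟨l • v, hz.2, hfix l⟩) hu huS ⟨u + B u b • v, S.add_mem huS hub, by
        show g (u + B u b • v) = u
        rw [map_add, hfix, hgy]; simp [sieg, huv]⟩
    have hm : g y ∈ S := by rw [hS, ← hst]; exact ⟨y, hy, rfl⟩
    have := S.sub_mem hm hy
    rwa [hgy, sieg, add_sub_assoc, add_sub_cancel_left] at this
  by_cases hs : finrank L V = 3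
  · -- three-dimensional spaces
    obtain ⟨e, -, hee, hve⟩ := exists_partner hB (good_top hB) Submodule.mem_top hv hvv
    obtain ⟨b, hb, hbb⟩ := exists_aniso hB (good_perp₂ hB hvv hee hve).1 (perp₂_ne_bot hB hvv hee hve)
    have hvb : B v b = 0 := by rw [hB.symm]; exact (mem_perp₂.1 hb).1
    let C : Submodule F L := S.comap ((LinearMap.toSpanSingleton L V v).restrictScalars F)
    have hC1 : (1 : L) ∈ C := by show (1 : L) • v ∈ S; rwa [one_smul]
    have hCne : ∀ {x : L}, x ∉ (algebraMap F L).range → (∀ c ∈ C, x * c ∈ C) → False := fun hx hinv => by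
      obtain ⟨l, hl⟩ := no_line hB hp hv
      have h4 := mul_mem_of_adjoin hB.prime hx hinv l hC1
      rw [mul_one] at h4
      exact hl h4
    have hr2 : finrank F L ≠ 2 := fun h' => by have := hB.dim_three hs; omega
    -- the coefficient of a second difference
    have hcc : ∀ u' ∈ S, u' ∉ lineF L v (F := F) → B u' v = 0 → B u' b ≠ 0 := by
      intro u' _ hu' hu'v h0
      refine hu' (mem_lineF.2 ⟨B u' e, ?_⟩)
      conv_rhs => rw [decomp_three hB hs hvv hee hve hb hbb u', hu'v, h0]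
      simp
    have key : ∀ u' ∈ S, u' ∉ lineF L v (F := F) → B u' v = 0 → ∀ c ∈ C, ∀ c' ∈ C, ∀ y ∈ S,
        c * c' * (B b b / B u' b ^ 2 * B y v) ∈ C := by
      intro u' hu'S hu' hu'v c hc c' hc' y hy
      have hub := hcc u' hu'S hu' hu'v
      have st : ∀ d ∈ C, ∀ z ∈ S, B z v • ((d / B u' b) • b) -
          (B z ((d / B u' b) • b) + B ((d / B u' b) • b) ((d / B u' b) • b) / 2 * B z v) • v ∈ S := by
        intro d hd z hz
        obtain ⟨g, hg, hgy⟩ := exists_sieg hB hvv (a := (d / B u' b) • b) (by simp [hvb])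
        have hfix : ∀ l : L, g (l • v) = l • v := fun l => by rw [hgy]; simp [sieg, hvv, hvb]
        have hval : B u' ((d / B u' b) • b) = d := by
          rw [map_smul, smul_eq_mul, div_mul_cancel₀ _ hub]
        have hst := hp.stab (fun l a h => smul_sing hB l a h) hg (fun w hw => by
          obtain ⟨l, rfl⟩ := mem_lineF.1 hw.1
          exact ⟨l • v, hw.2, hfix l⟩) hu' hu'S ⟨u' + d • v, S.add_mem hu'S hd, by
            show g (u' + d • v) = u'
            rw [map_add, hfix, hgy, sieg, hu'v, hval]; simp⟩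
        have hm : g z ∈ S := by rw [hS, ← hst]; exact ⟨z, hz, rfl⟩
        have := S.sub_mem hm hz
        rwa [hgy, sieg, add_sub_assoc, add_sub_cancel_left] at this
      have h3 := S.sub_mem (S.add_mem (st c hc y hy) (st c' hc' y hy)) (st (c + c') (C.add_mem hc hc') y hy)
      show (c * c' * (B b b / B u' b ^ 2 * B y v)) • v ∈ S
      convert h3 using 1
      simp only [map_smul, LinearMap.smul_apply, smul_eq_mul, add_div, map_add, LinearMap.add_apply]
      match_scalars <;> field_simp <;> ring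
    intro y hy
    by_contra hyv
    -- the coefficient space is the ground field
    set κ := B b b / B u b ^ 2 * B y v
    have hub := hcc u huS hu huv
    have hκ0 : κ ≠ 0 := mul_ne_zero (div_ne_zero hbb (pow_ne_zero _ hub)) hyv
    have hκ : ∀ c ∈ C, ∀ c' ∈ C, c * c' * κ ∈ C := fun c hc c' hc' => key u huS hu huv c hc c' hc' y hy
    have hκF : κ ∈ (algebraMap F L).range := by
      by_contra hn
      exact hCne hn fun c hc => by simpa [mul_comm κ] using hκ c hc 1 hC1
    have hCF : ∀ c ∈ C, c ∈ (algebraMap F L).range := by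
      intro c hc
      by_contra hn
      obtain ⟨f, hf⟩ := hκF
      have hf0 : f ≠ 0 := fun h0 => hκ0 (by rw [← hf, h0, map_zero])
      refine hCne hn fun c' hc' => ?_
      have h3 := C.smul_mem f⁻¹ (hκ c hc c' hc')
      rwa [← hf, mul_comm _ (algebraMap F L f), ← Algebra.smul_def, inv_smul_smul₀ hf0] at h3
    -- all coefficients lie on one line
    have hall : ∀ y' ∈ S, ∃ f : F, B y' v = algebraMap F L f * B y v := by
      intro y' hy'
      obtain ⟨f, hf⟩ := hκF
      have h3 : B b b / B u b ^ 2 * B y' v ∈ (algebraMap F L).range :=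
        hCF _ (by simpa using key u huS hu huv 1 hC1 1 hC1 y' hy')
      obtain ⟨f', hf'⟩ := h3
      refine ⟨f' / f, ?_⟩
      have hf0 : algebraMap F L f ≠ 0 := by rw [hf]; exact hκ0
      rw [map_div₀, hf', div_mul_eq_mul_div, eq_div_iff hf0, hf]
      ring
    -- the part orthogonal to `v`
    let β : S →ₗ[F] L := ((B.flip v).restrictScalars F) ∘ₗ S.subtype
    have hrange : LinearMap.range β ≤ F ∙ (B y v) := by
      rintro _ ⟨y', rfl⟩
      obtain ⟨f, hf⟩ := hall y' y'.2
      exact Submodule.mem_span_singleton.2 ⟨f, by rw [Algebra.smul_def]; exact hf.symm⟩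
    let ζ : LinearMap.ker β →ₗ[F] L := ((B.flip b).restrictScalars F) ∘ₗ S.subtype ∘ₗ (LinearMap.ker β).subtype
    have hζker : finrank F ↥(LinearMap.ker ζ) ≤ 1 := by
      let ι' : LinearMap.ker ζ →ₗ[F] V := S.subtype ∘ₗ (LinearMap.ker β).subtype ∘ₗ (LinearMap.ker ζ).subtype
      have hinj : Function.Injective ι' :=
        Subtype.val_injective.comp (Subtype.val_injective.comp Subtype.val_injective)
      have hle : LinearMap.range ι' ≤ F ∙ v := by
        rintro _ ⟨⟨⟨⟨z, hzS⟩, hz1⟩, hz2⟩, rfl⟩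
        have e1 : B z v = 0 := hz1
        have e2 : B z b = 0 := hz2
        have e3 : B z e • v = z := by
          conv_rhs => rw [decomp_three hB hs hvv hee hve hb hbb z, e1, e2]
          simp
        obtain ⟨f, hf⟩ := hCF (B z e) (show B z e • v ∈ S by rw [e3]; exact hzS)
        exact Submodule.mem_span_singleton.2 ⟨f, by rw [← algebraMap_smul L f v, hf, e3]; rfl⟩
      have h5 := (LinearMap.finrank_range_of_inj hinj).symm.le.trans (Submodule.finrank_mono hle)
      rwa [finrank_span_singleton hv] at h5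
    have hζr : LinearMap.range ζ ≤ F ∙ B u b := by
      rintro _ ⟨⟨⟨z, hzS⟩, hz1⟩, rfl⟩
      show B z b ∈ F ∙ B u b
      by_cases hzl : z ∈ lineF L v (F := F)
      · obtain ⟨l, rfl⟩ := mem_lineF.1 hzl
        rw [map_smul, LinearMap.smul_apply, hvb, smul_zero]
        exact Submodule.zero_mem _
      · have e1 : B z v = 0 := hz1
        have hzb := hcc z hzS hzl e1
        obtain ⟨f, hf⟩ := hκF
        have h3 : B b b / B z b ^ 2 * B y v ∈ (algebraMap F L).range :=
          hCF _ (by simpa using key z hzS hzl e1 1 hC1 1 hC1 y hy)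
        obtain ⟨f', hf'⟩ := h3
        have hf'0 : algebraMap F L f' ≠ 0 := by
          rw [hf']; exact mul_ne_zero (div_ne_zero hbb (pow_ne_zero _ hzb)) hyv
        obtain ⟨g, hg⟩ := mem_range_of_sq hB.prime hr2 (c := B z b / B u b) ⟨f / f', by
          rw [map_div₀, hf, hf', show κ = B b b / B u b ^ 2 * B y v from rfl]
          field_simp⟩
        exact Submodule.mem_span_singleton.2 ⟨g, by rw [Algebra.smul_def, hg, div_mul_cancel₀ _ hub]⟩
    have d1 := LinearMap.finrank_range_add_finrank_ker β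
    have d2 := Submodule.finrank_mono hrange
    have d3 := LinearMap.finrank_range_add_finrank_ker ζ
    have d4 := Submodule.finrank_mono hζr
    rw [finrank_span_singleton hyv] at d2
    rw [finrank_span_singleton hub] at d4
    rw [show finrank F S = finrank F L by
      rw [hS, LinearEquiv.finrank_map_eq, finrank_lineF hp.1.2.2.2.2.1]] at d1
    by_cases hr4 : 4 ≤ finrank F L
    · omega
    -- degree three
    have hcomb : ∀ z ∈ S, B z v = 0 → ∃ f f' : F, z = f • u + f' • v := by
      intro z hz hzv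
      obtain ⟨f, hf⟩ := Submodule.mem_span_singleton.1 (hζr ⟨⟨⟨z, hz⟩, hzv⟩, rfl⟩)
      change f • B u b = B z b at hf
      have e1 : B (z - f • u) e • v = z - f • u := by
        conv_rhs => rw [decomp_three hB hs hvv hee hve hb hbb (z - f • u)]
        rw [map_sub, ← algebraMap_smul L f u, map_smul, LinearMap.sub_apply, LinearMap.sub_apply,
          LinearMap.sub_apply, LinearMap.smul_apply, LinearMap.smul_apply, LinearMap.smul_apply, hzv, huv,
          algebraMap_smul, algebraMap_smul, algebraMap_smul, ← hf]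
        simp
      obtain ⟨f', hf'⟩ := hCF (B (z - f • u) e)
        (show B (z - f • u) e • v ∈ S by rw [e1]; exact S.sub_mem hz (S.smul_mem _ huS))
      rw [← hf', algebraMap_smul] at e1
      exact ⟨f, f', by rw [e1]; abel⟩
    -- no root elements
    have hXv : RootFree B M v := by
      by_contra hX
      let T : L →ₗ[F] F := Tr ∘ₗ LinearMap.mulLeft F (B y v)
      obtain ⟨m, hm, hmF⟩ : ∃ m : L, T m = 0 ∧ m ∉ (algebraMap F L).range := by
        by_contra! hle
        have h5 := Submodule.finrank_mono (show LinearMap.ker T ≤ F ∙ (1 : L) from fun m hm => by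
          obtain ⟨c, hc⟩ := hle m hm
          exact Submodule.mem_span_singleton.2 ⟨c, by rw [← hc, Algebra.algebraMap_eq_smul_one]⟩)
        rw [finrank_span_singleton one_ne_zero] at h5
        have h6 := LinearMap.finrank_range_add_finrank_ker T
        have h7 := Submodule.finrank_le (LinearMap.range T)
        rw [finrank_self] at h7
        have := hB.dim_three hs
        omega
      obtain ⟨τ, hτ, hτm⟩ := exists_inX_apply hB hv hvv hX hyv hm
      obtain ⟨g, hg, hgy⟩ := hτ 1
      have e2 : ∀ z, g z = z + τ (B z v) • v := fun z => by rw [hgy]; simp [rootMap_apply]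
      have hst' := hp.stab (fun l a h => smul_sing hB l a h) hg (fun z hz => ⟨z, hz.2, by
          obtain ⟨l, rfl⟩ := mem_lineF.1 hz.1
          show g (l • v) = l • v
          rw [e2]; simp [hvv]⟩) hu huS ⟨u, huS, by
          show g u = u
          rw [e2, huv]; simp⟩
      have h3 : g y ∈ S := by rw [hS, ← hst']; exact ⟨y, hy, rfl⟩
      have h4 := S.sub_mem h3 hy
      rw [e2, hτm, add_sub_cancel_left] at h4
      exact hmF (hCF m h4)
    have hxx : B x₀ x₀ = 0 := hp.1.2.2.1
    have hX₀ : RootFree B M x₀ := fun τ hτ => by_contra fun hne => by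
      obtain ⟨τ', hne', hτ'⟩ := exists_inX_of hB hp.1.2.2.2.2.1 hxx hv hvv ⟨τ, hne, hτ⟩
      exact hne' (hXv τ' hτ')
    -- two orthogonal non-singular vectors of the member
    set a := (B u b)⁻¹ • b with ha
    have hz1 := hst a (by simp [ha, hvb]) (by
      rw [ha, map_smul, smul_eq_mul, inv_mul_cancel₀ hub, one_smul]; exact hvS) y hy
    obtain ⟨f, f', hff⟩ := hcomb _ hz1 (by simp [ha, hvv, hB.symm b v, hvb])
    rw [← algebraMap_smul L f u, ← algebraMap_smul L f' v] at hff
    have q1 := congrArg (fun z => B z u) hff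
    have q2 := congrArg (fun z => B z y) hff
    have q3 := congrArg (fun z => B z b) hff
    simp only [ha, map_add, map_sub, map_smul, LinearMap.add_apply, LinearMap.sub_apply, LinearMap.smul_apply,
      smul_eq_mul, hvv, hvb, hB.symm v u, huv, hB.symm b u, hB.symm b y, hB.symm v y, mul_zero, add_zero,
      sub_zero] at q1 q2 q3
    rw [inv_mul_cancel₀ hub, mul_one] at q1
    have hfuu : algebraMap F L f * B u u ≠ 0 := by rw [← q1]; exact hyv
    have huu : B u u ≠ 0 := right_ne_zero_of_mul hfuu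
    have hf0 : algebraMap F L f ≠ 0 := left_ne_zero_of_mul hfuu
    have q5 : B b b * ((B u b)⁻¹ * (B u b)⁻¹) * B y v = algebraMap F L f := by
      field_simp at q3 ⊢
      linear_combination q3
    have q4 : B u y = -(2⁻¹ + algebraMap F L f' / algebraMap F L f) * B y v := by
      have e4 : algebraMap F L f * B u y +
          (algebraMap F L f * 2⁻¹ + algebraMap F L f') * B y v = 0 := by
        linear_combination -q2 - (B y v * 2⁻¹) * q5
      field_simp
      field_simp at e4
      linear_combination e4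
    set u' := u + (algebraMap F L (2⁻¹ + f' / f)) • v with hu'
    have hu'S : u' ∈ S := by
      rw [hu', algebraMap_smul]; exact S.add_mem huS (S.smul_mem _ hvS)
    have u'v : B u' v = 0 := by simp [hu', huv, hvv]
    have u'u' : B u' u' = B u u := by simp [hu', huv, hvv, hB.symm v u]
    have u'y : B u' y = 0 := by
      rw [hu', map_add, map_smul, LinearMap.add_apply, LinearMap.smul_apply, q4, hB.symm v y, smul_eq_mul,
        map_add, map_div₀, map_inv₀, map_ofNat]
      ring
    obtain ⟨y₂, hy₂S, hy₂v, hy₂u, hy₂y₂⟩ : ∃ y₂ ∈ S, B y₂ v = B y v ∧ B u' y₂ = 0 ∧ B y₂ y₂ ≠ 0 := by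
      by_cases hyy : B y y = 0
      · refine ⟨y + v, S.add_mem hy hvS, by simp [hvv], by simp [u'y, u'v], ?_⟩
        rw [B_add_self hB, hyy, hvv, zero_add, add_zero]
        exact mul_ne_zero h2 hyv
      · exact ⟨y, hy, rfl, u'y, hyy⟩
    set u₃ := v - (B y v / B y₂ y₂) • y₂ with hu₃
    have h31 : B u₃ u' = 0 := by simp [hu₃, hB.symm v u', u'v, hB.symm y₂ u', hy₂u]
    have h32 : B u₃ y₂ = 0 := by simp [hu₃, hB.symm v y₂, hy₂v, hy₂y₂]
    have hvu₃ : B v u₃ = -(B y v * B y v / B y₂ y₂) := by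
      simp [hu₃, hvv, hB.symm v y₂, hy₂v]; ring
    have hvu₃0 : B v u₃ ≠ 0 := by
      rw [hvu₃]; exact neg_ne_zero.2 (div_ne_zero (mul_ne_zero hyv hyv) hy₂y₂)
    have h33 : B u₃ u₃ ≠ 0 := by
      have : B u₃ u₃ = B v u₃ := by
        calc B u₃ u₃ = B (v - (B y v / B y₂ y₂) • y₂) u₃ := by rw [← hu₃]
          _ = B v u₃ := by simp [hB.symm y₂ u₃, h32]
      rw [this]; exact hvu₃0
    have hk : meetDim L h v x₀ ≤ 1 := by
      have hle : lineF L v (F := F) ⊓ S ≤ F ∙ v := by
        rintro z ⟨hz1, hz2⟩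
        obtain ⟨l, rfl⟩ := mem_lineF.1 hz1
        obtain ⟨c, rfl⟩ := hCF l hz2
        exact Submodule.mem_span_singleton.2 ⟨c, (algebraMap_smul L c v).symm⟩
      refine (Submodule.finrank_mono hle).trans ?_
      rw [finrank_span_singleton hv]
    rcases not_rootFree_of_signs hB hs hp hk hu'S hy₂S (by rw [u'u']; exact huu) hy₂y₂ h33
        (by rw [hB.symm]; exact hy₂u) h31 h32 with hX | horth
    · exact hX hX₀
    · exact hvu₃0 (horth v hvS)
  · -- a vector orthogonal to both, off the line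
    obtain ⟨a, ⟨hau, hav⟩, ha⟩ : ∃ a ∈ LinearMap.ker (B.flip u) ⊓ LinearMap.ker (B.flip v),
        a ∉ Submodule.span L {v} := by
      by_contra! hle
      have h1 := Submodule.finrank_mono (show _ ≤ Submodule.span L {v} from hle)
      have d1 := Submodule.finrank_sup_add_finrank_inf_eq (LinearMap.ker (B.flip u)) (LinearMap.ker (B.flip v))
      have d2 := Submodule.finrank_le (LinearMap.ker (B.flip u) ⊔ LinearMap.ker (B.flip v))
      have d3 := LinearMap.finrank_range_add_finrank_ker (B.flip u)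
      have d4 := LinearMap.finrank_range_add_finrank_ker (B.flip v)
      have d5 := Submodule.finrank_le (LinearMap.range (B.flip u))
      have d6 := Submodule.finrank_le (LinearMap.range (B.flip v))
      rw [finrank_span_singleton hv] at h1
      rw [finrank_self] at d5 d6
      have := hB.dim
      omega
    have hua : B u a = 0 := by rw [hB.symm]; exact hau
    have hva : B v a = 0 := by rw [hB.symm]; exact hav
    have st : ∀ l : L, ∀ y ∈ S, B y v • (l • a) - (B y (l • a) + B (l • a) (l • a) / 2 * B y v) • v ∈ S :=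
      fun l => hst (l • a) (by simp [hva]) (by simp [hua])
    intro y hy
    by_contra hyv
    have haa : B a a = 0 := by
      by_contra haa
      obtain ⟨l₀, hl₀⟩ := no_line hB hp hv
      let D : AddSubgroup L := AddSubgroup.comap ((LinearMap.toSpanSingleton L V v).toAddMonoidHom)
        S.toAddSubgroup
      have hD : ∀ l, B a a * B y v * (l * l) ∈ D := by
        intro l
        show (B a a * B y v * (l * l)) • v ∈ S
        have h3 := S.sub_mem (S.add_mem (st l y hy) (st l y hy)) (st (l + l) y hy)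
        convert h3 using 1
        simp only [map_smul, map_add, LinearMap.add_apply, LinearMap.smul_apply, smul_eq_mul]
        match_scalars <;> field_simp <;> ring
      have hc0 : B a a * B y v ≠ 0 := mul_ne_zero haa hyv
      refine hl₀ (show l₀ ∈ D from ?_)
      have h3 := D.sub_mem (hD ((l₀ / (B a a * B y v) + 1) / 2)) (hD ((l₀ / (B a a * B y v) - 1) / 2))
      convert h3 using 1
      field_simp
      ring
    set w := B y v • a - B y a • v
    have hw : w ≠ 0 := fun h0 => ha (Submodule.mem_span_singleton.2 ⟨B y a / B y v, by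
      rw [div_eq_inv_mul, mul_smul, ← sub_eq_zero.1 h0, inv_smul_smul₀ hyv]⟩)
    obtain ⟨l, hl⟩ := no_line hB hp hw
    refine hl ?_
    convert st l y hy using 1
    simp only [w, map_smul, LinearMap.smul_apply, smul_eq_mul, haa]
    match_scalars <;> ring

/-- Such a pair gives a transvection on a singular line. -/
lemma transv_of_pairI (hI : PairI B M) : ∃ a : V, a ≠ 0 ∧ B a a = 0 ∧ ∃ x ∈ M,
    ∃ (φ : L →ₗ[F] F) (e : L), φ ≠ 0 ∧ e ≠ 0 ∧ φ e = 0 ∧ ∀ l : L, x (l • a) = (l + φ l • e) • a := by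
  obtain ⟨h, v, x₀, hp, u, huS, hu, huv⟩ := hI
  have hvv : B v v = 0 := hp.1.2.1
  have hzero := orth_of_caseI hB hp huS hu huv
  obtain ⟨w, hvw, huw⟩ := exists_sep hB hp.1.2.2.2.1 hvv hu
  choose t ht hty using fun c : L => exists_sieg hB hvv (a := c • w) (by simp [hvw])
  obtain ⟨c, φ, e, hφ, he, hφe, hxM, hxa⟩ := hp.exists_transvection hB.prime
    (fun l a h => smul_sing hB l a h) t ht (-((B.flip w).restrictScalars F))
    (fun l => by simp [hvw]) (fun c y hy => by
      rw [hty, sieg, hzero y hy]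
      simp only [zero_smul, add_zero, mul_zero, LinearMap.neg_apply, LinearMap.restrictScalars_apply,
        LinearMap.flip_apply, map_smul, smul_eq_mul]
      module) huS (by simp [huw])
  exact ⟨x₀, hp.1.2.2.2.2.1, hp.1.2.2.1, _, hxM, φ, e, hφ, he, hφe, hxa⟩

/-- A vector orthogonal to the member shifts it to a pair with an orthogonal vector. -/
lemma pairI_of_shift (hp : IsMaxPair L (fun x => B x x = 0) M h v x₀) {u₀ : V}
    (hu₀ : u₀ ∈ (lineF L x₀).map (h : V →ₗ[F] V)) (hβ : B u₀ v ≠ 0) {b : V}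
    (hb : ∀ y ∈ (lineF L x₀).map (h : V →ₗ[F] V), B y b = 0) {c : F}
    (hc : B b b * B u₀ v = algebraMap F L c) (hc0 : c ≠ 0) : PairI B M := by
  have hvv : B v v = 0 := hp.1.2.1
  have hvS : v ∈ (lineF L x₀).map (h : V →ₗ[F] V) := hp.1.2.2.2.2.2.1
  have hvb : B v b = 0 := hb v hvS
  obtain ⟨t, ht, hty⟩ := exists_sieg hB hvv hvb
  have hbb : B b b ≠ 0 := fun h0 => hc0 ((algebraMap F L).injective (by rw [← hc, h0, zero_mul, map_zero]))
  refine pairI_of_move hB hp ht (fun l => by rw [hty]; simp [sieg, hvv, hvb]) hu₀ (fun hm => ?_) fun y hy => ?_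
  · have := hb _ hm
    rw [hty] at this
    simp [sieg, hb u₀ hu₀, hvb, hβ, hbb] at this
  · have e1 : B (t u₀) y = B u₀ y - (c / 2 : F) • B y v := by
      rw [hty]
      simp only [sieg, map_add, map_sub, map_smul, LinearMap.add_apply, LinearMap.sub_apply,
        LinearMap.smul_apply, smul_eq_mul, hb u₀ hu₀, hB.symm b y, hb y hy, hB.symm v y, Algebra.smul_def,
        map_div₀, map_ofNat, ← hc]
      ring
    rw [e1, map_sub, map_smul, trace_member hB hp hu₀ hy, trace_member hB hp hy hvS, smul_zero, sub_zero]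

/-- In dimension at least four the member shifts unless some vector is orthogonal. -/
lemma pairI_of_four (hs : 4 ≤ finrank L V) (hp : IsMaxPair L (fun x => B x x = 0) M h v x₀) {u₀ : V}
    (hu₀ : u₀ ∈ (lineF L x₀).map (h : V →ₗ[F] V)) (hu₀v : u₀ ∉ lineF L v (F := F)) (hβ : B u₀ v ≠ 0) :
    PairI B M := by
  have hvv : B v v = 0 := hp.1.2.1
  set e' := (B u₀ v)⁻¹ • u₀
  set e := e' - (B e' e' / 2) • v with hedef
  have hve' : B v e' = 1 := by simp [e', hB.symm v u₀, inv_mul_cancel₀ hβ]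
  have hve : B v e = 1 := by simp [hedef, hve', hvv]
  have hee : B e e = 0 := by
    simp only [hedef, map_sub, map_smul, LinearMap.sub_apply, LinearMap.smul_apply, smul_eq_mul, hve',
      hB.symm e' v, hvv]
    field_simp [two_ne hB]; ring
  obtain ⟨hW, hd⟩ := good_perp₂ hB hvv hee hve
  have hu₀W : ∀ z ∈ perp₂ B v e, B v z = 0 ∧ B u₀ z = 0 := fun z hz => by
    obtain ⟨h1, h2⟩ := mem_perp₂.1 hz
    have hvz : B v z = 0 := by rw [hB.symm, h1]
    have h3 : B e' z = 0 := by
      have : B z e' = 0 := by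
        have h4 : B z e = B z e' - B e' e' / 2 * B z v := by simp [hedef]
        rw [h2, h1, mul_zero, sub_zero] at h4; exact h4.symm
      rw [hB.symm, this]
    exact ⟨hvz, by simpa [e', hβ] using h3⟩
  have horth : ∀ a ∈ perp₂ B v e, B a a ≠ 0 → ∀ y ∈ (lineF L x₀).map (h : V →ₗ[F] V), B y a = 0 := by
    intro a ha haa y hy
    obtain ⟨w, hw, hwa, hww, r₁, r₂, k, h1, h2, hk, hfix, hsum⟩ := exists_rot hB hW (by omega)
      (fun h => (hB.dim_two h).imp (fun _ => by omega) fun h4 z hz hzz =>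
        h4.2 v e z hp.1.2.2.2.1 hvv hee hve (mem_perp₂.1 hz).1 (mem_perp₂.1 hz).2 hzz) ha haa
    have hfx : ∀ r : V ≃ₗ[F] V, r ∈ M → (∀ z, B z a = 0 → B z w = 0 → r z = z) →
        ∀ z ∈ (lineF L x₀).map (h : V →ₗ[F] V), r z ∈ (lineF L x₀).map (h : V →ₗ[F] V) := by
      intro r hr hrfix z hz
      have hst := hp.stab (fun l a h => smul_sing hB l a h) hr (fun q hq => ⟨q, hq.2, by
        obtain ⟨l, rfl⟩ := mem_lineF.1 hq.1
        exact hrfix _ (by simp [(hu₀W a ha).1]) (by simp [(hu₀W w hw).1])⟩) hu₀v hu₀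
        ⟨u₀, hu₀, hrfix _ (hu₀W a ha).2 (hu₀W w hw).2⟩
      rw [← hst]; exact ⟨z, hz, rfl⟩
    exact (orth_of_rot hB haa hww hwa hk hsum
      (fun z hz => ⟨hfx r₁ h1 (fun q q1 q2 => (hfix q q1 q2).1) z hz,
        hfx r₂ h2 (fun q q1 q2 => (hfix q q1 q2).2) z hz⟩)
      (fun z _ hz0 => no_line hB hp hz0) y hy).1
  obtain ⟨b, hb, hbv⟩ := exists_value' hB hW (by omega) (c := (B u₀ v)⁻¹) (inv_ne_zero hβ)
  exact pairI_of_shift hB hp hu₀ hβ
    (fun y hy => orth_of_aniso hB hW (fun a ha haa => horth a ha haa y hy) hb)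
    (c := 1) (by rw [hbv, inv_mul_cancel₀ hβ, map_one]) one_ne_zero

/-- In dimension three root elements shift the member. -/
lemma pairI_of_root (hs : finrank L V = 3) (hp : IsMaxPair L (fun x => B x x = 0) M h v x₀) {u₀ : V}
    (hu₀ : u₀ ∈ (lineF L x₀).map (h : V →ₗ[F] V))
    (hii : ∀ u ∈ (lineF L x₀).map (h : V →ₗ[F] V), B u v = 0 → u ∈ lineF L v (F := F))
    (hu₀v : u₀ ∉ lineF L v (F := F)) (hX : ¬ RootFree B M v) : PairI B M := by
  classical
  haveI : Finite F := Finite.of_injective _ (algebraMap F L).injective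
  have h2 := two_ne hB
  have hvv : B v v = 0 := hp.1.2.1
  have hv : v ≠ 0 := hp.1.2.2.2.1
  set S := (lineF L x₀).map (h : V →ₗ[F] V) with hS
  have hvS : v ∈ S := hp.1.2.2.2.2.2.1
  have hβ : B u₀ v ≠ 0 := fun h0 => hu₀v (hii u₀ hu₀ h0)
  obtain ⟨e, -, hee, hve⟩ := exists_partner hB (good_top hB) Submodule.mem_top hv hvv
  obtain ⟨b, hb, hbb⟩ := exists_aniso hB (good_perp₂ hB hvv hee hve).1 (perp₂_ne_bot hB hvv hee hve)
  have hvb : B v b = 0 := by rw [hB.symm]; exact (mem_perp₂.1 hb).1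
  -- the isotropy condition
  obtain ⟨lam, hlam, hlam'⟩ : ∃ l : L, l ≠ 0 ∧ Tr (B b b * (B u₀ v) ^ 2 * (l * l)) = 0 := by
    let T : L →ₗ[F] L →ₗ[F] F := ((LinearMap.mul F L).compr₂ (LinearMap.mulLeft F (B b b * (B u₀ v) ^ 2))).compr₂ Tr
    exact exists_isotropic hB.two T (fun x y => by show Tr _ = Tr _; simp [mul_comm x y])
      (by have := hB.dim_three hs; omega)
  obtain ⟨g₁, hg₁, h₁⟩ := exists_sieg hB hvv (a := lam • b) (by simp [hvb])
  let β : S →ₗ[F] L := ((B.flip v).restrictScalars F) ∘ₗ S.subtype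
  let Ψ : S →ₗ[F] F := Tr ∘ₗ ((LinearMap.mulLeft F (lam * B u₀ v)) ∘ₗ
    ((B.flip b).restrictScalars F) ∘ₗ S.subtype -
    (LinearMap.mulLeft F (lam * B u₀ b + lam * lam * B b b * B u₀ v / 2)) ∘ₗ β)
  have hΨker : Ψ ∈ (LinearMap.ker β).dualAnnihilator := by
    rw [Submodule.mem_dualAnnihilator]
    intro y hy
    have hy' : B (y : V) v = 0 := hy
    obtain ⟨l, hl⟩ := mem_lineF.1 (hii y y.2 hy')
    show Tr (lam * B u₀ v * B (y : V) b - _ * B (y : V) v) = 0
    rw [hy', ← hl]; simp [hvb]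
  rw [← LinearMap.range_dualMap_eq_dualAnnihilator_ker] at hΨker
  obtain ⟨ψ, hψ⟩ := hΨker
  obtain ⟨m, hm⟩ := exists_trace_eq ψ
  have hΨy : ∀ y : S, Ψ y = Tr (m * B (y : V) v) := fun y => by
    rw [← hψ, LinearMap.dualMap_apply, hm]; rfl
  have hm0 : Tr (B u₀ v * -m) = 0 := by
    have h3 := hΨy ⟨u₀, hu₀⟩
    have h4 : Ψ ⟨u₀, hu₀⟩ = -((2 : F)⁻¹ * Tr (B b b * (B u₀ v) ^ 2 * (lam * lam))) := by
      show Tr (lam * B u₀ v * B u₀ b - (lam * B u₀ b + lam * lam * B b b * B u₀ v / 2) * B u₀ v) = _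
      rw [← smul_eq_mul (2 : F)⁻¹, ← LinearMap.map_smul, ← map_neg, Algebra.smul_def, map_inv₀, map_ofNat]
      congr 1
      field_simp
      ring
    rw [h4, hlam', mul_zero, neg_zero] at h3
    rw [mul_neg, map_neg, mul_comm, ← h3, neg_zero]
  obtain ⟨ω, hω, hωm⟩ := exists_inX_apply hB hv hvv hX hβ hm0
  obtain ⟨g₂, hg₂, h₂⟩ := hω 1
  have e₂ : ∀ y, g₂ y = y + ω (B y v) • v := fun y => by rw [h₂]; simp
  refine pairI_of_move hB hp (M.mul_mem hg₁ hg₂) (fun l => ?_) hu₀ (fun hm' => ?_) fun y hy => ?_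
  · show g₁ (g₂ (l • v)) = _
    rw [e₂, show B (l • v) v = 0 by simp [hvv], map_zero, zero_smul, add_zero, h₁]
    simp [sieg, hvv, hvb]
  · -- the middle component changes
    have hd : g₁ (g₂ u₀) - u₀ ∈ S := S.sub_mem hm' hu₀
    have e3 : g₁ (g₂ u₀) = u₀ + ω (B u₀ v) • v + (B u₀ v * lam) • b -
        (lam * B u₀ b + lam * lam * B b b * B u₀ v / 2) • v := by
      rw [e₂, h₁]
      simp only [sieg, map_add, map_smul, LinearMap.add_apply, LinearMap.smul_apply, smul_eq_mul, hvv, hvb,
        mul_zero, add_zero]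
      match_scalars <;> ring
    obtain ⟨l, hl⟩ := mem_lineF.1 (hii _ hd (by
      rw [e3]; simp [hvv, hB.symm b v, hvb]))
    have h5 := congrArg (fun z => B z b) hl
    simp [e3, hvb, hβ, hlam, hbb] at h5
  · show Tr (B (g₁ (g₂ u₀)) y) = 0
    have h3 := hΨy ⟨y, hy⟩
    change Tr (lam * B u₀ v * B y b - _ * B y v) = _ at h3
    have e4 : B (g₁ (g₂ u₀)) y = B u₀ y + (lam * B u₀ v * B y b -
        (lam * B u₀ b + lam * lam * B b b * B u₀ v / 2) * B y v) + ω (B u₀ v) * B y v := by
      rw [e₂, h₁]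
      simp only [sieg, map_add, map_sub, map_smul, LinearMap.add_apply, LinearMap.sub_apply,
        LinearMap.smul_apply, smul_eq_mul, hvv, hvb, hB.symm v y, hB.symm b y, mul_zero, add_zero]
      ring
    rw [e4, map_add, map_add, trace_member hB hp hu₀ hy, h3, hωm, neg_mul, map_neg]
    ring

end CfsgLib.C3Max.Orth
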