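import Cfsg.Agent.C3Max.OrthLine

/-!
Root elements of a singular line: an element of the overgroup stabilising the line without acting on it
semilinearly produces them, and they may be brought to rank two.
-/

set_option autoImplicit false
set_option linter.unusedSectionVars false
set_option linter.unusedSimpArgs false
set_option linter.style.haveILetI false

namespace CfsgLib.C3Max.Orth

open Module CfsgLib.FieldExtMax

variable {F L V : Type*} [Field F] [Field L] [Algebra F L] [AddCommGroup V] [Module F V]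
  [Module L V] [IsScalarTower F L V] [Finite L] [IsGalois F L] [FiniteDimensional F L]
  [FiniteDimensional F V] [FiniteDimensional L V]

local notation "Tr" => Algebra.trace F L

/-- The root element `y ↦ y + τ (B y a) • a` lies in `M`, together with its ground multiples. -/
def InX (B : V →ₗ[L] V →ₗ[L] L) (M : Subgroup (V ≃ₗ[F] V)) (a : V) (τ : L →ₗ[F] L) : Prop :=
  ∀ c : F, InM M (rootMap (c • τ) (B.flip a) a)

/-- No root elements at `a`. -/
def RootFree (B : V →ₗ[L] V →ₗ[L] L) (M : Subgroup (V ≃ₗ[F] V)) (a : V) : Prop :=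
  ∀ τ, InX B M a τ → τ = 0

/-- `β ↦ Tr (e β) q - Tr (q β) e`. -/
noncomputable def wedge (e q : L) : L →ₗ[F] L :=
  (Tr ∘ₗ LinearMap.mulLeft F e).smulRight q - (Tr ∘ₗ LinearMap.mulLeft F q).smulRight e

lemma wedge_apply (e q β : L) :
    wedge (F := F) e q β = Tr (e * β) • q - Tr (q * β) • e := rfl

variable {B : V →ₗ[L] V →ₗ[L] L} {M : Subgroup (V ≃ₗ[F] V)} (hB : Over B M)
include hB

section roots

variable {a : V} (haa : B a a = 0)
include haa

lemma inX_add {τ τ' : L →ₗ[F] L} (h : InX B M a τ) (h' : InX B M a τ') : InX B M a (τ + τ') :=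
  fun c => ((h c).add (h' c) fun y => by simp [haa]).congr fun y => by simp [add_smul, smul_add]

omit hB haa in
lemma inX_smul {τ : L →ₗ[F] L} (h : InX B M a τ) (d : F) : InX B M a (d • τ) :=
  fun c => by rw [smul_smul]; exact h _

/-- The action on the dual side of an element stabilising a singular line. -/
lemma exists_adjoint (ha : a ≠ 0) {x : V ≃ₗ[F] V} (hx : x ∈ M) {A : L →ₗ[F] L}
    (hA : ∀ l : L, x (l • a) = A l • a) :
    ∃ T : L →ₗ[F] L, Function.Injective T ∧ (∀ y, B (x.symm y) a = T (B y a)) ∧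
      ∀ l β, Tr (l * T β) = Tr (A l * β) := by
  obtain ⟨e, -, hee, hae⟩ := exists_partner hB (good_top hB) Submodule.mem_top ha haa
  have key : ∀ y l, Tr (l * B (x.symm y) a) = Tr (A l * B y a) := fun y l => by
    rw [← smul_eq_mul, ← smul_eq_mul, ← map_smul, ← map_smul, ← hA]
    have := hB.pres x hx (x.symm y) (l • a)
    rwa [x.apply_symm_apply, eq_comm] at this
  let T : L →ₗ[F] L := ((B.flip a).restrictScalars F) ∘ₗ (x.symm : V →ₗ[F] V) ∘ₗ
    ((LinearMap.toSpanSingleton L V e).restrictScalars F)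
  have hT : ∀ l β, Tr (l * T β) = Tr (A l * β) := fun l β => by
    show Tr (l * B (x.symm (β • e)) a) = _
    rw [key, map_smul, LinearMap.smul_apply, hB.symm e a, hae, smul_eq_mul, mul_one]
  refine ⟨T, (injective_iff_map_eq_zero T).2 fun β hβ => eq_zero_of_trace (F := F) fun m => ?_,
    fun y => eq_of_trace (F := F) fun l => by rw [key, hT], hT⟩
  have hAinj : Function.Injective A := (injective_iff_map_eq_zero A).2 fun l hl => by
    have := hA l
    rw [hl, zero_smul, map_eq_zero_iff x x.injective, smul_eq_zero] at this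
    exact this.resolve_right ha
  obtain ⟨l, rfl⟩ := LinearMap.surjective_of_injective hAinj m
  rw [← hT, hβ, mul_zero, map_zero]

/-- The commutator of a Siegel element with a conjugate of another one by a stabiliser of the line. -/
lemma inX_commutator (ha : a ≠ 0) {x : V ≃ₗ[F] V} (hx : x ∈ M) {A T : L →ₗ[F] L}
    (hA : ∀ l : L, x (l • a) = A l • a) (hTinj : Function.Injective T)
    (hT : ∀ y, B (x.symm y) a = T (B y a)) {b b' : V} (hb : B b a = 0) (hb' : B b' a = 0)
    {τ : L →ₗ[F] L} (hτ : ∀ β, τ β = B (x (T β • b)) b' - A (B (x.symm (β • b')) b)) :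
    InX B M a τ := by
  intro c
  obtain ⟨g₁, hg₁, h₁⟩ := exists_sieg hB haa (a := b) (by rw [hB.symm, hb])
  obtain ⟨g₂, hg₂, h₂⟩ := exists_sieg hB haa (a := (algebraMap F L c) • b') (by simp [hB.symm a b', hb'])
  have hgI : ∀ y, g₁ y = y + B y a • b - (B y b + B b b / 2 * B y a) • a := h₁
  set u := x * g₁ * x⁻¹ with hu
  have huM : u ∈ M := M.mul_mem (M.mul_mem hx hg₁) (M.inv_mem hx)
  have huy : ∀ y, ∃ m : L, u y = y + x (T (B y a) • b) - m • a ∧
      m = A (B (x.symm y) b + B b b / 2 * T (B y a)) := fun y => by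
    refine ⟨_, ?_, rfl⟩
    show x (g₁ (x.symm y)) = _
    rw [hgI, hT, map_sub, map_add, x.apply_symm_apply, hA]
  have hxb : ∀ z : L, B (x (z • b)) a = 0 := fun z => hTinj (by
    rw [← hT, x.symm_apply_apply, map_smul, LinearMap.smul_apply, hb, smul_zero, map_zero])
  have hua : ∀ l : L, u (l • a) = l • a := fun l => by
    obtain ⟨m, hm, hm'⟩ := huy (l • a)
    obtain ⟨l', hl'⟩ : ∃ l' : L, x.symm (l • a) = l' • a := by
      have hAinj : Function.Injective A := (injective_iff_map_eq_zero A).2 fun k hk => by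
        have := hA k
        rw [hk, zero_smul, map_eq_zero_iff x x.injective, smul_eq_zero] at this
        exact this.resolve_right ha
      obtain ⟨l', rfl⟩ := LinearMap.surjective_of_injective hAinj l
      exact ⟨l', by rw [← hA, x.symm_apply_apply]⟩
    rw [hl'] at hm'
    simp [haa, hB.symm a b, hb] at hm hm'
    rw [hm, hm', zero_smul, sub_zero]
  refine ⟨u * g₂ * (g₂ * u)⁻¹, M.mul_mem (M.mul_mem huM hg₂) (M.inv_mem (M.mul_mem hg₂ huM)), fun z => ?_⟩
  obtain ⟨y, rfl⟩ : ∃ y, z = g₂ (u y) :=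
    ⟨(g₂ * u).symm z, ((g₂ * u).apply_symm_apply z).symm⟩
  have hinv : (g₂ * u)⁻¹ (g₂ (u y)) = y := (g₂ * u).symm_apply_apply y
  rw [LinearEquiv.mul_apply, hinv, LinearEquiv.mul_apply, rootMap_apply, LinearMap.smul_apply]
  obtain ⟨m, hm, -⟩ := huy y
  obtain ⟨m', hm', hm''⟩ := huy (B y a • (algebraMap F L c) • b')
  have hβ : B (u y) a = B y a := by rw [hm]; simp [hxb, haa]
  have hz : B (g₂ (u y)) a = B y a := by
    rw [h₂]; simp [sieg, hβ, haa, hb']
  have hg₂u : g₂ (u y) = u y + B y a • (algebraMap F L c) • b' -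
      (B (u y) ((algebraMap F L c) • b') +
        B ((algebraMap F L c) • b') ((algebraMap F L c) • b') / 2 * B y a) • a := by
    rw [h₂, sieg, hβ]
  have hub : u (B y a • (algebraMap F L c) • b') = B y a • (algebraMap F L c) • b' - m' • a := by
    rw [hm', show B (B y a • (algebraMap F L) c • b') a = 0 by simp [hb'],
      map_zero, zero_smul, map_zero, add_zero]
  have huyb : B (u y) ((algebraMap F L c) • b') = B y ((algebraMap F L c) • b')
      + algebraMap F L c * B (x (T (B y a) • b)) b' := by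
    rw [hm]; simp [hB.symm a b', hb', mul_add, Algebra.smul_def]
  have hm3 : m' = c • A (B (x.symm (B y a • b')) b) := by
    rw [hm'', show B (B y a • (algebraMap F L) c • b') a = 0 by simp [hb'], map_zero, mul_zero, add_zero,
      show B y a • (algebraMap F L) c • b' = c • (B y a • b') by rw [algebraMap_smul, smul_comm],
      LinearEquiv.map_smul, LinearMap.map_smul_of_tower, LinearMap.smul_apply, LinearMap.map_smul]
  change u (g₂ y) = g₂ (u y) + _
  rw [LinearMap.flip_apply, hz, hg₂u, h₂, sieg, map_sub, map_add, hua, hub, hτ, hm3, huyb]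
  match_scalars <;> simp [Algebra.smul_def] <;> ring

/-- Without root elements a stabiliser of the line is semilinear on it. -/
lemma exists_twist (ha : a ≠ 0) (hX : RootFree B M a) {x : V ≃ₗ[F] V} (hx : x ∈ M) {A : L →ₗ[F] L}
    (hA : ∀ l : L, x (l • a) = A l • a) : ∃ ψ : L → L, ∀ z l, A (ψ z * l) = z * A l := by
  obtain ⟨T, hTinj, hT, hTr⟩ := exists_adjoint hB haa ha hx hA
  obtain ⟨e, -, hee, hae⟩ := exists_partner hB (good_top hB) Submodule.mem_top ha haa
  obtain ⟨b, hb, hbb⟩ := exists_aniso hB (good_perp₂ hB haa hee hae).1 (perp₂_ne_bot hB haa hee hae)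
  have hba : B b a = 0 := (mem_perp₂.1 hb).1
  have key : ∀ κ : L, ∀ b', B b' a = 0 → ∀ β, B (x ((T β * κ) • b)) b' = β * B (x ((T 1 * κ) • b)) b' := by
    intro κ b' hb' β
    let Θ : V → L →ₗ[F] L := fun w => ((B.flip w).restrictScalars F) ∘ₗ (x : V →ₗ[F] V) ∘ₗ
      ((LinearMap.toSpanSingleton L V (κ • b)).restrictScalars F) ∘ₗ T
    have hΘ : ∀ w β, Θ w β = B (x (T β • κ • b)) w := fun w β => rfl
    have hsym : ∀ μ : L, ∀ γ δ, Tr (γ * Θ (μ • b') δ) = Tr (δ * Θ (μ • b') γ) := by
      intro μ γ δ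
      let Θ' : L →ₗ[F] L := A ∘ₗ ((B.flip (κ • b)).restrictScalars F) ∘ₗ (x.symm : V →ₗ[F] V) ∘ₗ
        ((LinearMap.toSpanSingleton L V (μ • b')).restrictScalars F)
      have h0 := hX _ (inX_commutator hB haa ha hx hA hTinj hT (b := κ • b) (b' := μ • b') (by simp [hba])
        (by simp [hb']) (τ := Θ (μ • b') - Θ') fun β => rfl)
      rw [show Θ (μ • b') δ = Θ' δ from LinearMap.congr_fun (sub_eq_zero.1 h0) δ]
      show Tr (γ * A (B (x.symm (δ • μ • b')) (κ • b))) = _
      rw [mul_comm γ, ← hTr, hΘ, mul_comm (B _ _) (T γ), ← smul_eq_mul, ← map_smul,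
        ← hB.pres x hx, x.apply_symm_apply, map_smul B δ, LinearMap.smul_apply, smul_eq_mul,
        hB.symm (μ • b')]
    have h1 : Θ b' β = β * Θ b' 1 := eq_of_trace (F := F) fun μ => by
      have := hsym μ 1 β
      rw [hΘ, hΘ, LinearMap.map_smul (B (x (T β • κ • b))), LinearMap.map_smul (B (x (T (1 : L) • κ • b))),
        one_mul, smul_eq_mul, smul_eq_mul] at this
      rw [hΘ, hΘ, this]; ring_nf
    simpa [hΘ, mul_smul] using h1
  have hcancel : ∀ z z' : L, (∀ b', B b' a = 0 → B (x (z • b)) b' = B (x (z' • b)) b') → z = z' := by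
    intro z z' h
    by_contra hne
    set w := x ((z - z') • b) with hw
    have hw' : ∀ b', B b' a = 0 → B w b' = 0 := fun b' hb' => by
      rw [hw, sub_smul, map_sub, map_sub, LinearMap.sub_apply, h b' hb', sub_self]
    -- so `w` is a multiple of `a`
    have hwa : w = B w e • a := by
      by_contra h'
      obtain ⟨t, ht⟩ := hB.nondeg (w - B w e • a) (sub_ne_zero.2 h')
      refine ht ?_
      have h2 := hw' (t - B t a • e) (by simp [hB.symm e a, hae])
      simp only [map_sub, map_smul, smul_eq_mul] at h2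
      simp only [map_sub, map_smul, LinearMap.sub_apply, LinearMap.smul_apply, smul_eq_mul, hB.symm a t]
      linear_combination h2
    have hAinj : Function.Injective A := (injective_iff_map_eq_zero A).2 fun k hk => by
      have := hA k
      rw [hk, zero_smul, map_eq_zero_iff x x.injective, smul_eq_zero] at this
      exact this.resolve_right ha
    obtain ⟨l, hl⟩ := LinearMap.surjective_of_injective hAinj (B w e)
    rw [← hl, ← hA, hw] at hwa
    have h3 := congrArg (fun y => B y b) (x.injective hwa)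
    simp [hB.symm a b, hba, hbb, sub_eq_zero, hne] at h3
  have hmul : ∀ β γ, T (β * γ) * T 1 = T β * T γ := fun β γ => hcancel _ _ fun b' hb' => by
    rw [key _ b' hb' (β * γ), key (T γ) b' hb' β, mul_comm (T 1) (T γ), key (T 1) b' hb' γ, mul_assoc]
  have hT1 : T 1 ≠ 0 := fun h => one_ne_zero (hTinj (h.trans T.map_zero.symm))
  refine ⟨fun z => T z / T 1, fun z l => eq_of_trace (F := F) fun β => ?_⟩
  have hz : T z / T 1 * l * T β = l * T (z * β) := by
    rw [div_mul_eq_mul_div, div_mul_eq_mul_div, div_eq_iff hT1]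
    linear_combination (-l) * hmul z β
  rw [mul_comm β, ← hTr, mul_comm β, mul_right_comm z, mul_comm (z * β), ← hTr, hz]

end roots

omit hB in
/-- A twisted map with two eigenvectors for one eigenvalue is a scalar. -/
lemma eq_scalar_of_twist (hr : (finrank F L).Prime) {A : L →ₗ[F] L} (hinj : Function.Injective A)
    {ψ : L → L} (hψ : ∀ z l, A (ψ z * l) = z * A l) {ε : F} {h₁ h₂ : L} (h1 : A h₁ = ε • h₁)
    (h2 : A h₂ = ε • h₂) (h₁0 : h₁ ≠ 0) (hind : h₂ ∉ F ∙ h₁) (l : L) : A l = ε • l := by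
  set z := h₂ * h₁⁻¹ with hz
  have hzF : z ∉ (algebraMap F L).range := by
    rintro ⟨c, hc⟩
    exact hind (Submodule.mem_span_singleton.2 ⟨c, by
      rw [Algebra.smul_def, hc, hz, inv_mul_cancel_right₀ h₁0]⟩)
  have hψz : ψ z = z := mul_right_cancel₀ h₁0 (hinj (by
    rw [hψ, h1, mul_smul_comm, hz, inv_mul_cancel_right₀ h₁0, h2]))
  have hc := eq_mul_of_commute hr hzF (T := A) fun y => by
    conv_lhs => rw [← hψz]
    exact hψ z y
  have hA1 : A 1 = ε • (1 : L) := mul_left_cancel₀ h₁0 (by rw [← hc, h1, mul_smul_comm, mul_one])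
  rw [hc, hA1, mul_smul_comm, mul_one]

/-- Root elements are moved to every other singular line. -/
lemma exists_inX_of {a a' : V} (ha : a ≠ 0) (haa : B a a = 0) (ha' : a' ≠ 0) (ha'a : B a' a' = 0)
    (h : ∃ τ, τ ≠ 0 ∧ InX B M a τ) : ∃ τ, τ ≠ 0 ∧ InX B M a' τ := by
  obtain ⟨τ, hτ, hX⟩ := h
  obtain ⟨c, hc, g, hg, hga, hgl, hgB⟩ := moves_line hB ha haa ha' ha'a
  refine ⟨LinearMap.mulLeft F c ∘ₗ τ ∘ₗ LinearMap.mulLeft F c, fun h0 => hτ (LinearMap.ext fun β => ?_),
    fun d => ((hX d).conj hg).congr fun y => ?_⟩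
  · have := LinearMap.congr_fun h0 (c⁻¹ * β)
    simpa [hc] using this
  · change (d • (c * τ (c * B y a'))) • a' = g (((d • τ) (B (g.symm y) a)) • a)
    have e : B (g.symm y) a = c * B y a' := by
      have := hgB (g.symm y) a
      rw [g.apply_symm_apply, hga, map_smul, smul_eq_mul] at this
      exact this.symm
    rw [hgl, hga, smul_smul, e, LinearMap.smul_apply, smul_mul_assoc, mul_comm c (τ _)]

/-- The root elements at a line are closed under scaling. -/
lemma inX_scale {a : V} (ha : a ≠ 0) (haa : B a a = 0) {τ : L →ₗ[F] L} (h : InX B M a τ) (l : L) :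
    InX B M a (LinearMap.mulLeft F l ∘ₗ τ ∘ₗ LinearMap.mulLeft F l) := by
  rcases eq_or_ne l 0 with rfl | hl
  · intro d
    exact InM.zero.congr fun y => by simp
  obtain ⟨f, hf, g, hg, hga, hgl, hgB⟩ := moves_scal hB ha haa hl
  intro d
  refine ((h (d * (f * f)⁻¹)).conj hg).congr fun y => ?_
  change (d • (l * τ (l * B y a))) • a = g (((d * (f * f)⁻¹) • τ) (B (g.symm y) a) • a)
  have e : B (g.symm y) a = f • (l * B y a) := by
    have := hgB (g.symm y) a
    rw [g.apply_symm_apply, hga, map_smul, smul_eq_mul, smul_mul_assoc] at this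
    exact this.symm
  rw [hgl, hga, smul_smul, e, LinearMap.smul_apply, map_smul, smul_smul]
  congr 1
  rw [smul_mul_assoc, mul_smul_comm, smul_smul, mul_comm l]
  congr 1
  field_simp

omit hB in
/-- Root elements in an orthogonal group come from skew maps. -/
lemma inX_skew (hB : Over B M) {a : V} (ha : a ≠ 0) (haa : B a a = 0) {τ : L →ₗ[F] L} (h : InX B M a τ)
    (β γ : L) : Tr (β * τ γ) = -Tr (γ * τ β) := by
  obtain ⟨e, -, hee, hae⟩ := exists_partner hB (good_top hB) Submodule.mem_top ha haa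
  obtain ⟨g, hg, hgy⟩ := h 1
  have h1 := hB.pres g hg (β • e) (γ • e)
  simp only [hgy, rootMap_apply, one_smul, map_add, map_smul, LinearMap.add_apply, LinearMap.smul_apply,
    LinearMap.flip_apply, smul_eq_mul, hee, haa, hae, hB.symm e a, mul_one, mul_zero, zero_add, add_zero] at h1
  simp at h1
  rw [mul_comm β]
  linear_combination h1

/-- The root elements at a line, applied to `β`, fill its perpendicular. -/
lemma exists_inX_apply {a : V} (ha : a ≠ 0) (haa : B a a = 0) (hX : ¬ RootFree B M a) {β m : L}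
    (hβ : β ≠ 0) (hm : Tr (β * m) = 0) : ∃ τ, InX B M a τ ∧ τ β = m := by
  classical
  let I : Submodule F L :=
    { carrier := {z | ∃ τ, InX B M a τ ∧ τ β = z}
      zero_mem' := ⟨0, fun c => InM.zero.congr fun y => by simp, rfl⟩
      add_mem' := by
        rintro _ _ ⟨τ, h, rfl⟩ ⟨τ', h', rfl⟩
        exact ⟨τ + τ', inX_add hB haa h h', rfl⟩
      smul_mem' := by
        rintro c _ ⟨τ, h, rfl⟩
        exact ⟨c • τ, inX_smul h c, rfl⟩ }
  suffices m ∈ I from this
  by_contra hmI
  obtain ⟨Ψ, hΨ, hker⟩ := Submodule.exists_le_ker_of_notMem hmI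
  obtain ⟨d, hd⟩ := exists_trace_eq Ψ
  refine hX fun τ hτ => ?_
  let ω : L →ₗ[F] L →ₗ[F] F := (LinearMap.mul F L).compl₂ τ |>.compr₂ Tr
  have hω : ω = 0 := by
    refine eq_zero_of_vanish hB.prime ω (fun z => ?_) (x := β) (y := d) (fun hdβ => hΨ ?_) hβ fun l => ?_
    · show Tr (z * τ z) = 0
      have h2 := inX_skew hB ha haa hτ z z
      exact (mul_eq_zero.1 (show (2 : F) * Tr (z * τ z) = 0 by linear_combination h2)).resolve_left hB.two
    · obtain ⟨c, hc⟩ := Submodule.mem_span_singleton.1 hdβ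
      rw [hd, ← hc, smul_mul_assoc, map_smul, hm, smul_zero]
    · show Tr (l * β * τ (l * d)) = 0
      have h2 : Tr (d * (l * τ (l * β))) = 0 := by
        rw [← hd]
        exact LinearMap.mem_ker.1 (hker ⟨_, inX_scale hB ha haa hτ l, rfl⟩)
      rw [inX_skew hB ha haa hτ, show l * d * τ (l * β) = d * (l * τ (l * β)) by ring, h2, neg_zero]
  refine LinearMap.ext fun z => eq_zero_of_trace (F := F) fun l => ?_
  exact congrFun (congrArg (fun w => fun y => w l y) hω) z

variable {a : V} (ha : a ≠ 0) (haa : B a a = 0)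
include ha haa

/-- A transvection on a singular line gives root elements. -/
lemma not_rootFree_of_transv {x : V ≃ₗ[F] V} (hx : x ∈ M) {φ : L →ₗ[F] F} {e : L} (hφ : φ ≠ 0)
    (he : e ≠ 0) (hφe : φ e = 0) (hxa : ∀ l : L, x (l • a) = (l + φ l • e) • a) :
    ¬ RootFree B M a := by
  intro hX
  set A : L →ₗ[F] L := LinearMap.id + φ.smulRight e
  obtain ⟨ψ, hψ⟩ := exists_twist hB haa ha hX hx (A := A) hxa
  have hinj : Function.Injective A := (injective_iff_map_eq_zero A).2 fun l hl => by
    change l + φ l • e = 0 at hl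
    have h1 := congrArg φ hl
    rw [map_add, map_smul, hφe, smul_zero, add_zero, map_zero] at h1
    rwa [h1, zero_smul, add_zero] at hl
  have hfix : ∀ l, φ l = 0 → A l = (1 : F) • l := fun l hl => by simp [A, hl]
  obtain ⟨p, hp⟩ := exists_trace_eq φ
  by_cases h3 : 3 ≤ finrank F L
  · obtain ⟨q, hq, hqe⟩ := exists_ker_not_mem_span h3 p e
    refine hφ (LinearMap.ext fun l => ?_)
    have h := eq_scalar_of_twist hB.prime hinj hψ (hfix e hφe) (hfix q (by rw [hp, hq])) he hqe l
    rw [one_smul] at h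
    change l + φ l • e = l at h
    simpa [he] using h
  · have hr2 : finrank F L = 2 := by have := hB.prime.two_le; omega
    -- in degree two compare the squares
    obtain ⟨z, hz⟩ : ∃ z : L, φ (z * e) ≠ 0 := by
      by_contra! h
      exact hφ (LinearMap.ext fun l => by simpa [he] using h (l * e⁻¹))
    have hzF : z ∉ (algebraMap F L).range := by
      rintro ⟨c, rfl⟩
      exact hz (by rw [← Algebra.smul_def, map_smul, hφe, smul_zero])
    have hψz : ψ z * e = z * e - φ (z * e) • e := hinj (by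
      rw [hψ, show A e = e by simp [A, hφe]]
      change _ = z * e - φ (z * e) • e + φ (z * e - φ (z * e) • e) • e
      rw [map_sub, map_smul, hφe, smul_zero, sub_zero, sub_add_cancel])
    have hψz' : ψ z = z - algebraMap F L (φ (z * e)) := mul_right_cancel₀ he (by
      rw [hψz, sub_mul, Algebra.smul_def])
    -- the square of `z` is a combination of `1` and `z`
    obtain ⟨u, w, huw⟩ : ∃ u w : F, z * z = u • (1 : L) + w • z := by
      have hmem : z * z ∈ F ∙ (1 : L) ⊔ F ∙ z := by
        have hlt : F ∙ (1 : L) < F ∙ (1 : L) ⊔ F ∙ z := lt_of_le_of_ne le_sup_left fun h => hzF (by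
          obtain ⟨c, hc⟩ := Submodule.mem_span_singleton.1
            (h ▸ Submodule.mem_sup_right (Submodule.mem_span_singleton_self z) : z ∈ F ∙ (1 : L))
          exact ⟨c, by rw [← hc, Algebra.smul_def, mul_one]⟩)
        have h1 := Submodule.finrank_lt_finrank_of_lt hlt
        rw [finrank_span_singleton (one_ne_zero : (1 : L) ≠ 0)] at h1
        rw [Submodule.eq_top_of_finrank_eq (S := F ∙ (1 : L) ⊔ F ∙ z) (le_antisymm (Submodule.finrank_le _)
          (by omega))]
        exact Submodule.mem_top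
      obtain ⟨_, hu, _, hw, he'⟩ := Submodule.mem_sup.1 hmem
      obtain ⟨u, rfl⟩ := Submodule.mem_span_singleton.1 hu
      obtain ⟨w, rfl⟩ := Submodule.mem_span_singleton.1 hw
      exact ⟨u, w, he'.symm⟩
    set f := φ (z * e) with hf
    have hAe : A e = e := by simp [A, hφe]
    have hAze : A (z * e) = z * e + f • e := rfl
    -- apply the twist twice
    have h4 : A (ψ z * (ψ z * e)) = z * (z * e) := by rw [hψ, hψ, hAe]
    have h5 : ψ z * (ψ z * e) = (u + f * f) • e + (w - 2 * f) • (z * e) := by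
      rw [hψz', add_smul, sub_smul]
      simp only [Algebra.smul_def, map_mul, map_ofNat, mul_one] at huw ⊢
      linear_combination e * huw
    rw [h5, map_add, map_smul, map_smul, hAe, hAze, ← mul_assoc, huw] at h4
    have h6 : (algebraMap F L (w * f - f * f) - algebraMap F L (2 * f) * z) * e = 0 := by
      simp only [Algebra.smul_def, map_mul, map_add, map_sub, map_ofNat, mul_one] at h4 ⊢
      linear_combination h4
    have h7 := (mul_eq_zero.1 h6).resolve_right he
    have h2f : (2 : F) * f ≠ 0 := mul_ne_zero hB.two hz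
    refine hzF ⟨(w * f - f * f) / (2 * f), ?_⟩
    rw [map_div₀, div_eq_iff (by simpa using h2f)]
    linear_combination h7

/-- A root element of rank two. -/
lemma exists_wedge {x : V ≃ₗ[F] V} (hx : x ∈ M) {φ : L →ₗ[F] F} {e : L} (hφ : φ ≠ 0)
    (he : e ≠ 0) (hφe : φ e = 0) (hxa : ∀ l : L, x (l • a) = (l + φ l • e) • a) :
    ∃ e q : L, e ≠ 0 ∧ q ∉ F ∙ e ∧ InX B M a (wedge e q) := by
  have hX := not_rootFree_of_transv hB ha haa hx hφ he hφe hxa
  obtain ⟨τ, hτ, hτ0⟩ : ∃ τ, InX B M a τ ∧ τ ≠ 0 := by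
    unfold RootFree at hX
    push Not at hX
    exact hX
  have hsk := inX_skew hB ha haa hτ
  have hdiag : ∀ z, Tr (z * τ z) = 0 := fun z =>
    (mul_eq_zero.1 (show (2 : F) * Tr (z * τ z) = 0 by linear_combination hsk z z)).resolve_left hB.two
  by_cases h3 : 3 ≤ finrank F L
  · obtain ⟨p, hp⟩ := exists_trace_eq φ
    have hp0 : p ≠ 0 := fun h => hφ (LinearMap.ext fun l => by simp [hp, h])
    obtain ⟨l, hl⟩ : ∃ l : L, l * τ (l * p) ∉ F ∙ e := by
      by_contra! hall
      obtain ⟨d, hd, hdp⟩ := exists_ker_not_mem_span h3 e p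
      let ω : L →ₗ[F] L →ₗ[F] F := (LinearMap.mul F L).compl₂ τ |>.compr₂ Tr
      have hω : ω = 0 := eq_zero_of_vanish hB.prime ω hdiag hdp hp0 fun l => by
        show Tr (l * p * τ (l * d)) = 0
        obtain ⟨c, hc⟩ := Submodule.mem_span_singleton.1 (hall l)
        rw [hsk, show l * d * τ (l * p) = d * (l * τ (l * p)) by ring, ← hc, mul_smul_comm, map_smul,
          mul_comm d, hd, smul_zero, neg_zero]
      exact hτ0 (LinearMap.ext fun z => eq_zero_of_trace (F := F) fun k =>
        congrFun (congrArg (fun w => fun y => w k y) hω) z)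
    set σ := LinearMap.mulLeft F l ∘ₗ τ ∘ₗ LinearMap.mulLeft F l with hσdef
    have hσ : InX B M a σ := inX_scale hB ha haa hτ l
    have hσsk := inX_skew hB ha haa hσ
    refine ⟨e, σ p, he, hl, ?_⟩
    set A : L →ₗ[F] L := LinearMap.id + φ.smulRight e
    obtain ⟨T, hTinj, hT, hTr⟩ := exists_adjoint hB haa ha hx (A := A) hxa
    have hTy : ∀ β, T β = β + Tr (e * β) • p := fun β => eq_of_trace (F := F) fun k => by
      rw [hTr]
      show Tr ((k + φ k • e) * β) = _
      rw [hp, mul_add, map_add, trace_smul_mul, add_mul, map_add, smul_mul_assoc, map_smul, smul_eq_mul,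
        mul_comm k p]
      ring
    have hconj : InX B M a (A ∘ₗ σ ∘ₗ T) := fun c => ((hσ c).conj hx).congr fun y => by
      change (c • A (σ (T (B y a)))) • a = x ((c • σ (B (x.symm y) a)) • a)
      rw [hT, hxa, ← map_smul A c]
      rfl
    have h := inX_add hB haa hconj (inX_smul hσ (-1))
    rwa [show A ∘ₗ σ ∘ₗ T + (-1 : F) • σ = wedge e (σ p) from LinearMap.ext fun β => by
      show σ (T β) + φ (σ (T β)) • e + (-1 : F) • σ β = Tr (e * β) • σ p - Tr (σ p * β) • e
      have h1 : Tr (p * σ p) = 0 := by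
        have := hσsk p p
        exact (mul_eq_zero.1 (show (2 : F) * Tr (p * σ p) = 0 by linear_combination this)).resolve_left hB.two
      rw [hTy, map_add, map_smul, hp, mul_add, map_add, trace_smul_mul, h1, hσsk p β, mul_comm β,
        mul_zero, add_zero]
      module] at h
  · have hr2 : finrank F L = 2 := by have := hB.prime.two_le; omega
    obtain ⟨ξ, hξ, hξ0⟩ : ∃ ξ : L, Tr ξ = 0 ∧ ξ ≠ 0 := by
      by_contra! hc
      have h1 := LinearMap.finrank_range_add_finrank_ker (Algebra.trace F L)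
      rw [show LinearMap.ker (Algebra.trace F L) = ⊥ from (Submodule.eq_bot_iff _).2 fun z hz => hc z hz,
        finrank_bot, add_zero] at h1
      have h2 := Submodule.finrank_le (LinearMap.range (Algebra.trace F L))
      rw [finrank_self] at h2
      omega
    have htr1 : Tr (1 : L) = 2 := by
      rw [← map_one (algebraMap F L), Algebra.trace_algebraMap, hr2]; simp
    have hξ1 : ξ ∉ F ∙ (1 : L) := fun h => by
      obtain ⟨c, rfl⟩ := Submodule.mem_span_singleton.1 h
      rw [map_smul, htr1, smul_eq_mul, mul_eq_zero, or_iff_left hB.two] at hξ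
      exact hξ0 (by rw [hξ, zero_smul])
    have htop : F ∙ (1 : L) ⊔ F ∙ ξ = ⊤ := by
      have hlt : F ∙ (1 : L) < F ∙ (1 : L) ⊔ F ∙ ξ := lt_of_le_of_ne le_sup_left fun h =>
        hξ1 (h ▸ Submodule.mem_sup_right (Submodule.mem_span_singleton_self ξ))
      have h1 := Submodule.finrank_lt_finrank_of_lt hlt
      rw [finrank_span_singleton (one_ne_zero : (1 : L) ≠ 0)] at h1
      exact Submodule.eq_top_of_finrank_eq (le_antisymm (Submodule.finrank_le _) (by omega))
    have hdec : ∀ z : L, ∃ u w : F, z = u • (1 : L) + w • ξ := fun z => by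
      obtain ⟨_, hu, _, hw, he'⟩ := Submodule.mem_sup.1 (htop.symm ▸ Submodule.mem_top : z ∈ F ∙ (1 : L) ⊔ F ∙ ξ)
      obtain ⟨u, rfl⟩ := Submodule.mem_span_singleton.1 hu
      obtain ⟨w, rfl⟩ := Submodule.mem_span_singleton.1 hw
      exact ⟨u, w, he'.symm⟩
    have hξξ : Tr (ξ * ξ) ≠ 0 := fun h => hξ0 (eq_zero_of_trace (F := F) fun z => by
      obtain ⟨u, w, rfl⟩ := hdec z
      simp [add_mul, hξ, h])
    refine ⟨1, ξ, one_ne_zero, hξ1, ?_⟩
    set d := Tr (1 * τ ξ) / (Tr (1 * wedge (F := F) 1 ξ ξ)) with hd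
    have hval : Tr (1 * wedge (F := F) 1 ξ ξ) = -(2 * Tr (ξ * ξ)) := by
      simp [wedge_apply, hξ, htr1, mul_comm]
    have hd0 : Tr (1 * wedge (F := F) 1 ξ ξ) ≠ 0 := by
      rw [hval]; exact neg_ne_zero.2 (mul_ne_zero hB.two hξξ)
    have hwsk : ∀ β γ, Tr (β * wedge (F := F) 1 ξ γ) = -Tr (γ * wedge (F := F) 1 ξ β) := fun β γ => by
      simp only [wedge_apply, mul_sub, mul_smul_comm, map_sub, map_smul, smul_eq_mul, mul_one, one_mul]
      rw [mul_comm β ξ, mul_comm γ ξ]
      ring
    have hτd : τ = d • wedge 1 ξ := by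
      have key : ∀ β γ, Tr (β * τ γ) = d * Tr (β * wedge (F := F) 1 ξ γ) := by
        have h11 := hdiag 1
        have hξd := hdiag ξ
        have hw11 : Tr (1 * wedge (F := F) 1 ξ 1) = 0 :=
          (mul_eq_zero.1 (show (2 : F) * _ = 0 by linear_combination hwsk 1 1)).resolve_left hB.two
        have hwξ : Tr (ξ * wedge (F := F) 1 ξ ξ) = 0 :=
          (mul_eq_zero.1 (show (2 : F) * _ = 0 by linear_combination hwsk ξ ξ)).resolve_left hB.two
        have h1ξ : Tr (1 * τ ξ) = d * Tr (1 * wedge (F := F) 1 ξ ξ) := (div_mul_cancel₀ _ hd0).symm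
        intro β γ
        obtain ⟨u, w, rfl⟩ := hdec β
        obtain ⟨u', w', rfl⟩ := hdec γ
        simp only [map_add, map_smul, add_mul, mul_add, smul_mul_assoc, mul_smul_comm, smul_eq_mul, h11,
          hξd, hw11, hwξ, hsk ξ 1, hwsk ξ 1, h1ξ]
        ring
      refine LinearMap.ext fun γ => eq_of_trace (F := F) fun β => ?_
      rw [key, LinearMap.smul_apply, trace_smul_mul]
    have hd' : d ≠ 0 := fun h => hτ0 (by rw [hτd, h, zero_smul])
    intro c
    have := hτ (c * d⁻¹)
    rwa [hτd, smul_smul, inv_mul_cancel_right₀ hd'] at this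

end CfsgLib.C3Max.Orth
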