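import Cfsg.Agent.C3Max.OrthRoot

/-!
Products of two reflections in vectors of a translated singular line force root elements.
-/

set_option autoImplicit false
set_option linter.unusedSectionVars false
set_option linter.unusedSimpArgs false
set_option linter.style.haveILetI false

namespace CfsgLib.C3Max.Orth

open Module CfsgLib.FieldExtMax

variable {F L V : Type*} [Field F] [Field L] [Algebra F L] [AddCommGroup V] [Module F V]
  [Module L V] [IsScalarTower F L V] [Finite L] [IsGalois F L] [FiniteDimensional F L]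
  [FiniteDimensional F V] [FiniteDimensional L V]

local notation "Tr" => Algebra.trace F L

variable {B : V →ₗ[L] V →ₗ[L] L} {M : Subgroup (V ≃ₗ[F] V)} (hB : Over B M)
include hB

/-- The `F`-action on a stabilised line as a linear map. -/
lemma exists_action {a : V} (ha : a ≠ 0) (haa : B a a = 0) {x : V ≃ₗ[F] V}
    (hx : ∀ l : L, x (l • a) ∈ lineF L a (F := F)) :
    ∃ A : L →ₗ[F] L, ∀ l : L, x (l • a) = A l • a := by
  obtain ⟨e, -, hee, hae⟩ := exists_partner hB (good_top hB) Submodule.mem_top ha haa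
  refine ⟨((B.flip e).restrictScalars F) ∘ₗ (x : V →ₗ[F] V) ∘ₗ
    ((LinearMap.toSpanSingleton L V a).restrictScalars F), fun l => ?_⟩
  obtain ⟨m, hm⟩ := mem_lineF.1 (hx l)
  show x (l • a) = B (x (l • a)) e • a
  rw [← hm]; simp [hae]

/-- Two orthogonal non-singular vectors of a member meeting its line in the ground field give root elements,
unless the member is orthogonal to the third vector of the basis. -/
lemma not_rootFree_of_signs (hs : finrank L V = 3) {h : V ≃ₗ[F] V} {v x₀ : V}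
    (hp : IsMaxPair L (fun x => B x x = 0) M h v x₀) (hk : meetDim L h v x₀ ≤ 1) {u₁ u₂ u₃ : V}
    (hu₁ : u₁ ∈ (lineF L x₀).map (h : V →ₗ[F] V)) (hu₂ : u₂ ∈ (lineF L x₀).map (h : V →ₗ[F] V))
    (h₁₁ : B u₁ u₁ ≠ 0) (h₂₂ : B u₂ u₂ ≠ 0) (h₃₃ : B u₃ u₃ ≠ 0) (h₂₁ : B u₂ u₁ = 0) (h₃₁ : B u₃ u₁ = 0)
    (h₃₂ : B u₃ u₂ = 0) :
    ¬ RootFree B M x₀ ∨ ∀ y ∈ (lineF L x₀).map (h : V →ₗ[F] V), B y u₃ = 0 := by
  have h2 := two_ne hB
  obtain ⟨⟨hh, hvv, hxx, hv, hx, hvS, hSne⟩, hmax⟩ := hp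
  have hp : IsMaxPair L (fun x => B x x = 0) M h v x₀ := ⟨⟨hh, hvv, hxx, hv, hx, hvS, hSne⟩, hmax⟩
  replace hxx : B x₀ x₀ = 0 := hxx
  set S := (lineF L x₀).map (h : V →ₗ[F] V) with hS
  have h₁₂ : B u₁ u₂ = 0 := by rw [hB.symm]; exact h₂₁
  have hu₂0 : u₂ ≠ 0 := fun h0 => h₂₂ (by simp [h0])
  -- the signs of an element of the overgroup
  suffices hkey : ∀ (R : V ≃ₗ[F] V) (ε₁ ε₂ : F), R ∈ M → (ε₁ = 1 ∨ ε₁ = -1) → (ε₂ = 1 ∨ ε₂ = -1) →
      R u₁ = ε₁ • u₁ → R u₂ = ε₂ • u₂ → (∀ y, R (R y) = y) →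
      (ε₁ ≠ ε₂ ∨ ∃ y ∈ S, R y ≠ ε₁ • y) → ¬ RootFree B M x₀ by
    have hneg : ∀ {a y : V}, B a a ≠ 0 → (y = a) → refl B a y = (-1 : F) • y := fun ha hy => by
      rw [hy, refl_self hB ha, neg_one_smul]
    have hinv : ∀ {a a' : V}, B a a ≠ 0 → B a' a' ≠ 0 → B a' a = 0 → ∀ y,
        refl B a (refl B a' (refl B a (refl B a' y))) = y := fun {a a'} ha ha' haa' y => by
      have hc : ∀ z, refl B a' (refl B a z) = refl B a (refl B a' z) := fun z => by
        simp only [refl, map_sub, map_smul, LinearMap.sub_apply, LinearMap.smul_apply, smul_eq_mul,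
          hB.symm a a', haa']
        module
      rw [hc, refl_refl hB ha, refl_refl hB ha']
    rcases hB.pair u₂ u₃ u₁ u₃ h₂₂ h₃₃ h₁₁ h₃₃ with ⟨R, hR, hy⟩ | ⟨R, hR, hy⟩ | ⟨R, hR, hy⟩
    · refine Or.inl (hkey R 1 (-1) hR (Or.inl rfl) (Or.inr rfl) ?_ ?_ ?_ (Or.inl fun h' => hB.two ?_))
      · rw [hy, refl_orth hB (show B u₁ u₃ = 0 by rw [hB.symm, h₃₁]), refl_orth hB h₁₂, one_smul]
      · rw [hy, refl_orth hB (show B u₂ u₃ = 0 by rw [hB.symm, h₃₂]), refl_self hB h₂₂, neg_one_smul]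
      · intro y; rw [hy, hy]; exact hinv h₂₂ h₃₃ h₃₂ y
      · linear_combination h'
    · refine Or.inl (hkey R (-1) 1 hR (Or.inr rfl) (Or.inl rfl) ?_ ?_ ?_ (Or.inl fun h' => hB.two ?_))
      · rw [hy, refl_orth hB (show B u₁ u₃ = 0 by rw [hB.symm, h₃₁]), refl_self hB h₁₁, neg_one_smul]
      · rw [hy, refl_orth hB (show B u₂ u₃ = 0 by rw [hB.symm, h₃₂]), refl_orth hB h₂₁, one_smul]
      · intro y; rw [hy, hy]; exact hinv h₁₁ h₃₃ h₃₁ y
      · linear_combination -h'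
    · have hc : ∀ y, R y = refl B u₂ (refl B u₁ y) := fun y => by
        rw [hy]
        congr 1
        have : ∀ z, refl B u₁ (refl B u₃ z) = refl B u₃ (refl B u₁ z) := fun z => by
          simp only [refl, map_sub, map_smul, LinearMap.sub_apply, LinearMap.smul_apply, smul_eq_mul,
            hB.symm u₁ u₃, h₃₁]
          module
        rw [this, refl_refl hB h₃₃]
      by_cases hall : ∀ y ∈ S, R y = (-1 : F) • y
      · refine Or.inr fun y hy' => ?_
        have h3 : B (R y) u₃ = B y u₃ := by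
          rw [hc]
          simp [refl, hB.symm u₂ u₃, h₃₂, hB.symm u₁ u₃, h₃₁]
        rw [hall y hy', neg_one_smul, map_neg, LinearMap.neg_apply] at h3
        exact (mul_eq_zero.1 (show (2 : L) * B y u₃ = 0 by linear_combination -h3)).resolve_left h2
      · push Not at hall
        refine Or.inl (hkey R (-1) (-1) hR (Or.inr rfl) (Or.inr rfl) ?_ ?_ ?_ (Or.inr hall))
        · rw [hc, refl_self hB h₁₁, ← neg_one_smul L u₁, refl_smul hB, refl_orth hB h₁₂, neg_one_smul,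
            neg_one_smul]
        · rw [hc, refl_orth hB h₂₁, refl_self hB h₂₂, neg_one_smul]
        · intro y; rw [hc, hc]; exact hinv h₂₂ h₁₁ h₁₂ y
  intro R ε₁ ε₂ hR hε₁ hε₂ e₁ e₂ hinv hns hX
  have hunit : ∀ {ε : F}, ε = 1 ∨ ε = -1 → ε * ε = 1 := fun hε => by rcases hε with rfl | rfl <;> ring
  -- the member is stable
  have hst : ∀ y ∈ S, R y ∈ S := by
    by_cases heq : S.map (R : V →ₗ[F] V) = S
    · exact fun y hy => heq ▸ ⟨y, hy, rfl⟩
    exfalso
    have hmem : ∀ {u : V} {ε : F}, u ∈ S → (ε = 1 ∨ ε = -1) → R u = ε • u →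
        u ∈ S.map (R : V →ₗ[F] V) := fun {u ε} hu hε he =>
      ⟨ε • u, S.smul_mem _ hu, by show R (ε • u) = u; rw [map_smul, he, smul_smul, hunit hε, one_smul]⟩
    have hu₁0 : u₁ ≠ 0 := fun h0 => h₁₁ (by simp [h0])
    obtain ⟨-, hdim, hle⟩ := hp.meet_le (fun l a h => by simp [show B a a = 0 from h]) hR hu₁0 hu₁ (hmem hu₁ hε₁ e₁) heq
    rw [hdim] at hle
    change finrank F ↥(S.map (R : V →ₗ[F] V) ⊓ S) ≤ _ at hle
    have hsp : F ∙ u₁ < S.map (R : V →ₗ[F] V) ⊓ S := by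
      refine lt_of_le_of_ne ((Submodule.span_singleton_le_iff_mem _ _).2 ⟨hmem hu₁ hε₁ e₁, hu₁⟩) fun he => ?_
      obtain ⟨c, hc⟩ := Submodule.mem_span_singleton.1
        (he ▸ (⟨hmem hu₂ hε₂ e₂, hu₂⟩ : u₂ ∈ S.map (R : V →ₗ[F] V) ⊓ S) : u₂ ∈ F ∙ u₁)
      rw [← hc, ← algebraMap_smul L, map_smul, LinearMap.smul_apply, smul_eq_mul, mul_eq_zero,
        or_iff_left h₁₁, map_eq_zero] at h₂₁
      exact hu₂0 (by rw [← hc, h₂₁, zero_smul])
    have h3 := Submodule.finrank_lt_finrank_of_lt hsp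
    rw [finrank_span_singleton hu₁0] at h3
    omega
  -- pulled back to the line
  have hline : ∀ l : L, (h⁻¹ * R * h) (l • x₀) ∈ lineF L x₀ (F := F) := fun l => by
    obtain ⟨z, hz, hzy⟩ := hst _ ⟨l • x₀, mem_lineF.2 ⟨l, rfl⟩, rfl⟩
    show h.symm (R (h (l • x₀))) ∈ _
    change h z = R (h (l • x₀)) at hzy
    rwa [← hzy, h.symm_apply_apply]
  obtain ⟨A, hA⟩ := exists_action hB hx hxx hline
  obtain ⟨ψ, hψ⟩ := exists_twist hB hxx hx hX (M.mul_mem (M.mul_mem (M.inv_mem hh) hR) hh) hA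
  have hhA : ∀ l, h (A l • x₀) = R (h (l • x₀)) := fun l => by
    rw [← hA]; exact h.apply_symm_apply _
  have hAA : ∀ l, A (A l) = l := fun l => smul_left_injective L hx (h.injective (by
    show h (A (A l) • x₀) = h (l • x₀)
    rw [hhA, hhA, hinv]))
  have hscal : ∀ ε : F, (∀ l, A l = ε • l) → ∀ y ∈ S, R y = ε • y := by
    rintro ε hε _ ⟨z, hz, rfl⟩
    obtain ⟨l, rfl⟩ := mem_lineF.1 hz
    show R (h (l • x₀)) = ε • h (l • x₀)
    rw [← hhA, hε, ← map_smul, smul_assoc]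
  let Ep : Submodule F L := LinearMap.ker (A - LinearMap.id)
  let Em : Submodule F L := LinearMap.ker (A + LinearMap.id)
  have hsum : ⊤ ≤ Ep ⊔ Em := fun l _ => Submodule.mem_sup.2
    ⟨(2 : F)⁻¹ • (l + A l), by simp [Ep, LinearMap.mem_ker, hAA]; rw [add_comm, sub_self],
      (2 : F)⁻¹ • (l - A l), by simp [Em, LinearMap.mem_ker, hAA], by
      rw [← smul_add, show l + A l + (l - A l) = (2 : F) • l by rw [two_smul]; abel,
        inv_smul_smul₀ hB.two]⟩
  have hone : ∀ (E : Submodule F L) (ε : F), (∀ l ∈ E, A l = ε • l) → finrank F E ≤ 1 ∨ ∀ l, A l = ε • l := by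
    intro E ε hE
    by_contra! hc
    obtain ⟨hd, l₀, hl₀⟩ := hc
    obtain ⟨h₁, hh₁, hh₁0⟩ := Submodule.exists_mem_ne_zero_of_ne_bot
      (Submodule.one_le_finrank_iff.1 (show 1 ≤ finrank F E by omega))
    obtain ⟨h₂, hh₂, hind⟩ : ∃ z ∈ E, z ∉ F ∙ h₁ := by
      by_contra! hle
      have h3 := Submodule.finrank_mono (show E ≤ F ∙ h₁ from hle)
      rw [finrank_span_singleton hh₁0] at h3
      omega
    exact hl₀ (eq_scalar_of_twist hB.prime (Function.LeftInverse.injective hAA) hψ (hE h₁ hh₁) (hE h₂ hh₂)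
      hh₁0 hind l₀)
  have hall : ∃ ε : F, ∀ l, A l = ε • l := by
    rcases hone Ep 1 (fun l hl => by simpa [Ep, sub_eq_zero] using hl) with hp1 | hp1
    · rcases hone Em (-1) (fun l hl => by simpa [Em, add_eq_zero_iff_eq_neg] using hl) with hm1 | hm1
      · have h3 := Submodule.finrank_mono hsum
        have h4 := Submodule.finrank_add_le_finrank_add_finrank Ep Em
        have := hB.dim_three hs
        rw [finrank_top] at h3
        omega
      · exact ⟨_, hm1⟩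
    · exact ⟨_, hp1⟩
  obtain ⟨ε, hε⟩ := hall
  have hsm : ∀ {u : V} {δ : F}, u ∈ S → u ≠ 0 → R u = δ • u → δ = ε := fun {u δ} hu hu0 hd => by
    have h3 : (δ - ε) • u = 0 := by rw [sub_smul, ← hd, hscal ε hε u hu, sub_self]
    exact sub_eq_zero.1 ((smul_eq_zero.1 h3).resolve_right hu0)
  have hu₁0 : u₁ ≠ 0 := fun h0 => h₁₁ (by simp [h0])
  rcases hns with hne | ⟨y, hy, hne⟩
  · exact hne ((hsm hu₁ hu₁0 e₁).trans (hsm hu₂ hu₂0 e₂).symm)
  · exact hne (by rw [hscal ε hε y hy, hsm hu₁ hu₁0 e₁])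

end CfsgLib.C3Max.Orth
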