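import Cfsg.Agent.C3Max.OrthFree
import Cfsg.Agent.FieldExtMax.MatrixForm
import Cfsg.Agent.OrthGeo.RootLines

/-!
A root element of rank two on a singular line of the extension field spreads to all the Eichler
transformations over the ground field.
-/

set_option autoImplicit false
set_option linter.unusedSectionVars false
set_option linter.unusedSimpArgs false
set_option linter.style.haveILetI false

namespace CfsgLib.C3Max.Orth

open Module CfsgLib.FieldExtMax CfsgLib.OrthGeo Cfsg.Geo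
open scoped Matrix MatrixGroups

variable {ι : Type} [Fintype ι] [DecidableEq ι] [Nonempty ι] {F L : Type*} [Field F] [Field L]
  [Algebra F L] [Module L (ι → F)] [IsScalarTower F L (ι → F)] [Finite L] [IsGalois F L]
  [FiniteDimensional F L] [FiniteDimensional L (ι → F)] [Fintype F]

local notation "Tr" => Algebra.trace F L

variable {Q : (ι → F) → F} (hQ : IsNondegenerateQuadraticForm Q)
  {B : (ι → F) →ₗ[L] (ι → F) →ₗ[L] L} {H : Subgroup (GL ι F)}
  (hB : Over B (H.map (glEquiv (ι := ι) (F := F)).toMonoidHom))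
  (hf : ∀ x y, Algebra.trace F L (B x y) = bform hQ x y)

include hQ

omit [Finite L] [IsGalois F L] [FiniteDimensional F L] [FiniteDimensional L (ι → F)] [Nonempty ι] in
lemma eichlerMat_smul_left {u w : ι → F} (hw : Q w = 0) (t : F) :
    eichlerMat Q (t • u) w = eichlerMat Q u (t • w) := by
  refine Matrix.ext_of_mulVec_single fun i => ?_
  generalize (Pi.single i 1 : ι → F) = y
  rw [eichlerMat_mulVec hQ, eichlerMat_mulVec hQ, q_smul hQ, hw]
  simp only [map_smul, LinearMap.smul_apply, smul_eq_mul, mul_zero, zero_mul, zero_smul, sub_zero,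
    smul_smul]
  module

omit [Finite L] [IsGalois F L] [FiniteDimensional F L] [FiniteDimensional L (ι → F)] [Nonempty ι] in
lemma eIn_smul_left {u w : ι → F} (hw : Q w = 0) (t : F) (h : EIn Q H (t • u) w) :
    EIn Q H u (t • w) := by
  obtain ⟨g, hg, e⟩ := h
  exact ⟨g, hg, e.trans (eichlerMat_smul_left hQ hw t)⟩

include hB hf

lemma q_zero_iff (x : ι → F) : Q x = 0 ↔ Tr (B x x) = 0 := by
  rw [hf, b_self hQ, mul_eq_zero, or_iff_right hB.two]

/-- Root elements within singular lines. -/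
lemma eIn_line {a : ι → F} (ha : a ≠ 0) (haa : B a a = 0) {e q : L} (he : e ≠ 0)
    (hqe : q ∉ F ∙ e) (h : InX B (H.map (glEquiv (ι := ι) (F := F)).toMonoidHom) a (wedge e q))
    (hHI : H ≤ Cfsg.isometryGroup F Q) {z : ι → F} (hzz : B z z = 0) (l : L) :
    EIn Q H z (l • z) := by
  have hq : q ≠ 0 := fun h0 => hqe (h0 ▸ Submodule.zero_mem _)
  have hsing : ∀ (k : L) (y : ι → F), B y y = 0 → Q (k • y) = 0 := fun k y hy =>
    (q_zero_iff hQ hB hf _).2 (by simp [hy])
  have horth : ∀ (k k' : L) (y : ι → F), B y y = 0 → bform hQ (k • y) (k' • y) = 0 := fun k k' y hy => by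
    rw [← hf]; simp [hy]
  have hstart : ∀ c : F, EIn Q H (q • a) (c • e • a) := by
    intro c
    obtain ⟨_, ⟨g, hg, rfl⟩, hgy⟩ := h c
    refine ⟨g, hg, Matrix.ext_of_mulVec_single fun i => ?_⟩
    generalize (Pi.single i 1 : ι → F) = y
    have hy : (g : Matrix ι ι F) *ᵥ y = y + (c • wedge e q (B y a)) • a := hgy y
    rw [hy, eichlerMat_mulVec hQ, wedge_apply, q_smul hQ, hsing e a haa]
    have e1 : Tr (e * B y a) = bform hQ (e • a) y := by
      rw [← hf, map_smul, LinearMap.smul_apply, smul_eq_mul, hB.symm a y]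
    have e2 : Tr (q * B y a) = bform hQ (q • a) y := by
      rw [← hf, map_smul, LinearMap.smul_apply, smul_eq_mul, hB.symm a y]
    rw [e1, e2]
    simp only [map_smul, LinearMap.smul_apply, smul_eq_mul, mul_zero, zero_mul, zero_smul, sub_zero,
      smul_assoc, sub_smul, smul_sub]
    match_scalars <;> simp [Algebra.smul_def] <;> ring
  set c₀ := e * q⁻¹ with hc₀
  have hall : ∀ y : ι → F, B y y = 0 → ∀ f : F, EIn Q H y (f • c₀ • y) := by
    intro y hyy f
    rcases eq_or_ne y 0 with rfl | hy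
    · exact ⟨1, H.one_mem, by simp [eichlerMat_zero hQ]⟩
    have hqa : q • a ≠ 0 := smul_ne_zero hq ha
    obtain ⟨c, hc, hmv⟩ := moves_line hB hqa (by simp [haa]) hy hyy
    obtain ⟨f', hf', hmv'⟩ := moves_scal hB hy hyy (inv_ne_zero hc)
    have hmv'' := moves_comp hB hmv (moves_smul hB hmv' c)
    rw [← smul_assoc, smul_eq_mul, mul_smul_comm, mul_inv_cancel₀ hc, smul_assoc, one_smul] at hmv''
    obtain ⟨_, ⟨g, hg, rfl⟩, hgq, hgl, -⟩ := hmv''
    change glEquiv g (q • a) = f' • y at hgq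
    have hE := (hstart (f * (f' * f')⁻¹)).conj hQ (hsing q a haa)
      (by rw [map_smul, horth q e a haa, smul_zero]) hg (hHI hg)
    rw [← glEquiv_apply, ← glEquiv_apply, hgq, LinearEquiv.map_smul] at hE
    have he' : glEquiv g (e • a) = c₀ • f' • y := by
      rw [← hgq]
      change _ = c₀ • (glEquiv g : (ι → F) → (ι → F)) (q • a)
      rw [← show glEquiv g (c₀ • q • a) = c₀ • glEquiv g (q • a) from hgl c₀ (q • a), smul_smul, hc₀,
        inv_mul_cancel_right₀ hq]
    rw [he'] at hE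
    have h2 := eIn_smul_left hQ (by
      rw [smul_comm c₀ f' y, q_smul hQ, q_smul hQ, hsing c₀ y hyy, mul_zero, mul_zero]) f' hE
    rw [smul_comm c₀ f' y, smul_smul, smul_smul] at h2
    rwa [show f' * (f * (f' * f')⁻¹) * f' = f by field_simp] at h2
  let C : Submodule F L :=
    { carrier := {c | ∀ y : ι → F, B y y = 0 → ∀ f : F, EIn Q H y (f • c • y)}
      zero_mem' := fun y hyy f => ⟨1, H.one_mem, by simp [eichlerMat_zero hQ]⟩
      add_mem' := fun {c c'} hc hc' y hyy f => by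
        have h1 : ∀ k : L, bform hQ y (f • k • y) = 0 := fun k => by
          have := horth 1 k y hyy; rw [one_smul] at this; rw [map_smul, this, smul_zero]
        rw [add_smul, smul_add]
        exact (hc y hyy f).add hQ (hc' y hyy f) (by simpa using hsing 1 y hyy) (h1 c) (h1 c')
      smul_mem' := fun d c hc y hyy f => by
        rw [smul_assoc, smul_smul]; exact hc y hyy _ }
  have hC1 : (1 : L) ∈ C := fun y hyy f => by
    refine ⟨1, H.one_mem, ?_⟩
    have h1 := eichlerMat_add_smul hQ (u := y) (w := 0) (by simpa using hsing 1 y hyy) (map_zero (bform hQ y)) f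
    rw [zero_add, eichlerMat_zero hQ] at h1
    rw [one_smul, h1]
    rfl
  have hCinv : ∀ c ∈ C, c⁻¹ ∈ C := by
    intro c hc y hyy f
    rcases eq_or_ne c 0 with rfl | hc0
    · rw [inv_zero]; exact C.zero_mem y hyy f
    have h1 := hc (c⁻¹ • y) (by simp [hyy]) f
    rw [smul_inv_smul₀ hc0] at h1
    have h3 : Q (f • y) = 0 := by rw [q_smul hQ]; simp [show Q y = 0 by simpa using hsing 1 y hyy]
    have h4 : bform hQ (c⁻¹ • y) (f • y) = 0 := by
      have := horth c⁻¹ 1 y hyy; rw [one_smul] at this; rw [map_smul, this, smul_zero]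
    exact eIn_smul_left hQ (hsing _ y hyy) f (h1.swap hQ (hsing _ y hyy) h3 h4)
  have hCsq : ∀ c ∈ C, c * c ∈ C := by
    intro c hc
    rcases eq_or_ne c 0 with rfl | hc0
    · simp
    rcases eq_or_ne c 1 with rfl | hc1
    · simpa using hC1
    have h1 : c⁻¹ + (1 - c)⁻¹ ≠ 0 := by
      have h2 : (1 : L) - c ≠ 0 := sub_ne_zero.2 hc1.symm
      rw [inv_add_inv hc0 h2, add_sub_cancel]
      exact div_ne_zero one_ne_zero (mul_ne_zero hc0 h2)
    have h2 := C.sub_mem hc (hCinv _ (C.add_mem (hCinv c hc) (hCinv _ (C.sub_mem hC1 hc))))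
    convert h2 using 1
    have h3 : (1 : L) - c ≠ 0 := sub_ne_zero.2 hc1.symm
    field_simp
    ring
  have hc₀C : c₀ ∈ C := hall
  have hc₀F : c₀ ∉ (algebraMap F L).range := by
    rintro ⟨d, hd⟩
    have hd0 : d ≠ 0 := fun h0 => by
      rw [h0, map_zero, hc₀, eq_comm, mul_eq_zero, inv_eq_zero] at hd
      exact hd.elim he hq
    refine hqe (Submodule.mem_span_singleton.2 ⟨d⁻¹, ?_⟩)
    rw [Algebra.smul_def, map_inv₀, hd, hc₀]
    field_simp
  have hCmul : ∀ c ∈ C, c₀ * c ∈ C := fun c hc => by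
    have h1 := C.smul_mem (2 : F)⁻¹ (C.sub_mem (C.sub_mem (hCsq _ (C.add_mem hc₀C hc)) (hCsq _ hc₀C))
      (hCsq _ hc))
    rwa [show (c₀ + c) * (c₀ + c) - c₀ * c₀ - c * c = (2 : F) • (c₀ * c) by
      rw [two_smul]; ring, inv_smul_smul₀ hB.two] at h1
  have hl := mul_mem_of_adjoin hB.prime hc₀F hCmul l hC1
  rw [mul_one] at hl
  simpa using hl z hzz 1

/-- All the root elements at the singular vectors, and with them the whole group. -/
theorem omega_le_of_lines (hHI : H ≤ Cfsg.isometryGroup F Q)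
    (hline : ∀ (z : ι → F), B z z = 0 → ∀ l : L, EIn Q H z (l • z)) : omegaGL Q ≤ H := by
  classical
  have h2 := two_ne hB
  have hF2 : (2 : F) ≠ 0 := hB.two
  have hQ0 : ∀ (y : ι → F), B y y = 0 → Q y = 0 := fun y hy => (q_zero_iff hQ hB hf y).2 (by simp [hy])
  -- non-singular vectors of trace zero
  have hB1 : ∀ (z b : ι → F), z ≠ 0 → B z z = 0 → Q b = 0 → B b b ≠ 0 → B b z = 0 → EIn Q H z b := by
    intro z b hz hzz hQb hbb hbz
    have hN : Tr (B b b) = 0 := (q_zero_iff hQ hB hf b).1 hQb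
    set N := B b b with hNdef
    have hN2 : N / 2 ≠ 0 := div_ne_zero hbb h2
    have hTN2 : Tr (N / 2) = 0 := by
      rw [show N / 2 = (2 : F)⁻¹ • N by rw [Algebra.smul_def, map_inv₀, map_ofNat, div_eq_inv_mul],
        map_smul, hN, smul_zero]
    obtain ⟨t₁, ht₁⟩ := Algebra.trace_surjective F L 1
    set κ := t₁ * (N / 2)⁻¹
    have hκ : Tr (κ * (N / 2)) = 1 := by simp only [κ, inv_mul_cancel_right₀ hN2, ht₁]
    set t := Tr (κ * κ * (N / 2))
    set m := -(N / 2) * ((2 : L) * κ - algebraMap F L t) with hm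
    have hm0 : m ≠ 0 := by
      refine mul_ne_zero (neg_ne_zero.2 hN2) (sub_ne_zero.2 fun h => ?_)
      have hκF : κ = algebraMap F L (t / 2) := by
        rw [map_div₀, map_ofNat, eq_div_iff h2, mul_comm, h]
      rw [hκF, ← Algebra.smul_def, map_smul, hTN2, smul_zero] at hκ
      exact zero_ne_one hκ
    obtain ⟨p₁, hp₁, hp₁0⟩ : ∃ p, Tr (p * m) = 0 ∧ p ≠ 0 := by
      obtain ⟨k, hk, hk0⟩ : ∃ k : L, Tr k = 0 ∧ k ≠ 0 := ⟨N, hN, hbb⟩
      exact ⟨k * m⁻¹, by rw [inv_mul_cancel_right₀ hm0, hk], mul_ne_zero hk0 (inv_ne_zero hm0)⟩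
    set p₂ := t₁ * m⁻¹
    have hp₂ : Tr (p₂ * m) = 1 := by simp only [p₂, inv_mul_cancel_right₀ hm0, ht₁]
    set w := p₁⁻¹ • z
    have hzw : p₁ • w = z := smul_inv_smul₀ hp₁0 z
    have hww : B w w = 0 := by simp [w, hzz]
    have hwb : B w b = 0 := by simp [w, hB.symm z b, hbz]
    have hw0 : w ≠ 0 := smul_ne_zero (inv_ne_zero hp₁0) hz
    obtain ⟨hW, -⟩ := good_inf hB (good_top hB) Submodule.mem_top hbb
    obtain ⟨w', hw', hw'w', hww'⟩ := exists_partner hB hW ⟨Submodule.mem_top, hwb⟩ hw0 hww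
    have hw'b : B w' b = 0 := hw'.2
    set d := (-N) • w' + (2 : L)⁻¹ • w
    set e₀ := (2 : L)⁻¹ • (b + d) with he₀
    set v₀ := (2 : L)⁻¹ • (b - d) with hv₀
    have hdd : B d d = -N := by
      simp [d, hww, hw'w', hww', hB.symm w' w]
      field_simp
      norm_num
    have hbd : B b d = 0 := by simp [d, hB.symm b w', hw'b, hB.symm b w, hwb]
    have hee : B e₀ e₀ = 0 := by simp [he₀, hdd, hbd, hB.symm d b, ← hNdef]
    have hvv : B v₀ v₀ = 0 := by simp [hv₀, hdd, hbd, hB.symm d b, ← hNdef]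
    have hev : B e₀ v₀ = N / 2 := by
      simp [he₀, hv₀, hdd, hbd, hB.symm d b, ← hNdef]
      field_simp
      ring
    have hwe : B w e₀ = -(N / 2) := by
      simp [he₀, d, hwb, hww, hww']
      ring
    have hwv : B w v₀ = N / 2 := by
      simp [hv₀, d, hwb, hww, hww']
      ring
    have hsum : e₀ + v₀ = b := by
      rw [he₀, hv₀, ← smul_add, show b + d + (b - d) = (2 : L) • b by rw [two_smul]; abel,
        inv_smul_smul₀ h2]
    clear_value e₀ v₀ w
    -- a root element moving `e₀` to `b`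
    obtain ⟨g, hg, hgE⟩ := hline v₀ hvv κ
    have hgy : ∀ y, (g : Matrix ι ι F) *ᵥ y =
        y + Tr (κ * B v₀ y) • v₀ - Tr (B v₀ y) • κ • v₀ := fun y => by
      rw [hgE, eichlerMat_mulVec hQ, hQ0 (κ • v₀) (by simp [hvv]), zero_mul, zero_smul, sub_zero,
        ← hf, ← hf, map_smul, LinearMap.smul_apply, smul_eq_mul]
    have hge : (g : Matrix ι ι F) *ᵥ e₀ = b := by
      rw [hgy, hB.symm v₀ e₀, hev, hκ, hTN2, zero_smul, sub_zero, one_smul, hsum]
    set W₁ := κ • e₀ + t • v₀ - κ • v₀ with hW₁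
    have hgκ : (g : Matrix ι ι F) *ᵥ (κ • e₀) = W₁ := by
      rw [hgy, map_smul, smul_eq_mul, hB.symm v₀ e₀, hev, ← mul_assoc, hκ, one_smul]
    have hE : EIn Q H b W₁ := by
      have := (hline e₀ hee κ).conj hQ (hQ0 e₀ hee) (by rw [← hf]; simp [hee]) hg (hHI hg)
      rwa [hge, hgκ] at this
    have hbW : bform hQ b W₁ = 0 := by
      rw [← hge, ← hgκ, isometry_b hQ (hHI hg), ← hf]; simp [hee]
    have hwW : B w W₁ = m := by
      rw [hW₁, map_sub, map_add, ← algebraMap_smul L t v₀, LinearMap.map_smul (B w), LinearMap.map_smul (B w),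
        LinearMap.map_smul (B w), hwe, hwv, hm]
      simp only [smul_eq_mul]
      ring
    -- displaced by a root element fixing `b`
    obtain ⟨g₂, hg₂, hg₂E⟩ := hline (p₁ • w) (by simp [hww]) (p₂ / p₁)
    have hpw : (p₂ / p₁) • p₁ • w = p₂ • w := by rw [smul_smul, div_mul_cancel₀ _ hp₁0]
    rw [hpw] at hg₂E
    have hg₂y : ∀ y, (g₂ : Matrix ι ι F) *ᵥ y =
        y + Tr (p₂ * B w y) • p₁ • w - Tr (p₁ * B w y) • p₂ • w := fun y => by
      rw [hg₂E, eichlerMat_mulVec hQ, hQ0 (p₂ • w) (by simp [hww]), zero_mul, zero_smul, sub_zero,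
        ← hf, ← hf, map_smul, LinearMap.smul_apply, smul_eq_mul, map_smul, LinearMap.smul_apply, smul_eq_mul]
    have hfix : (g₂ : Matrix ι ι F) *ᵥ b = b := by rw [hg₂y, hwb]; simp
    have hdis := hE.displacement hQ hQb hbW hg₂ (hHI hg₂) hfix
    rw [hg₂y, hwW, hp₂, hp₁, zero_smul, sub_zero, one_smul, add_sub_cancel_left, hzw] at hdis
    exact hdis.swap hQ hQb (hQ0 z hzz) (by rw [← hf, hbz, map_zero])
  -- all vectors of trace zero in the perpendicular
  have hB2 : ∀ (z c : ι → F), z ≠ 0 → B z z = 0 → Q c = 0 → B c z = 0 → EIn Q H z c := by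
    intro z c hz hzz hQc hcz
    by_cases hcc : B c c = 0
    swap
    · exact hB1 z c hz hzz hQc hcc hcz
    obtain ⟨z', -, hz'z', hzz'⟩ := exists_partner hB (good_top hB) Submodule.mem_top hz hzz
    set c₀ := c - B c z' • z with hc₀
    have hc₀P : c₀ ∈ perp₂ B z z' := mem_perp₂.2 ⟨by simp [hc₀, hcz, hzz], by simp [hc₀, hzz']⟩
    rcases eq_or_ne c₀ 0 with h0 | h0
    · rw [sub_eq_zero.1 h0]; exact hline z hzz _
    have hc₀c₀ : B c₀ c₀ = 0 := by simp [hc₀, hcc, hzz, hcz, hB.symm z c]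
    obtain ⟨e', he', he'e', hce'⟩ := exists_partner hB (good_perp₂ hB hzz hz'z' hzz').1 hc₀P h0 hc₀c₀
    obtain ⟨he'z, he'z'⟩ := mem_perp₂.1 he'
    have hce : B c e' = 1 := by
      rw [← hce', hc₀]; simp [hB.symm z e', he'z]
    obtain ⟨δ, hδ, hδ0⟩ : ∃ δ : L, Tr δ = 0 ∧ δ ≠ 0 := by
      by_contra! hc
      have h1 := LinearMap.finrank_range_add_finrank_ker (Algebra.trace F L)
      rw [show LinearMap.ker (Algebra.trace F L) = ⊥ from (Submodule.eq_bot_iff _).2 fun k hk => hc k hk,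
        finrank_bot, add_zero] at h1
      have h3 := Submodule.finrank_le (LinearMap.range (Algebra.trace F L))
      rw [finrank_self] at h3
      have := hB.prime.two_le
      omega
    have hv : ∀ k : L, B ((2 : L)⁻¹ • c + k • e') ((2 : L)⁻¹ • c + k • e') = k := fun k => by
      simp [hcc, he'e', hce, hB.symm e' c]
      field_simp
      ring
    have hmem : ∀ k : L, k ≠ 0 → Tr k = 0 → EIn Q H z ((2 : L)⁻¹ • c + k • e') := fun k hk hk' =>
      hB1 z _ hz hzz ((q_zero_iff hQ hB hf _).2 (by rw [hv]; exact hk')) (by rw [hv]; exact hk)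
        (by simp [hcz, he'z])
    have h3 := (hmem δ hδ0 hδ).add hQ (hmem (-δ) (neg_ne_zero.2 hδ0) (by rw [map_neg, hδ, neg_zero]))
      (hQ0 z hzz) (by rw [← hf]; simp [hB.symm z c, hcz, hB.symm z e', he'z])
      (by rw [← hf]; simp [hB.symm z c, hcz, hB.symm z e', he'z])
    convert h3 using 1
    rw [neg_smul, add_add_add_comm, add_neg_cancel, add_zero, ← add_smul, ← two_mul, mul_inv_cancel₀ h2, one_smul]
  -- the whole perpendicular over the extension field
  have hB3 : ∀ (z y : ι → F), z ≠ 0 → B z z = 0 → B y z = 0 → EIn Q H z y := by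
    intro z y hz hzz hyz
    obtain ⟨z', -, hz'z', hzz'⟩ := exists_partner hB (good_top hB) Submodule.mem_top hz hzz
    obtain ⟨hgood, hdim⟩ := good_perp₂ hB hzz hz'z' hzz'
    have hbz : ∀ w : ι → F, B w z = 0 → bform hQ z w = 0 := fun w hw => by
      rw [← hf, hB.symm, hw, map_zero]
    let G : AddSubgroup (ι → F) :=
      { carrier := {w | B w z = 0 ∧ EIn Q H z w}
        zero_mem' := ⟨by simp, ⟨1, H.one_mem, by simp [eichlerMat_zero hQ]⟩⟩
        add_mem' := fun {w w'} hw hw' => ⟨by simp [hw.1, hw'.1],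
          hw.2.add hQ hw'.2 (hQ0 z hzz) (hbz w hw.1) (hbz w' hw'.1)⟩
        neg_mem' := fun {w} hw => ⟨by simp [hw.1], hw.2.neg hQ (hQ0 z hzz) (hbz w hw.1)⟩ }
    have hiso : ∀ w : ι → F, B w z = 0 → Q w = 0 → w ∈ G := fun w hw hw' => ⟨hw, hB2 z w hz hzz hw' hw⟩
    obtain ⟨c, hcP, hc0, hcQ⟩ : ∃ c ∈ perp₂ B z z', c ≠ 0 ∧ Q c = 0 := by
      let P := (perp₂ B z z').restrictScalars F
      have hd : 3 ≤ finrank F P := by
        have h1 : finrank F P = finrank F L * finrank L (perp₂ B z z') :=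
          (Module.finrank_mul_finrank F L (perp₂ B z z')).symm
        have := hB.dim
        have := hB.prime.two_le
        by_cases h3 : finrank L (ι → F) = 3
        · have h5 := hB.dim_three h3
          have : 1 * 1 ≤ finrank L (perp₂ B z z') := by omega
          calc 3 ≤ finrank F L * 1 := by omega
            _ ≤ finrank F P := h1 ▸ Nat.mul_le_mul_left _ (by omega)
        · calc 3 ≤ finrank F L * 2 := by omega
            _ ≤ finrank F P := h1 ▸ Nat.mul_le_mul_left _ (by omega)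
      obtain ⟨⟨c, hc⟩, hc0, hcc⟩ := exists_isotropic (F := F) hF2
        ((bform hQ).compl₁₂ P.subtype P.subtype) (fun x y => b_symm hQ _ _) hd
      refine ⟨c, hc, fun h => hc0 (Subtype.ext h), ?_⟩
      have h3 : bform hQ c c = 0 := hcc
      rw [b_self hQ, mul_eq_zero, or_iff_right hF2] at h3
      exact h3
    have hcz : B c z = 0 := (mem_perp₂.1 hcP).1
    have hpart : ∀ w ∈ perp₂ B z z', bform hQ c w ≠ 0 → w ∈ G := by
      intro w hw hcw
      have hwz : B w z = 0 := (mem_perp₂.1 hw).1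
      set s := Q w / bform hQ c w
      have h1 : w - s • c ∈ G := hiso _ (by simp [hwz, hcz]) (by
        rw [q_sub hQ, q_smul hQ, hcQ, map_smul, smul_eq_mul, b_symm hQ w c, div_mul_cancel₀ _ hcw]
        ring)
      have h3 := G.add_mem h1 (hiso (s • c) (by simp [hcz]) (by rw [q_smul hQ, hcQ, mul_zero]))
      rwa [sub_add_cancel] at h3
    obtain ⟨y₁, hy₁, hcy₁⟩ : ∃ y₁ ∈ perp₂ B z z', bform hQ c y₁ ≠ 0 := by
      obtain ⟨t, ht, hct⟩ := hgood c hcP hc0
      obtain ⟨l, hl⟩ := Algebra.trace_surjective F L 1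
      refine ⟨(l * (B c t)⁻¹) • t, Submodule.smul_mem _ _ ht, ?_⟩
      rw [← hf, map_smul, smul_eq_mul, inv_mul_cancel_right₀ hct, hl]
      exact one_ne_zero
    have hperp : ∀ w ∈ perp₂ B z z', w ∈ G := fun w hw => by
      by_cases hcw : bform hQ c w = 0
      · have h1 := hpart _ (Submodule.add_mem _ hw hy₁) (by rwa [map_add, hcw, zero_add])
        have h3 := G.sub_mem h1 (hpart y₁ hy₁ hcy₁)
        rwa [add_sub_cancel_right] at h3
      · exact hpart w hw hcw
    have h1 := G.add_mem (hperp (y - B y z' • z) (mem_perp₂.2 ⟨by simp [hyz, hzz], by simp [hzz']⟩))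
      (show B y z' • z ∈ G from ⟨by simp [hzz], hline z hzz _⟩)
    rw [sub_add_cancel] at h1
    exact h1.2
  -- and the rest
  have hB4 : ∀ (z y : ι → F), z ≠ 0 → B z z = 0 → bform hQ z y = 0 → EIn Q H z y := by
    intro z y hz hzz hzy
    obtain ⟨z', -, hz'z', hzz'⟩ := exists_partner hB (good_top hB) Submodule.mem_top hz hzz
    set γ := B y z
    have hγ : Tr γ = 0 := by rw [hf, b_symm hQ, hzy]
    have hrest : B (y - γ • z') z = 0 := by simp [γ, hB.symm z' z, hzz']
    rcases eq_or_ne γ 0 with hγ0 | hγ0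
    · exact hB3 z y hz hzz hγ0
    have hQz : Q z = 0 := hQ0 z hzz
    suffices hkey : EIn Q H z (γ • z') by
      have h3 := hkey.add hQ (hB3 z _ hz hzz hrest) hQz
        (by rw [← hf, map_smul, smul_eq_mul, hzz', mul_one, hγ])
        (by rw [← hf, hB.symm, hrest, map_zero])
      rwa [add_sub_cancel] at h3
    obtain ⟨b, hb, hbb⟩ := exists_aniso hB (good_perp₂ hB hzz hz'z' hzz').1 (perp₂_ne_bot hB hzz hz'z' hzz')
    obtain ⟨hbz, hbz'⟩ := mem_perp₂.1 hb
    obtain ⟨l, hl⟩ := Algebra.trace_surjective F L 1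
    set b₁ := (l * (B b b)⁻¹) • b
    have hb₁ : bform hQ b b₁ = 1 := by
      rw [← hf, map_smul, smul_eq_mul, inv_mul_cancel_right₀ hbb, hl]
    have hb₁z : B b₁ z = 0 := by simp [b₁, hbz]
    set u := γ • z'
    have hu0 : u ≠ 0 := smul_ne_zero hγ0 fun h => by simp [h] at hzz'
    have huu : B u u = 0 := by simp [u, hz'z']
    have hub : bform hQ u b = 0 := by rw [← hf]; simp [u, hB.symm z' b, hbz']
    obtain ⟨g, hg, hgE⟩ := hB3 u b hu0 huu (by simp [u, hbz'])
    have hgy : ∀ w, (g : Matrix ι ι F) *ᵥ w = w + bform hQ b w • u - bform hQ u w • b -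
        (Q b * bform hQ u w) • u := fun w => by rw [hgE, eichlerMat_mulVec hQ]
    have hbz0 : bform hQ b z = 0 := by rw [← hf, hbz, map_zero]
    have huz : bform hQ u z = 0 := by
      rw [← hf]; simp [u, hB.symm z' z, hzz', hγ]
    have hfix : (g : Matrix ι ι F) *ᵥ z = z := by rw [hgy, hbz0, huz]; simp
    have hub₁ : bform hQ u b₁ = 0 := by rw [← hf]; simp [u, b₁, hB.symm z' b, hbz']
    have h3 := (hB3 z b₁ hz hzz hb₁z).displacement hQ hQz (by rw [← hf, hB.symm, hb₁z, map_zero]) hg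
      (hHI hg) hfix
    rw [hgy, hb₁, hub₁, one_smul, zero_smul, sub_zero, mul_zero, zero_smul, sub_zero,
      add_sub_cancel_left] at h3
    exact h3
  have hn : 5 ≤ Fintype.card ι := by
    have h1 := Module.finrank_mul_finrank F L (ι → F)
    rw [finrank_fintype_fun_eq_card] at h1
    have := hB.dim
    have := hB.prime.two_le
    calc 5 ≤ 2 * 3 := by norm_num
      _ ≤ finrank F L * finrank L (ι → F) := Nat.mul_le_mul (by omega) (by omega)
      _ = _ := h1
  refine omega_le_of_root_vectors hQ hn hHI {z | z ≠ 0 ∧ B z z = 0}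
    (fun z hz => ⟨hQ0 z hz.2, fun w hw => hB4 z w hz.1 hz.2 hw⟩) fun u hu hu0 => ?_
  -- some singular vector is not orthogonal to `u`
  obtain ⟨z, hz0, hzz, hzu⟩ : ∃ z, z ≠ 0 ∧ B z z = 0 ∧ bform hQ z u ≠ 0 := by
    obtain ⟨z, hz0, hzz, hzu⟩ : ∃ z, z ≠ 0 ∧ B z z = 0 ∧ B z u ≠ 0 := by
      by_contra! hall
      obtain ⟨x, -, hx, hxx⟩ := exists_singular hB (good_top hB) (by rw [finrank_top]; exact hB.dim)
      obtain ⟨e, -, hee, hxe⟩ := exists_partner hB (good_top hB) Submodule.mem_top hx hxx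
      have hex : B e x = 1 := by rw [hB.symm, hxe]
      obtain ⟨w₀, hw₀⟩ := hB.nondeg u hu0
      set w := w₀ - B w₀ e • x - B w₀ x • e with hw
      have hwx : B w x = 0 := by simp [hw, hxx, hex]
      have hwe : B w e = 0 := by simp [hw, hee, hxe]
      have he'' : B (e + w + (-(B w w) / 2) • x) (e + w + (-(B w w) / 2) • x) = 0 := by
        rw [B_add_self hB]
        simp [hee, hB.symm e w, hwe, hex, hwx, hxx, hB.symm x w]
        field_simp; ring
      have hx' : B x u = 0 := hall x hx hxx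
      have he' : B e u = 0 := hall e (fun h => by simp [h] at hxe) hee
      have h3 : B w u = 0 := by
        have h4 := hall _ (fun h => by
          have := congrArg (fun y => B y x) h
          simp [hwx, hex, hxx] at this) he''
        simpa [hx', he'] using h4
      refine hw₀ ?_
      rw [hB.symm]
      simpa [hw, hx', he'] using h3
    obtain ⟨l, hl⟩ := Algebra.trace_surjective F L 1
    refine ⟨(l * (B z u)⁻¹) • z, smul_ne_zero (fun h => ?_) hz0, by simp [hzz], ?_⟩
    · rw [mul_eq_zero, inv_eq_zero, or_iff_left hzu] at h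
      rw [h, map_zero] at hl
      exact zero_ne_one hl
    · rw [← hf, map_smul, LinearMap.smul_apply, smul_eq_mul, inv_mul_cancel_right₀ hzu, hl]
      exact one_ne_zero
  obtain ⟨z', -, hz'z', hzz'⟩ := exists_partner hB (good_top hB) Submodule.mem_top hz0 hzz
  obtain ⟨l, hl⟩ := Algebra.trace_surjective F L 1
  refine ⟨z, ⟨hz0, hzz⟩, l • z', ⟨smul_ne_zero (fun h => ?_) fun h => by simp [h] at hzz', by simp [hz'z']⟩, ?_, hzu⟩
  · rw [h, map_zero] at hl; exact zero_ne_one hl
  · rw [← hf, map_smul, smul_eq_mul, hzz', mul_one, hl]; exact one_ne_zero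

/-- An overgroup is semilinear or contains the commutator group. -/
theorem semiLin_or_omega (hHI : H ≤ Cfsg.isometryGroup F Q) :
    H.map (glEquiv (ι := ι) (F := F)).toMonoidHom ≤ semiLin F L (ι → F) ∨ omegaGL Q ≤ H := by
  by_cases hsl : H.map (glEquiv (ι := ι) (F := F)).toMonoidHom ≤ semiLin F L (ι → F)
  · exact Or.inl hsl
  obtain ⟨a, ha, haa, x, hx, φ, e₁, hφ, he₁, hφe, hxa⟩ := exists_transv hB hsl
  obtain ⟨e, q, he, hqe, h⟩ := exists_wedge hB ha haa hx hφ he₁ hφe hxa
  exact Or.inr (omega_le_of_lines hQ hB hf hHI fun z hz l => eIn_line hQ hB hf ha haa he hqe h hHI hz l)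

end CfsgLib.C3Max.Orth
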