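import Cfsg.Agent.C3Max.Basic

/-!
An overgroup of the symplectic transvections over an extension field of prime degree is semilinear or
contains every symplectic transvection over the ground field.
-/

set_option autoImplicit false
set_option linter.unusedSectionVars false
set_option linter.unusedSimpArgs false
set_option linter.style.haveILetI false

namespace CfsgLib.C3Max.Symp

open Module CfsgLib.FieldExtMax

variable {F L V : Type*} [Field F] [Field L] [Algebra F L] [AddCommGroup V] [Module F V]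
  [Module L V] [IsScalarTower F L V] [Finite L] [IsGalois F L] [FiniteDimensional F L]
  [FiniteDimensional F V] [FiniteDimensional L V]

local notation "Tr" => Algebra.trace F L

/-- The hypotheses on the overgroup. -/
structure Over (B : V →ₗ[L] V →ₗ[L] L) (M : Subgroup (V ≃ₗ[F] V)) : Prop where
  alt : ∀ v, B v v = 0
  nondeg : ∀ v, v ≠ 0 → ∃ w, B v w ≠ 0
  pres : ∀ g ∈ M, ∀ x y, Algebra.trace F L (B (g x) (g y)) = Algebra.trace F L (B x y)
  transv : ∀ w (c : L), ∃ g ∈ M, ∀ y, g y = y + (c * B y w) • w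

variable {B : V →ₗ[L] V →ₗ[L] L} {M : Subgroup (V ≃ₗ[F] V)} (hB : Over B M)

/-- `M` has an `L`-linear isometry mapping `w` to `w'`. -/
def Moves (B : V →ₗ[L] V →ₗ[L] L) (M : Subgroup (V ≃ₗ[F] V)) (w w' : V) : Prop :=
  ∃ g ∈ M, g w = w' ∧ (∀ (a : L) y, g (a • y) = a • g y) ∧ ∀ x y, B (g x) (g y) = B x y

/-- The root element `y ↦ y + τ (B y a) • a` lies in `M`. -/
def Root (B : V →ₗ[L] V →ₗ[L] L) (M : Subgroup (V ≃ₗ[F] V)) (a : V) (τ : L →ₗ[F] L) : Prop :=
  InM M (rootMap τ (B.flip a) a)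

include hB

lemma skew (x y : V) : B x y = -B y x := by
  have h := hB.alt (x + y)
  simp only [map_add, LinearMap.add_apply, hB.alt] at h
  linear_combination h

lemma exists_pair {w : V} (hw : w ≠ 0) : ∃ z, B z w = 1 := by
  obtain ⟨z, hz⟩ := hB.nondeg w hw
  exact ⟨(B z w)⁻¹ • z, by
    rw [map_smul, LinearMap.smul_apply, smul_eq_mul, inv_mul_cancel₀ (by
      rw [skew hB z w]; exact neg_ne_zero.2 hz)]⟩

lemma exists_sep {v u : V} (hv : v ≠ 0) (hu : u ∉ lineF L v (F := F)) : ∃ w, B v w = 0 ∧ B u w = 1 := by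
  obtain ⟨z, hz⟩ := exists_pair hB hv
  have hz' : B v z = -1 := by rw [skew hB, hz]
  obtain ⟨w₀, hw₀⟩ : ∃ w₀, B (u - B z u • v) w₀ ≠ 0 ∨ B u v ≠ 0 := by
    obtain ⟨w₀, hw⟩ := hB.nondeg (u - B z u • v) fun h => hu
      (mem_lineF.2 ⟨B z u, (sub_eq_zero.1 h).symm⟩)
    exact ⟨w₀, Or.inl hw⟩
  by_cases huv : B u v = 0
  · have hw := hw₀.resolve_right (not_not.2 huv)
    set w₁ := w₀ + B v w₀ • z with hw₁
    have h1 : B v w₁ = 0 := by simp [hw₁, hz']
    have h2 : B u w₁ ≠ 0 := by
      have e : B u w₁ = B (u - B z u • v) w₀ := by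
        simp [hw₁, skew hB u z]
        ring
      rwa [e]
    exact ⟨(B u w₁)⁻¹ • w₁, by simp [h1], by simp [inv_mul_cancel₀ h2]⟩
  · exact ⟨(B u v)⁻¹ • v, by simp [hB.alt], by simp [inv_mul_cancel₀ huv]⟩

lemma moves_of_ne {a b : V} (h : B a b ≠ 0) : Moves B M a b := by
  have hd : B a (b - a) ≠ 0 := by simpa [hB.alt] using h
  obtain ⟨g, hg, hgy⟩ := hB.transv (b - a) (B a (b - a))⁻¹
  refine ⟨g, hg, by rw [hgy, inv_mul_cancel₀ hd, one_smul, add_sub_cancel], fun l y => ?_,
    fun x y => ?_⟩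
  · rw [hgy, hgy, map_smul, LinearMap.smul_apply, smul_eq_mul, smul_add, smul_smul]
    congr 2; ring
  · rw [hgy, hgy]
    simp only [map_add, map_smul, LinearMap.add_apply, LinearMap.smul_apply, smul_eq_mul, hB.alt,
      skew hB (b - a) y]
    ring

lemma moves {w w' : V} (hw : w ≠ 0) (hw' : w' ≠ 0) : Moves B M w w' := by
  obtain ⟨z, hz⟩ : ∃ z, B w z ≠ 0 ∧ B w' z ≠ 0 := by
    obtain ⟨z₁, h1⟩ := hB.nondeg w hw
    obtain ⟨z₂, h2⟩ := hB.nondeg w' hw'
    by_cases h3 : B w' z₁ = 0
    · by_cases h4 : B w z₂ = 0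
      · exact ⟨z₁ + z₂, by simpa [h4] using h1, by simpa [h3] using h2⟩
      · exact ⟨z₂, h4, h2⟩
    · exact ⟨z₁, h1, h3⟩
  obtain ⟨g, hg, hgw, hgl, hgB⟩ := moves_of_ne hB hz.1
  obtain ⟨g', hg', hgw', hgl', hgB'⟩ := moves_of_ne hB (a := z) (b := w') (by
    rw [skew hB]; exact neg_ne_zero.2 hz.2)
  exact ⟨g' * g, M.mul_mem hg' hg, by rw [LinearEquiv.mul_apply, hgw, hgw'],
    fun l y => by simp [LinearEquiv.mul_apply, hgl, hgl'], fun x y => by
      simp [LinearEquiv.mul_apply, hgB, hgB']⟩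

variable {a : V}

lemma root_add {τ τ' : L →ₗ[F] L} (h : Root B M a τ) (h' : Root B M a τ') : Root B M a (τ + τ') :=
  (h.add h' fun y => by simp [hB.alt]).congr fun y => by simp [add_smul]

lemma root_neg {τ : L →ₗ[F] L} (h : Root B M a τ) : Root B M a (-τ) :=
  (h.neg fun y => by simp [hB.alt]).congr fun y => by simp

lemma root_mul (μ : L) : Root B M a (LinearMap.mulLeft F μ) := by
  obtain ⟨g, hg, hgy⟩ := hB.transv a μ
  exact ⟨g, hg, fun y => by rw [hgy]; simp⟩

lemma root_smul_left {τ : L →ₗ[F] L} (h : Root B M a τ) {l : L} (ha : a ≠ 0) (hl : l ≠ 0) :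
    Root B M a (LinearMap.mulLeft F l ∘ₗ τ ∘ₗ LinearMap.mulLeft F l) := by
  obtain ⟨g, hg, hga, hgl, hgB⟩ := moves hB ha (smul_ne_zero hl ha)
  refine (h.conj hg).congr fun y => ?_
  change (l * τ (l * B y a)) • a = g (τ (B (g.symm y) a) • a)
  have e : B (g.symm y) a = l * B y a := by
    have := hgB (g.symm y) a
    rw [g.apply_symm_apply, hga, map_smul, smul_eq_mul] at this
    exact this.symm
  rw [hgl, hga, smul_smul, e, mul_comm]

/-- `z ↦ z + Tr (p z) e`. -/
noncomputable def tmap (e p : L) : L →ₗ[F] L := LinearMap.id + (Tr ∘ₗ LinearMap.mulLeft F p).smulRight e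

omit hB in
lemma tmap_apply (e p z : L) : tmap (F := F) e p z = z + Tr (p * z) • e := rfl

/-- The trace adjoint of the action on the line. -/
lemma adjoint_line {x : V ≃ₗ[F] V} (hx : x ∈ M) {e p : L}
    (hxa : ∀ l : L, x (l • a) = (l + Tr (p * l) • e) • a) (y : V) :
    B (x.symm y) a = B y a + Tr (e * B y a) • p := eq_of_trace (F := F) fun l => by
  have h := hB.pres x hx (x.symm y) (l • a)
  rw [x.apply_symm_apply, hxa] at h
  simp only [LinearMap.map_smul (B _), smul_eq_mul] at h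
  rw [← h, add_mul, smul_mul_assoc, map_add, map_smul, mul_add, map_add, trace_smul_mul, smul_eq_mul,
    mul_comm l p]
  ring

/-- Conjugating by an element inducing a transvection on the line. -/
lemma root_conj {τ : L →ₗ[F] L} (h : Root B M a τ) {x : V ≃ₗ[F] V} (hx : x ∈ M) {e p : L}
    (hxa : ∀ l : L, x (l • a) = (l + Tr (p * l) • e) • a) :
    Root B M a (tmap e p ∘ₗ τ ∘ₗ tmap p e) := by
  refine (h.conj hx).congr fun y => ?_
  change tmap e p (τ (tmap p e (B y a))) • a = x (τ (B (x.symm y) a) • a)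
  rw [hxa, tmap_apply, tmap_apply, adjoint_line hB hx hxa]

/-- The alternating part. -/
noncomputable def altMap (e q : L) : L →ₗ[F] L :=
  (Tr ∘ₗ LinearMap.mulLeft F e).smulRight q + (Tr ∘ₗ LinearMap.mulLeft F q).smulRight e

omit hB in
lemma altMap_apply (e q β : L) : altMap (F := F) e q β = Tr (e * β) • q + Tr (q * β) • e := rfl

/-- The symmetric square. -/
noncomputable def sqMap (c : F) (e : L) : L →ₗ[F] L := c • (Tr ∘ₗ LinearMap.mulLeft F e).smulRight e

omit hB in
lemma sqMap_apply (c : F) (e β : L) : sqMap c e β = (c * Tr (e * β)) • e := by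
  simp [sqMap, smul_smul]

variable {x : V ≃ₗ[F] V} {e p : L}

lemma root_delta (hx : x ∈ M) (hxa : ∀ l : L, x (l • a) = (l + Tr (p * l) • e) • a) (hp : p ≠ 0) (q : L) :
    Root B M a (altMap e q + sqMap (Tr (p * q)) e) := by
  have h1 : Root B M a _ := root_conj hB (root_mul hB (q * p⁻¹)) hx hxa
  refine (root_add hB h1 (root_neg hB (root_mul hB (q * p⁻¹)))).congr fun y => ?_
  simp only [rootMap_apply, LinearMap.add_apply, LinearMap.neg_apply, LinearMap.comp_apply,
    tmap_apply, LinearMap.mulLeft_apply, altMap_apply, sqMap_apply]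
  congr 1
  simp only [mul_add, map_add, add_smul, mul_smul_comm, map_smul, smul_eq_mul]
  rw [inv_mul_cancel_right₀ hp, show p * (q * p⁻¹ * B.flip a y) = q * B.flip a y by field_simp]
  rw [mul_comm (Tr (p * q))]
  abel

/-- Elements acting trivially on `a^⊥` modulo `L a` give the alternating part. -/
lemma root_alt_of_mod (hx : x ∈ M) (hxa : ∀ l : L, x (l • a) = (l + Tr (p * l) • e) • a)
    (h2 : (2 : F) = 0)
    (hmod : ∀ y, B y a = 0 → ∃ l : L, x y = y + l • a)
    {b b' : V} (hb : B b a = 0) (hb' : B b' a = 0) :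
    Root B M a (altMap e (B b' b * p)) := by
  have two : (2 : L) = 0 := by
    have := congrArg (algebraMap F L) h2
    rwa [map_ofNat, map_zero] at this
  have hmem : ∀ b, B b a = 0 → ∃ g ∈ M, ∀ y, g y = y + B y a • b + B y b • a := by
    intro b hb
    obtain ⟨g1, h1, e1⟩ := hB.transv (a + b) 1
    obtain ⟨g2, h2', e2⟩ := hB.transv a (-1)
    obtain ⟨g3, h3, e3⟩ := hB.transv b (-1)
    refine ⟨g1 * g2 * g3, M.mul_mem (M.mul_mem h1 h2') h3, fun y => ?_⟩
    have hab : B a b = 0 := by rw [skew hB, hb, neg_zero]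
    simp only [LinearEquiv.mul_apply, e1, e2, e3, map_add, map_smul, LinearMap.add_apply,
      LinearMap.smul_apply, smul_eq_mul, hB.alt, hb, hab]
    module
  have hab : B a b = 0 := by rw [skew hB, hb, neg_zero]
  have hab' : B a b' = 0 := by rw [skew hB, hb', neg_zero]
  obtain ⟨g₁, hg₁, e₁⟩ := hmem b hb
  obtain ⟨g₂, hg₂, e₂⟩ := hmem b' hb'
  set u₁ := x * g₁ * x⁻¹ with hu₁
  have hu : u₁ ∈ M := M.mul_mem (M.mul_mem hx hg₁) (M.inv_mem hx)
  have hu₁y : ∀ y, ∃ l : L, u₁ y = y + tmap (F := F) p e (B y a) • b + l • a := by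
    intro y
    obtain ⟨l, hl⟩ := hmod (tmap (F := F) p e (B y a) • b) (by simp [hb])
    refine ⟨l + tmap (F := F) e p (B (x.symm y) b), ?_⟩
    change x (g₁ (x.symm y)) = _
    rw [e₁, map_add, map_add, x.apply_symm_apply, adjoint_line hB hx hxa, hxa, ← tmap_apply, ← tmap_apply,
      hl, add_smul]
    abel
  have hu₁b : ∀ γ : L, u₁ (γ • b') = γ • b' + tmap (F := F) e p (γ * B b' b) • a := by
    intro γ
    have h0 : B (γ • b') a = 0 := by simp [hb']
    have h0' : B (x.symm (γ • b')) a = 0 := by rw [adjoint_line hB hx hxa, h0]; simp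
    obtain ⟨c, hc⟩ := hmod (x.symm (γ • b')) h0'
    rw [x.apply_symm_apply] at hc
    have hB' : B (x.symm (γ • b')) b = γ * B b' b := by
      rw [← add_sub_cancel_right (x.symm (γ • b')) (c • a), ← hc]
      simp [hab]
    change x (g₁ (x.symm (γ • b'))) = _
    rw [e₁, h0', zero_smul, add_zero, map_add, x.apply_symm_apply, hB', hxa, ← tmap_apply]
  have hu₁a : ∀ γ : L, u₁ (γ • a) = γ • a := by
    intro γ
    have h0' : B (x.symm (γ • a)) a = 0 := by
      rw [adjoint_line hB hx hxa, map_smul, LinearMap.smul_apply, hB.alt]; simp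
    obtain ⟨c, hc⟩ := hmod (x.symm (γ • a)) h0'
    rw [x.apply_symm_apply] at hc
    have hB' : B (x.symm (γ • a)) b = 0 := by
      rw [← add_sub_cancel_right (x.symm (γ • a)) (c • a), ← hc]
      simp [hab]
    change x (g₁ (x.symm (γ • a))) = _
    rw [e₁, h0', hB']
    simp
  refine ⟨u₁ * g₂ * (g₂ * u₁)⁻¹, M.mul_mem (M.mul_mem hu hg₂) (M.inv_mem (M.mul_mem hg₂ hu)), ?_⟩
  intro z
  obtain ⟨y, rfl⟩ : ∃ y, z = g₂ (u₁ y) := ⟨(g₂ * u₁).symm z, ((g₂ * u₁).apply_symm_apply z).symm⟩
  have hinv : (g₂ * u₁)⁻¹ (g₂ (u₁ y)) = y := (g₂ * u₁).symm_apply_apply y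
  rw [LinearEquiv.mul_apply, hinv, LinearEquiv.mul_apply, rootMap_apply]
  obtain ⟨l, hl⟩ := hu₁y y
  rw [e₂ y, map_add, map_add, hu₁b, hu₁a, hl, e₂ _]
  simp only [map_add, map_smul, LinearMap.add_apply, LinearMap.smul_apply, smul_eq_mul, hb, hb', hB.alt,
    hab', LinearMap.flip_apply, skew hB b b', mul_zero, add_zero, altMap_apply, tmap_apply]
  rw [show p * (B y a * B b' b) = B b' b * p * B y a by ring]
  match_scalars <;> simp [Algebra.smul_def] <;> linear_combination (B y a * B b' b) * two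

/-- Some symmetric square of the centre is a root element. -/
lemma exists_sq (hr : (finrank F L).Prime) (h3 : 3 ≤ finrank L V ∨ 3 ≤ finrank F L) (hx : x ∈ M)
    (hxa : ∀ l : L, x (l • a) = (l + Tr (p * l) • e) • a) (ha : a ≠ 0) (hp : p ≠ 0) (he : e ≠ 0)
    (hpe : Tr (p * e) = 0)
    (hmod : finrank F L = 2 → ∀ y, B y a = 0 → ∃ l : L, x y = y + l • a) :
    ∃ c : F, c ≠ 0 ∧ Root B M a (sqMap c e) := by
  by_cases h2 : (2 : F) = 0
  · obtain ⟨q, hq, hroot⟩ : ∃ q, Tr (p * q) ≠ 0 ∧ Root B M a (altMap e q) := by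
      by_cases hr2 : finrank F L = 2
      · obtain ⟨q, hq⟩ : ∃ q, Tr (p * q) ≠ 0 := by
          obtain ⟨l, hl⟩ := Algebra.trace_surjective F L 1
          exact ⟨p⁻¹ * l, by rw [mul_inv_cancel_left₀ hp, hl]; exact one_ne_zero⟩
        obtain ⟨b, hba, hb⟩ : ∃ b, B b a = 0 ∧ b ∉ lineF L a (F := F) := by
          by_contra! h
          have h1 := Submodule.finrank_mono (show LinearMap.ker (B.flip a) ≤ Submodule.span L {a} from
            fun y hy => h y hy)
          have h2' := LinearMap.finrank_range_add_finrank_ker (B.flip a)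
          have h3' := Submodule.finrank_le (LinearMap.range (B.flip a))
          rw [finrank_span_singleton ha] at h1
          rw [finrank_self] at h3'
          omega
        obtain ⟨b', hab', hbb'⟩ := exists_sep hB ha hb
        refine ⟨q, hq, ?_⟩
        have h := root_alt_of_mod hB hx hxa h2 (hmod hr2) hba (b' := (-(q * p⁻¹)) • b')
          (by simp [skew hB b' a, hab'])
        rwa [map_smul, LinearMap.smul_apply, smul_eq_mul, skew hB b' b, hbb', neg_mul_neg, mul_one,
          inv_mul_cancel_right₀ hp] at h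
      · obtain ⟨l, hl⟩ := Algebra.trace_surjective F L 1
        refine ⟨p⁻¹ * l, by rw [mul_inv_cancel_left₀ hp, hl]; exact one_ne_zero, ?_⟩
        let alt : L →ₗ[F] L →ₗ[F] (L →ₗ[F] L) := LinearMap.mk₂ F (altMap (F := F))
          (fun a b c => LinearMap.ext fun β => by
            simp only [altMap_apply, LinearMap.add_apply, add_mul, map_add, add_smul, smul_add]; abel)
          (fun c a b => LinearMap.ext fun β => by
            simp only [altMap_apply, LinearMap.smul_apply, smul_mul_assoc, map_smul, smul_eq_mul,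
              mul_smul, smul_add, smul_comm c])
          (fun a b c => LinearMap.ext fun β => by
            simp only [altMap_apply, LinearMap.add_apply, add_mul, map_add, add_smul, smul_add]; abel)
          (fun c a b => LinearMap.ext fun β => by
            simp only [altMap_apply, LinearMap.smul_apply, smul_mul_assoc, map_smul, smul_eq_mul,
              mul_smul, smul_add, smul_comm c])
        let S : Submodule F (L →ₗ[F] L) :=
          { carrier := {τ | ∀ c : F, Root B M a (c • τ)}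
            zero_mem' := fun c => by rw [smul_zero]; exact InM.zero.congr fun y => by simp
            add_mem' := fun {τ τ'} h h' c => by rw [smul_add]; exact root_add hB (h c) (h' c)
            smul_mem' := fun d τ h c => by rw [smul_smul]; exact h _ }
        suffices h : altMap e (p⁻¹ * l) ∈ S by simpa using h 1
        by_contra hnot
        obtain ⟨Ψ, hΨ, hker⟩ := Submodule.exists_le_ker_of_notMem hnot
        let ω : L →ₗ[F] L →ₗ[F] F := alt.compr₂ Ψ
        have h3r : 3 ≤ finrank F L := by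
          have := hr.two_le; omega
        obtain ⟨q, hq, hqe⟩ := exists_ker_not_mem_span h3r p e
        have two : (2 : L) = 0 := by
          have := congrArg (algebraMap F L) h2
          rwa [map_ofNat, map_zero] at this
        have hω : ω = 0 := by
          refine eq_zero_of_vanish hr ω (fun z => ?_) hqe he fun k => ?_
          · have : altMap (F := F) z z = 0 := LinearMap.ext fun β => by
              rw [altMap_apply, ← two_smul F, h2, zero_smul, LinearMap.zero_apply]
            show Ψ (altMap z z) = 0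
            rw [this, map_zero]
          · refine LinearMap.mem_ker.1 (hker ?_)
            show ∀ c : F, Root B M a (c • altMap (k * e) (k * q))
            intro c
            rcases eq_or_ne k 0 with rfl | hk
            · exact InM.zero.congr fun y => by simp [altMap_apply]
            have h := root_delta hB hx hxa hp (c • q)
            rw [mul_smul_comm, map_smul, hq, smul_zero] at h
            refine (root_smul_left hB h ha hk).congr fun y => ?_
            simp only [rootMap_apply, LinearMap.comp_apply, LinearMap.add_apply, LinearMap.smul_apply,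
              LinearMap.mulLeft_apply, altMap_apply, sqMap_apply, zero_mul, zero_smul, add_zero,
              mul_add, mul_smul_comm, smul_mul_assoc, map_smul, smul_eq_mul, smul_smul, smul_add,
              ← mul_assoc]
            ring_nf
        exact hΨ (congrFun (congrArg (fun f => fun z => f e z) hω) (p⁻¹ * l))
    refine ⟨Tr (p * q), hq, ?_⟩
    exact (root_add hB (root_delta hB hx hxa hp q) (root_neg hB hroot)).congr fun y => by simp
  · refine ⟨2, h2, (root_delta hB hx hxa hp e).congr fun y => ?_⟩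
    simp [altMap_apply, sqMap_apply, hpe, two_smul, ← add_smul, two_mul]

/-- One transvection over `F` gives all of them. -/
theorem transvections_of_sq {c₀ : F} (hc₀ : c₀ ≠ 0) (ha : a ≠ 0) (he : e ≠ 0)
    (h : Root B M a (sqMap c₀ e)) (c : F) (w : V) :
    InM M ((c • (Tr ∘ₗ (B.flip w).restrictScalars F)).smulRight w) := by
  classical
  haveI : Finite F := Finite.of_injective _ (algebraMap F L).injective
  rcases eq_or_ne w 0 with rfl | hw
  · exact InM.zero.congr fun y => by simp
  have hsq : ∀ s : F, InM M (((c₀ * s ^ 2) • (Tr ∘ₗ (B.flip w).restrictScalars F)).smulRight w) := by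
    intro s
    rcases eq_or_ne s 0 with rfl | hs
    · exact InM.zero.congr fun y => by simp
    obtain ⟨g, hg, hgw, hgl, hgB⟩ := moves hB (smul_ne_zero he ha) (smul_ne_zero hs hw)
    refine (h.conj hg).congr fun y => ?_
    change ((c₀ * s ^ 2) • Tr (B y w)) • w = g (sqMap c₀ e (B (g.symm y) a) • a)
    have h1 : e * B (g.symm y) a = s • B y w := by
      have := hgB (g.symm y) (e • a)
      rw [g.apply_symm_apply, hgw] at this
      simpa [LinearMap.map_smul_of_tower] using this.symm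
    rw [sqMap_apply, h1, smul_assoc (c₀ * _) e a, LinearEquiv.map_smul, hgw, smul_smul, LinearMap.map_smul, smul_eq_mul, smul_eq_mul]
    congr 1
    ring
  let G : AddSubgroup F :=
    { carrier := {c | InM M ((c • (Tr ∘ₗ (B.flip w).restrictScalars F)).smulRight w)}
      zero_mem' := InM.zero.congr fun y => by simp
      add_mem' := fun {s t} hs ht => (hs.add ht fun y => by simp [hB.alt]).congr fun y => by
        simp [add_smul]
      neg_mem' := fun {s} hs => (hs.neg fun y => by simp [hB.alt]).congr fun y => by simp }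
  show c ∈ G
  by_cases h2 : (2 : F) = 0
  · letI := Fintype.ofFinite F
    have hchar : ringChar F = 2 := by
      haveI : Fact (Nat.Prime 2) := ⟨Nat.prime_two⟩
      haveI : CharP F 2 := (CharP.charP_iff_prime_eq_zero Nat.prime_two).2 (by exact_mod_cast h2)
      exact ringChar.eq F 2
    obtain ⟨s, hs⟩ := FiniteField.isSquare_of_char_two hchar (c * c₀⁻¹)
    rw [show c = c₀ * s ^ 2 by rw [sq, ← hs]; field_simp]
    exact hsq s
  · have h1 := G.sub_mem (hsq ((c * c₀⁻¹ + 1) / 2)) (hsq ((c * c₀⁻¹ - 1) / 2))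
    rwa [show c₀ * ((c * c₀⁻¹ + 1) / 2) ^ 2 - c₀ * ((c * c₀⁻¹ - 1) / 2) ^ 2 = c by field_simp; ring]
      at h1

/-- The overgroup is semilinear or contains all transvections over the ground field. -/
theorem semiLin_or_transvections [Finite V] (hr : (finrank F L).Prime) (h2 : 2 ≤ finrank L V)
    (h3 : 3 ≤ finrank L V ∨ 3 ≤ finrank F L) :
    M ≤ semiLin F L V ∨ ∀ (c : F) (w : V),
      InM M ((c • (Tr ∘ₗ (B.flip w).restrictScalars F)).smulRight w) := by
  classical
  by_cases hsl : M ≤ semiLin F L V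
  · exact Or.inl hsl
  right
  obtain ⟨g, hgM, hg⟩ := SetLike.not_le_iff_exists.1 hsl
  obtain ⟨x₁, l₁, hmv⟩ : ∃ (x₁ : V) (l : L), g (l • x₁) ∉ lineF L (g x₁) (F := F) := by
    by_contra! h
    exact hg (mem_semiLin_of_lines h2 h)
  have hx₁ : x₁ ≠ 0 := fun h => hmv (by simp [h])
  have hP : ∀ (l : L) (a : V), True → True := fun _ _ _ => trivial
  obtain ⟨h₀, v₀, x₀, hp₀⟩ := exists_isMaxPair (L := L) (P := fun _ : V => True) (M := M)
    (h := g) (v := g x₁) (x₀ := x₁) ⟨hgM, trivial, trivial, by simpa using hx₁, hx₁,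
      ⟨x₁, self_mem_lineF x₁, rfl⟩, fun he => hmv
        (he ▸ (⟨l₁ • x₁, mem_lineF.2 ⟨l₁, rfl⟩, rfl⟩ :
          g (l₁ • x₁) ∈ (lineF L x₁).map (g : V →ₗ[F] V)))⟩
  have hfiso : ∀ {h : V ≃ₗ[F] V} {x₀ y z : V}, h ∈ M → y ∈ (lineF L x₀).map (h : V →ₗ[F] V) →
      z ∈ (lineF L x₀).map (h : V →ₗ[F] V) → Tr (B y z) = 0 := by
    rintro h x₀ _ _ hh ⟨y, hy, rfl⟩ ⟨z, hz, rfl⟩
    obtain ⟨k, rfl⟩ := mem_lineF.1 hy
    obtain ⟨k', rfl⟩ := mem_lineF.1 hz
    rw [show Tr (B ((h : V →ₗ[F] V) (k • x₀)) ((h : V →ₗ[F] V) (k' • x₀))) = _ from hB.pres h hh _ _]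
    simp [hB.alt]
  -- some maximal pair with a non-orthogonal member
  obtain ⟨h, v, x₀, hp, u₀, hu₀, hγ⟩ : ∃ h v x₀, IsMaxPair L (fun _ : V => True) M h v x₀ ∧
      ∃ u₀ ∈ (lineF L x₀).map (h : V →ₗ[F] V), B u₀ v ≠ 0 := by
    by_cases hc : ∃ u₀ ∈ (lineF L x₀).map (h₀ : V →ₗ[F] V), B u₀ v₀ ≠ 0
    · exact ⟨h₀, v₀, x₀, hp₀, hc⟩
    push Not at hc
    obtain ⟨⟨hh, -, -, hv, hx, hvS, hSne⟩, hmax⟩ := hp₀
    set S := (lineF L x₀).map (h₀ : V →ₗ[F] V) with hS
    obtain ⟨u, huS, hu⟩ : ∃ u ∈ S, u ∉ lineF L v₀ (F := F) := by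
      by_contra! hc'
      exact hSne (Submodule.eq_of_le_of_finrank_eq hc' (by
        rw [hS, LinearEquiv.finrank_map_eq, finrank_lineF hv, finrank_lineF hx]))
    obtain ⟨w, hvw, huw⟩ := exists_sep hB hv hu
    obtain ⟨c, hc1⟩ := Algebra.trace_surjective F L 1
    obtain ⟨t, ht, hty⟩ := hB.transv w c
    have htu : Tr (B u (t u)) = 1 := by
      rw [hty, huw, map_add, hB.alt, zero_add, map_smul, huw]
      simpa using hc1
    have hne : S.map (t : V →ₗ[F] V) ≠ S := fun he => by
      rw [hfiso hh huS (show t u ∈ S from he ▸ ⟨u, huS, rfl⟩)] at htu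
      exact zero_ne_one htu
    have hfix : ∀ y ∈ lineF L v₀ (F := F), t y = y := fun y hy => by
      obtain ⟨k, rfl⟩ := mem_lineF.1 hy
      rw [hty]; simp [hvw]
    obtain ⟨hpair, hdim, hle⟩ := IsMaxPair.meet_le ⟨⟨hh, trivial, trivial, hv, hx, hvS, hSne⟩, hmax⟩
      hP ht hv hvS ⟨v₀, hvS, hfix v₀ (self_mem_lineF v₀)⟩ hne
    refine ⟨h₀⁻¹ * t * h₀, h₀.symm v₀, x₀, ⟨hpair, fun a b c hp' => (hmax a b c hp').trans ?_⟩,
      h₀.symm (t u), ?_, ?_⟩
    · rw [hdim]
      exact Submodule.finrank_mono fun y hy => ⟨⟨y, hy.2, hfix y hy.1⟩, hy.2⟩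
    · obtain ⟨z, hz, hzu⟩ := huS
      exact ⟨z, hz, by rw [← hzu]; rfl⟩
    · intro h0
      obtain ⟨z, hz, hzu⟩ := huS
      obtain ⟨z', hz', hzv⟩ := hvS
      obtain ⟨k, rfl⟩ := mem_lineF.1 hz
      obtain ⟨k', rfl⟩ := mem_lineF.1 hz'
      have hk' : k' ≠ 0 := fun h => hv (by rw [← hzv, h]; simp)
      have hu' : h₀.symm u = k • x₀ := by rw [LinearEquiv.symm_apply_eq]; exact hzu.symm
      have hv' : h₀.symm v₀ = k' • x₀ := by rw [LinearEquiv.symm_apply_eq]; exact hzv.symm
      rw [hv', map_smul, smul_eq_mul, mul_eq_zero] at h0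
      have h1 := hB.pres h₀ hh (k • x₀) (h₀.symm (t u))
      rw [h₀.apply_symm_apply, show h₀ (k • x₀) = u from hzu, map_smul, LinearMap.smul_apply,
        skew hB x₀, h0.resolve_left hk'] at h1
      rw [htu] at h1
      simp at h1
  choose t ht hty using hB.transv v
  obtain ⟨c, φ, e, hφ, he, hφe, hxM, hxa⟩ := hp.exists_transvection hr hP t ht
    ((B.flip v).restrictScalars F) (fun l => by simp [hB.alt]) (fun c y _ => hty c y) hu₀ hγ
  obtain ⟨p, hp'⟩ := exists_trace_eq φ
  have hp0 : p ≠ 0 := fun h0 => hφ (LinearMap.ext fun z => by simp [hp', h0])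
  have hx₀ : x₀ ≠ 0 := hp.1.2.2.2.2.1
  simp only [hp'] at hxa
  suffices hmod : finrank F L = 2 → ∀ y, B y x₀ = 0 → ∃ l : L, (h⁻¹ * t c * h) y = y + l • x₀ by
    obtain ⟨c₀, hc₀, hroot⟩ := exists_sq hB hr h3 hxM hxa hx₀ hp0 he (by rw [← hp', hφe]) hmod
    exact transvections_of_sq hB hc₀ hx₀ he hroot
  intro hr2
  set x := h⁻¹ * t c * h with hxdef
  set N : V →ₗ[F] V := (x : V →ₗ[F] V) - LinearMap.id
  have hNimg : LinearMap.range N ≤ (lineF L v).map (h.symm : V →ₗ[F] V) := by
    rintro _ ⟨y, rfl⟩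
    refine ⟨(c * B (h y) v) • v, mem_lineF.2 ⟨_, rfl⟩, ?_⟩
    change h.symm _ = h.symm (t c (h y)) - y
    rw [hty, map_add, h.symm_apply_apply, add_sub_cancel_left]
  obtain ⟨z₁, hz₁⟩ : ∃ z, φ z ≠ 0 := by
    by_contra! h
    exact hφ (LinearMap.ext h)
  have hea : e • x₀ ∈ LinearMap.range N := ⟨((φ z₁)⁻¹ • z₁) • x₀, by
    change x (((φ z₁)⁻¹ • z₁) • x₀) - ((φ z₁)⁻¹ • z₁) • x₀ = _
    rw [hxa, ← hp', map_smul, smul_eq_mul, inv_mul_cancel₀ hz₁, one_smul, add_smul, add_sub_cancel_left]⟩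
  have hea0 : e • x₀ ≠ 0 := smul_ne_zero he hx₀
  intro y hy
  have hyN : N y ∈ F ∙ (e • x₀) := by
    by_contra hnot
    have hle : F ∙ (e • x₀) ⊔ F ∙ N y ≤ LinearMap.range N :=
      sup_le (by simpa using hea) (by rw [Submodule.span_singleton_le_iff_mem]; exact ⟨y, rfl⟩)
    have hdim : finrank F ↥(LinearMap.range N) ≤ 2 := by
      refine (Submodule.finrank_mono hNimg).trans (le_of_eq ?_)
      rw [LinearEquiv.finrank_map_eq, finrank_lineF hp.1.2.2.2.1, hr2]
    have hlt : F ∙ (e • x₀) < F ∙ (e • x₀) ⊔ F ∙ N y := lt_of_le_of_ne le_sup_left fun h' =>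
      hnot (h' ▸ Submodule.mem_sup_right (Submodule.mem_span_singleton_self _))
    have h4 := Submodule.finrank_lt_finrank_of_lt hlt
    rw [finrank_span_singleton hea0] at h4
    have heq : F ∙ (e • x₀) ⊔ F ∙ N y = LinearMap.range N :=
      Submodule.eq_of_le_of_finrank_le hle (by omega)
    -- then the range would be orthogonal to the line
    have horth : ∀ z ∈ LinearMap.range N, B z x₀ = 0 := by
      have hNy : B (N y) x₀ = 0 := by
        change B (x y - y) x₀ = 0
        rw [map_sub, LinearMap.sub_apply, hy, sub_zero]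
        have h5 : B (x y) x₀ = B y x₀ + Tr (e * B y x₀) • p - Tr (e * B y x₀) • p := by
          have := adjoint_line hB hxM hxa (x y)
          rw [x.symm_apply_apply, hy] at this
          rw [hy]
          rcases eq_or_ne (Tr (e * B (x y) x₀)) 0 with h6 | h6
          · rw [h6, zero_smul, add_zero] at this
            rw [← this]; simp
          · exfalso
            have h7 : B (x y) x₀ = -(Tr (e * B (x y) x₀) • p) := eq_neg_of_add_eq_zero_left this.symm
            have h8 := congrArg (fun z => Tr (e * z)) h7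
            simp only [mul_neg, map_neg, trace_smul_mul, mul_comm e p] at h8
            rw [← hp', hφe, mul_zero, neg_zero] at h8
            exact h6 h8
        rw [h5, hy]; simp
      intro z hz
      rw [← heq] at hz
      obtain ⟨z1, h1, z2, h2, rfl⟩ := Submodule.mem_sup.1 hz
      obtain ⟨s1, rfl⟩ := Submodule.mem_span_singleton.1 h1
      obtain ⟨s2, rfl⟩ := Submodule.mem_span_singleton.1 h2
      simp [hB.alt, hNy]
    obtain ⟨z, hz⟩ := exists_pair hB hea0
    obtain ⟨l, hl⟩ := Algebra.trace_surjective F L 1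
    have h9 := hB.pres x hxM (l • z) (((φ z₁)⁻¹ • z₁) • x₀)
    have h10 : x (((φ z₁)⁻¹ • z₁) • x₀) = ((φ z₁)⁻¹ • z₁) • x₀ + e • x₀ := by
      rw [hxa, ← hp', map_smul, smul_eq_mul, inv_mul_cancel₀ hz₁, one_smul, add_smul]
    have h11 : B (x (l • z)) x₀ = B (l • z) x₀ := by
      have := horth (N (l • z)) ⟨_, rfl⟩
      change B (x (l • z) - l • z) x₀ = 0 at this
      rwa [map_sub, LinearMap.sub_apply, sub_eq_zero] at this
    rw [h10, map_add, LinearMap.map_smul (B (x (l • z))), LinearMap.map_smul (B (x (l • z))), h11,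
      ← LinearMap.map_smul (B (l • z)), ← LinearMap.map_smul (B (l • z)), map_add] at h9
    rw [map_smul B l z, LinearMap.smul_apply, LinearMap.smul_apply, hz, smul_eq_mul, smul_eq_mul,
      mul_one, hl] at h9
    simp at h9
  obtain ⟨s, hs⟩ := Submodule.mem_span_singleton.1 hyN
  refine ⟨s • e, ?_⟩
  change s • e • x₀ = x y - y at hs
  rw [smul_assoc, hs, add_sub_cancel]

end CfsgLib.C3Max.Symp
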